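import Cfsg.Agent.GeoMax.QuadEven

/-! Quadratic forms in characteristic two inside symplectic groups, dimension at least 3. -/

set_option autoImplicit false
set_option linter.unusedSectionVars false

namespace Cfsg.Agent.SmallDim

open Matrix
open scoped MatrixGroups
open Cfsg.Geo Cfsg.Agent.GeoMax Cfsg.Agent.GeoMax.Symp

namespace QEven4

variable {ι : Type} [Fintype ι] [DecidableEq ι] {F : Type*} [Field F] [Fintype F]
variable {f : (ι → F) → (ι → F) → F} {Q : (ι → F) → F}

open Cfsg.Agent.GeoMax.QEven (exists_sq neg_eq' Q_add tr_preserves sim_iff)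

variable (hf : IsSymplecticForm f) (hQ : IsNondegenerateQuadraticForm Q)
  (hpol : ∀ u v, QuadraticMap.polar Q u v = f u v) (h2 : (2 : F) = 0)

include hf hQ hpol h2

lemma exists_singular_nonorth (h5 : 3 ≤ Fintype.card ι) {x : ι → F} (hx : x ≠ 0) : ∃ u, Q u = 0 ∧ f u x ≠ 0 := by
  obtain ⟨⟨z, hz⟩, -⟩ := hf.nondegenerate x hx
  by_cases hz0 : Q z = 0
  · exact ⟨z, hz0, hz⟩
  obtain ⟨y, hyx, hyz, hy⟩ : ∃ y, f y x = 0 ∧ f y z = 0 ∧ Q y ≠ 0 := by
    by_contra hcon
    push Not at hcon
    classical
    let S : Submodule F (ι → F) := Submodule.span F (({x, z} : Finset (ι → F)) : Set (ι → F))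
    have hS : Module.finrank F S ≤ 2 :=
      (finrank_span_finset_le_card ({x, z} : Finset (ι → F))).trans Finset.card_le_two
    have hmem : ∀ y ∈ perp hf S, Q y = 0 := by
      intro y hy
      exact hcon y (mem_perp'.1 hy x (Submodule.subset_span (by simp)))
        (mem_perp'.1 hy z (Submodule.subset_span (by simp)))
    have hle : perp hf S ≤ perp hf (perp hf S) := by
      intro y hy w hw
      have h1 := hmem _ ((perp hf S).add_mem hw hy)
      rw [Q_add hpol, hmem w hw, hmem y hy] at h1
      simpa using h1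
    rw [perp_perp] at hle
    have h3 : perp hf S ≠ ⊥ := by
      intro h
      have h4 := finrank_perp hf S
      rw [h, finrank_bot] at h4
      omega
    obtain ⟨y, hy, hy0⟩ := Submodule.exists_mem_ne_zero_of_ne_bot h3
    have hyS := hle hy
    have hyx := mem_perp'.1 hy x (Submodule.subset_span (by simp))
    have hyz := mem_perp'.1 hy z (Submodule.subset_span (by simp))
    have hyS : y ∈ Submodule.span F (({x, z} : Finset (ι → F)) : Set (ι → F)) := hyS
    rw [Finset.coe_pair, Submodule.mem_span_pair] at hyS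
    obtain ⟨a, b, rfl⟩ := hyS
    rw [add_left hf, smul_left hf, smul_left hf, self hf, mul_zero, zero_add] at hyx
    rw [add_left hf, smul_left hf, smul_left hf, self hf, mul_zero, add_zero] at hyz
    have hb : b = 0 := (mul_eq_zero.1 hyx).resolve_right hz
    have hxz : f x z ≠ 0 := by rw [skew hf]; exact neg_ne_zero.2 hz
    have ha : a = 0 := (mul_eq_zero.1 hyz).resolve_right hxz
    apply hy0
    rw [ha, hb]; simp
  obtain ⟨c, hc⟩ := exists_sq h2 (Q z / Q y)
  refine ⟨z + c • y, ?_, ?_⟩
  · rw [Q_add hpol, hQ.smul, smul_right hf, skew hf z y, hyz, hc, div_mul_cancel₀ _ hy]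
    linear_combination (Q z) * h2
  · rw [add_left hf, smul_left hf, hyx, mul_zero, add_zero]; exact hz

/-- every non-zero vector is a sum of two non-orthogonal singular vectors -/
lemma exists_sing_sum (h5 : 3 ≤ Fintype.card ι) {x : ι → F} (hx : x ≠ 0) :
    ∃ u u' : ι → F, ∃ c : F, Q u = 0 ∧ Q u' = 0 ∧ x = u' + c • u ∧ f u' u ≠ 0 := by
  obtain ⟨u, hu, hux⟩ := exists_singular_nonorth hf hQ hpol h2 h5 hx
  refine ⟨u, x - (Q x / f u x) • u, Q x / f u x, hu, ?_, by abel, ?_⟩
  · rw [sub_eq_add_neg, ← neg_smul, Q_add hpol, hQ.smul, smul_right hf, skew hf x u, hu]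
    field_simp; linear_combination (Q x * f u x ^ 2) * h2
  · rw [sub_left hf, smul_left hf, self hf, mul_zero, sub_zero, skew hf]
    exact neg_ne_zero.2 hux

theorem maximal (h5 : 3 ≤ Fintype.card ι) :
    IsMaximalIn (isoGL f) (quadSimilarityGroup Q ⊓ isoGL f) := by
  have hcard : 3 ≤ Fintype.card ι := by omega
  have : Nonempty ι := Fintype.card_pos_iff.1 (by omega)
  have hne : ∃ v : ι → F, v ≠ 0 := ⟨Pi.single (Classical.arbitrary ι) 1, by simp⟩
  have hchar : ∀ a : F, -a = a := neg_eq' h2
  constructor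
  · refine lt_of_le_of_ne inf_le_right ?_
    intro heq
    have h1 : ∀ v : ι → F, v ≠ 0 → Q v = 1 := by
      intro v hv
      have hmem : tr hf v 1 ∈ quadSimilarityGroup Q ⊓ isoGL f := by rw [heq]; exact tr_mem_iso hf v 1
      have h3 := (sim_iff hf hQ hpol h2 (tr_mem_iso hf v 1) hne).1 hmem.1
      obtain ⟨⟨z, hz⟩, -⟩ := hf.nondegenerate v hv
      have h4 := h3 z
      rw [tr_mulVec, Q_add hpol, hQ.smul, smul_right hf] at h4
      have h5 : f z v ^ 2 * (Q v + 1) = 0 := by linear_combination h4
      rcases mul_eq_zero.1 h5 with h | h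
      · exact absurd (pow_eq_zero_iff (two_ne_zero)|>.1 h) hz
      · linear_combination h - h2
    obtain ⟨v, hv⟩ := hne
    obtain ⟨u, hu, huc⟩ := exists_dot_eq_zero_not_smul hcard (formVec f v) v
    rw [formVec_dotProduct (linLeft hf)] at hu
    have hu0 : u ≠ 0 := by
      have := huc 0; simpa using this
    have huv : u + v ≠ 0 := by
      intro h
      apply huc (-1)
      rw [neg_smul, one_smul]
      exact eq_neg_of_add_eq_zero_left h
    have h3 := h1 _ huv
    rw [Q_add hpol, h1 u hu0, h1 v hv, hu] at h3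
    have : (1 : F) = 0 := by linear_combination h3
    exact one_ne_zero this
  · intro M hHM hMI
    by_cases hMH : M = quadSimilarityGroup Q ⊓ isoGL f
    · exact Or.inl hMH
    right
    refine le_antisymm hMI ?_
    obtain ⟨g, hgM, hg⟩ : ∃ g ∈ M, g ∉ quadSimilarityGroup Q := by
      by_contra hcon
      push Not at hcon
      exact hMH (le_antisymm (fun g hg => ⟨hcon g hg, hMI hg⟩) hHM)
    have hgI := hMI hgM
    -- reflections
    have hrefl : ∀ v, Q v ≠ 0 → tr hf v (Q v)⁻¹ ∈ M := fun v hv =>
      hHM ⟨(sim_iff hf hQ hpol h2 (tr_mem_iso hf v _) hne).2 fun x => tr_preserves hf hQ hpol hv x h2,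
        tr_mem_iso hf v _⟩
    -- a singular vector with a transvection in `M`
    obtain ⟨v, c, hv, hv0, hc, htv⟩ : ∃ (v : ι → F) (c : F), Q v = 0 ∧ v ≠ 0 ∧ c ≠ 0 ∧ tr hf v c ∈ M := by
      by_contra hcon
      push Not at hcon
      -- singular vectors stay singular under `g⁻¹`
      have hs : ∀ v, Q v = 0 → Q (((g⁻¹ : GL ι F) : Matrix ι ι F) *ᵥ v) = 0 := by
        intro v hv
        by_cases hv0 : v = 0
        · rw [hv0, Matrix.mulVec_zero]; rw [hv0] at hv; exact hv
        by_contra hne'
        have h3 := M.mul_mem (M.mul_mem hgM (hrefl _ hne')) (M.inv_mem hgM)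
        rw [tr_conj hf hgI, gl_mulVec_inv] at h3
        exact hcon v _ hv hv0 (inv_ne_zero hne') h3
      apply hg
      have hgi : g⁻¹ ∈ isoGL f := (isoGL f).inv_mem hgI
      have : g⁻¹ ∈ quadSimilarityGroup Q := by
        rw [sim_iff hf hQ hpol h2 hgi hne]
        intro x
        by_cases hx : x = 0
        · rw [hx, Matrix.mulVec_zero]
        obtain ⟨u, u', a, hu, hu', rfl, -⟩ := exists_sing_sum hf hQ hpol h2 h5 hx
        rw [Matrix.mulVec_add, Matrix.mulVec_smul, Q_add hpol, Q_add hpol, hQ.smul, hQ.smul, hs u hu, hs u' hu', hu, hu',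
          smul_right hf, smul_right hf, mem_isoGL.1 hgi]
      simpa using (quadSimilarityGroup Q).inv_mem this
    -- scale
    have hTv : TS hf M v := by
      intro d
      by_cases hd : d = 0
      · have : tr hf v d = 1 := gl_ext fun x => by rw [tr_mulVec, hd]; simp
        rw [this]; exact M.one_mem
      obtain ⟨l, hl⟩ := exists_sq h2 (d / c)
      have hl0 : l ≠ 0 := by
        rintro rfl
        rw [zero_pow two_ne_zero] at hl
        exact (div_ne_zero hd hc) hl.symm
      obtain ⟨z, hz⟩ := exists_ne_zero hf hv0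
      -- normalise to a hyperbolic pair
      set z' := (f v z)⁻¹ • z with hz'
      have hvz' : f v z' = 1 := by rw [hz', smul_right hf, inv_mul_cancel₀ hz]
      clear_value z'
      obtain ⟨w, hw⟩ : ∃ w, w = z' + Q z' • v := ⟨_, rfl⟩
      have hvw : f v w = 1 := by rw [hw, add_right hf, smul_right hf, self hf, mul_zero, add_zero, hvz']
      have hQw : Q w = 0 := by
        rw [hw, Q_add hpol, hQ.smul, smul_right hf, hv, skew hf z' v, hvz']
        ring
      have hQa : Q (v + w) = 1 := by rw [Q_add hpol, hv, hQw, hvw]; ring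
      have hQb : Q (l • v + w) = l := by rw [Q_add hpol, hQ.smul, smul_left hf, hv, hQw, hvw]; ring
      have ha := hrefl (v + w) (by rw [hQa]; exact one_ne_zero)
      have hb := hrefl (l • v + w) (by rw [hQb]; exact hl0)
      have e1 : (tr hf (v + w) (Q (v + w))⁻¹ : Matrix ι ι F) *ᵥ v = w := by
        rw [tr_mulVec, hQa, add_right hf, self hf, hvw, inv_one, one_mul, zero_add, one_smul]
        have : v + (v + w) = (2 : F) • v + w := by module
        rw [this, h2, zero_smul, zero_add]
      have e2 : (tr hf (l • v + w) (Q (l • v + w))⁻¹ : Matrix ι ι F) *ᵥ w = l • v := by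
        rw [tr_mulVec, hQb, add_right hf, self hf, smul_right hf, skew hf w v, hvw, add_zero]
        have h3 : l⁻¹ * (l * -1) = -1 := by field_simp
        rw [h3]
        rw [neg_smul, one_smul, neg_add]
        have h4 : -(l • v) = l • v := by rw [← neg_smul, hchar]
        rw [h4]; abel
      have h3 := M.mul_mem hb ha
      have h4 : ((tr hf (l • v + w) (Q (l • v + w))⁻¹ * tr hf (v + w) (Q (v + w))⁻¹ : GL ι F) : Matrix ι ι F) *ᵥ v = l • v := by
        rw [gl_mul_mulVec, e1, e2]
      have h5 := M.mul_mem (M.mul_mem h3 htv) (M.inv_mem h3)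
      rw [tr_conj hf (hMI h3), h4] at h5
      have h6 : tr hf (l • v) c = tr hf v d := gl_ext fun x => by
        rw [tr_mulVec, tr_mulVec, smul_right hf, smul_smul]
        congr 2
        have : d = l ^ 2 * c := by rw [hl]; field_simp
        rw [this]; ring
      rwa [h6] at h5
    -- all singular vectors
    have hmove : ∀ u u', Q u = 0 → Q u' = 0 → f u u' ≠ 0 → TS hf M u → TS hf M u' := by
      intro u u' hu hu' hne' hT
      have hQa : Q (u + u') = f u u' := by rw [Q_add hpol, hu, hu']; ring
      have ha := hrefl (u + u') (by rw [hQa]; exact hne')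
      have := hT.conj (tr_mem_iso hf _ _) ha
      rw [tr_mulVec, hQa, add_right hf, self hf, zero_add, inv_mul_cancel₀ hne', one_smul] at this
      have h3 : u + (u + u') = (2 : F) • u + u' := by module
      rwa [h3, h2, zero_smul, zero_add] at this
    have hsing : ∀ u, Q u = 0 → TS hf M u := by
      intro u hu
      by_cases hu0 : u = 0
      · rw [hu0]; exact TS.zero hf M
      obtain ⟨z, hz1, hz2⟩ := exists_common hf hv0 hu0
      have hz3 : f z v ≠ 0 := by rw [skew hf]; exact neg_ne_zero.2 hz1
      by_cases huv : f v u = 0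
      · set z' := z - (Q z / f z v) • v with hz'
        have hQz' : Q z' = 0 := by
          rw [hz', sub_eq_add_neg, ← neg_smul, Q_add hpol, hQ.smul, smul_right hf, hv]
          field_simp; ring
        have h3 : f v z' ≠ 0 := by rw [hz', sub_right hf, smul_right hf, self hf, mul_zero, sub_zero]; exact hz1
        have h4 : f z' u ≠ 0 := by
          rw [hz', sub_left hf, smul_left hf, huv, mul_zero, sub_zero, skew hf]; exact neg_ne_zero.2 hz2
        exact hmove z' u hQz' hu h4 (hmove v z' hv hQz' h3 hTv)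
      · exact hmove v u hv hu huv hTv
    refine iso_le_of_TS hf M fun x => ?_
    by_cases hx : x = 0
    · rw [hx]; exact TS.zero hf M
    obtain ⟨u, u', a, hu, hu', rfl, hne'⟩ := exists_sing_sum hf hQ hpol h2 h5 hx
    exact (hsing u' hu').add (hsing u hu) hne' a

end QEven4

end Cfsg.Agent.SmallDim
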