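import Cfsg.Agent.SmallDim.SubSp4
import Cfsg.Agent.SmallDim.SubSpMax

set_option autoImplicit false
open Cfsg

namespace Cfsg.Agent.SmallDim.SubSp4

open Matrix
open scoped MatrixGroups
open Cfsg.Geo Cfsg.Agent.GeoMax Cfsg.Agent.GeoMax.Symp Cfsg.Agent.SmallDim.SubSp

section
variable {ι : Type} [Fintype ι] [DecidableEq ι] {F : Type*} [Field F]
variable {f : (ι → F) → (ι → F) → F}

/-- maximality for a form which is rational over the subfield -/
theorem maximal_rational_of [Fintype F] (hf : IsSymplecticForm f) {F₀ : Subfield F} (hF : Rational F₀ f)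
    (hι : 0 < Fintype.card ι) {r : ℕ} (hr : r.Prime) (hfin : Module.finrank F₀ F = r)
    (hmain : ∀ M : Subgroup (GL ι F), M ≤ isoGL f → RatTr hf F₀ M → isoGL f ≤ M ∨ ∀ g ∈ M, NormV F₀ g) :
    IsMaximalIn (isoGL f) (((Matrix.GeneralLinearGroup.map (F₀.subtype : F₀ →+* F)).range ⊔ scalars ι F) ⊓ isoGL f) := by
  have hne : Nonempty ι := Fintype.card_pos_iff.1 (by omega)
  have hH : ∀ (v : ι → F₀) (a : F₀), tr hf (emb F₀ v) a ∈
      ((Matrix.GeneralLinearGroup.map (F₀.subtype : F₀ →+* F)).range ⊔ scalars ι F) ⊓ isoGL f := by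
    intro v a
    refine ⟨mem_of_normV ⟨1, one_ne_zero, fun y => ?_⟩, tr_mem_iso hf _ _⟩
    obtain ⟨y₁, h1⟩ := ratM_tr hf hF v a y
    exact ⟨y₁, by rw [h1, one_smul]⟩
  constructor
  · refine lt_of_le_of_ne inf_le_right ?_
    intro heq
    obtain ⟨c, hc⟩ : ∃ c : F, c ∉ F₀ := by
      by_contra hcon
      push Not at hcon
      have h1 : Function.Surjective (algebraMap F₀ F) := fun c => ⟨⟨c, hcon c⟩, rfl⟩
      have h2 : Module.finrank F₀ F = 1 := by
        rw [finrank_eq_one_iff']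
        exact ⟨1, one_ne_zero, fun w => ⟨⟨w, hcon w⟩, by rw [Subfield.smul_def]; simp⟩⟩
      rw [h2] at hfin
      exact hr.one_lt.ne hfin
    obtain ⟨e, e', hee, -, -⟩ := exists_hyp_rat hf hF [] (by simp; omega)
    have hmem : tr hf (emb F₀ e) c ∈
        ((Matrix.GeneralLinearGroup.map (F₀.subtype : F₀ →+* F)).range ⊔ scalars ι F) ⊓ isoGL f := by
      rw [heq]; exact tr_mem_iso hf _ _
    obtain ⟨l, hl, hn⟩ := normV_of_mem hmem.1
    obtain ⟨y₁, h1⟩ := hn e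
    obtain ⟨y₂, h2⟩ := hn e'
    rw [tr_mulVec, self hf, mul_zero, zero_smul, add_zero] at h1
    rw [tr_mulVec, skew hf, hee] at h2
    -- `f e e' = 1 = l f y₁ e'`, hence `l ∈ F₀`
    have h3 : l * f (emb F₀ y₁) (emb F₀ e') = 1 := by rw [← smul_left hf, ← h1, hee]
    have h4 : f (emb F₀ y₁) (emb F₀ e') ≠ 0 := by
      intro h; rw [h, mul_zero] at h3; exact zero_ne_one h3
    have h5 : l ∈ F₀ := by
      rw [eq_inv_of_mul_eq_one_left h3]
      exact F₀.inv_mem (f_emb_mem hF _ _)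
    -- apply `f · e'`
    have h6 := congrArg (fun v => f v (emb F₀ e')) h2
    simp only [add_left hf, smul_left hf, self hf, hee] at h6
    apply hc
    have h7 : c = -(l * f (emb F₀ y₂) (emb F₀ e')) := by linear_combination -h6
    rw [h7]
    exact F₀.neg_mem (F₀.mul_mem h5 (f_emb_mem hF _ _))
  · intro M hHM hMI
    have hR : RatTr hf F₀ M := fun v a => hHM (hH v a)
    rcases hmain M hMI hR with h | h
    · right
      exact le_antisymm hMI h
    · left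
      exact le_antisymm (fun g hg => ⟨mem_of_normV (h g hg), hMI hg⟩) hHM

end

/-- subfield subgroups of `Sp_2m(q)`: reduction to the main statement -/
theorem subfield_maximal_of {F : Type*} [Field F] [Fintype F] (m : ℕ) (hm : 0 < m) (F₀ : Subfield F) (r : ℕ) (hr : r.Prime)
    (hmain : ∀ f : (Fin m ⊕ Fin m → F) → (Fin m ⊕ Fin m → F) → F, ∀ hf : IsSymplecticForm f, Rational F₀ f →
      ∀ M : Subgroup (GL (Fin m ⊕ Fin m) F), M ≤ isoGL f → RatTr hf F₀ M → isoGL f ≤ M ∨ ∀ g ∈ M, NormV F₀ g)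
    (hcard : Fintype.card F = Nat.card F₀ ^ r) (P : Matrix.GeneralLinearGroup (Fin m ⊕ Fin m) F) (ζ : F) (hζ : ζ ≠ 0)
    (hP : Cfsg.Geo.IsFormRationalStructure (Cfsg.sympForm m F) F₀ ζ P) :
    Cfsg.Geo.IsMaximalIn (Cfsg.spGL m F) (Cfsg.Geo.subfieldSubgroup F₀ P ⊓ Cfsg.spGL m F) := by
  have hf := std m F
  have hf' := conj_form hf P hζ
  have hF : Rational F₀ (fun u v => ζ * Cfsg.sympForm m F ((P : Matrix (Fin m ⊕ Fin m) (Fin m ⊕ Fin m) F) *ᵥ u) ((P : Matrix (Fin m ⊕ Fin m) (Fin m ⊕ Fin m) F) *ᵥ v)) :=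
    hP
  have hmax := maximal_rational_of hf' hF (by simp; omega) hr (finrank_eq_of_card hcard) (hmain _ hf' hF)
  have h1 := isMaximalIn_map (MulAut.conj P) hmax
  have e1 : (isoGL (fun u v => ζ * Cfsg.sympForm m F ((P : Matrix (Fin m ⊕ Fin m) (Fin m ⊕ Fin m) F) *ᵥ u) ((P : Matrix (Fin m ⊕ Fin m) (Fin m ⊕ Fin m) F) *ᵥ v))).map
      (MulAut.conj P).toMonoidHom = Cfsg.spGL m F := by
    ext g
    constructor
    · rintro ⟨h, hh, rfl⟩
      rw [spGL_eq, mem_isoGL]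
      intro u v
      have h2 := mem_isoGL.1 hh (((P⁻¹ : GL _ F) : Matrix _ _ F) *ᵥ u) (((P⁻¹ : GL _ F) : Matrix _ _ F) *ᵥ v)
      simp only [gl_mulVec_inv] at h2
      have h3 := mul_left_cancel₀ hζ h2
      change Cfsg.sympForm m F (((P * h * P⁻¹ : GL _ F) : Matrix _ _ F) *ᵥ u) (((P * h * P⁻¹ : GL _ F) : Matrix _ _ F) *ᵥ v) = _
      rw [gl_mul_mulVec, gl_mul_mulVec, gl_mul_mulVec, gl_mul_mulVec, h3]
    · intro hg
      rw [spGL_eq, mem_isoGL] at hg
      refine ⟨P⁻¹ * g * P, ?_, ?_⟩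
      · change P⁻¹ * g * P ∈ isoGL _
        rw [mem_isoGL]
        intro u v
        rw [gl_mul_mulVec, gl_mul_mulVec, gl_mul_mulVec, gl_mul_mulVec, gl_mulVec_inv, gl_mulVec_inv, hg]
      · change P * (P⁻¹ * g * P) * P⁻¹ = g
        group
  rw [Subgroup.map_inf _ _ _ (MulAut.conj P).injective, e1] at h1
  exact h1

/-- subfield subgroups are maximal in `Sp_2m(q)`, `q` even, `m ≥ 2` -/
theorem subfield_maximal_even {F : Type*} [Field F] [Fintype F] (h2 : (2 : F) = 0) (m : ℕ) (hm : 2 ≤ m)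
    (F₀ : Subfield F) (r : ℕ) (hr : r.Prime)
    (hcard : Fintype.card F = Nat.card F₀ ^ r) (P : Matrix.GeneralLinearGroup (Fin m ⊕ Fin m) F) (ζ : F) (hζ : ζ ≠ 0)
    (hP : Cfsg.Geo.IsFormRationalStructure (Cfsg.sympForm m F) F₀ ζ P) :
    Cfsg.Geo.IsMaximalIn (Cfsg.spGL m F) (Cfsg.Geo.subfieldSubgroup F₀ P ⊓ Cfsg.spGL m F) :=
  subfield_maximal_of m (by omega) F₀ r hr (fun f hf hF M hM hR => main4 hF h2 (by simp; omega) hM hR hr
    (finrank_eq_of_card hcard)) hcard P ζ hζ hP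

end Cfsg.Agent.SmallDim.SubSp4
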