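import Cfsg.Agent.SmallDim.MonoFin

/-!
Maximality in `SL_n(F)` of stabilisers of decompositions into subspaces of equal dimension.
-/

set_option autoImplicit false
set_option linter.unusedSectionVars false

namespace Cfsg.Agent.SmallDim.Blk

open Matrix Cfsg.Geo Cfsg.Agent.GeoMax Cfsg.Agent.H98.Subf Cfsg.Agent.H98.Blk Cfsg.Agent.H98.Mono Cfsg.Agent.SmallDim.Mono
open scoped MatrixGroups

variable {ι : Type} [Fintype ι] [DecidableEq ι] {F : Type*} [Field F] {t : ℕ}

/-- the monomial case -/
theorem std_maximal_one [Fintype F] {β : ι → Fin t} (hc : ∀ j, Fintype.card {a // β a = j} = 1)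
    (hn : 10 ≤ Fintype.card ι) (h5 : 5 ≤ Fintype.card F) :
    IsMaximalIn (specialLinear ι F) (decompositionStabilizer (blk β F) ⊓ specialLinear ι F) := by
  have hm0 : 0 < 1 := one_pos
  -- β is bijective
  have hinj : Function.Injective β := by
    intro a b hab
    have := Fintype.card_le_one_iff.1 (hc (β b)).le ⟨a, hab⟩ ⟨b, rfl⟩
    exact congrArg Subtype.val this
  have hne : ∀ j, ∃ a, β a = j := by
    intro i
    have : 0 < Fintype.card {a // β a = i} := by rw [hc]; exact hm0
    obtain ⟨⟨a, ha⟩⟩ := Fintype.card_pos_iff.1 this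
    exact ⟨a, ha⟩
  have hSp : ∀ (a : ι) (x : ι → F), Sp β (β a) x ↔ x = x a • Pi.single a 1 := by
    intro a x
    constructor
    · intro h
      ext b
      by_cases hb : b = a
      · subst hb; simp
      · rw [h b (fun h' => hb (hinj h'))]; simp [hb]
    · intro h b hb
      have : b ≠ a := fun h' => hb (by rw [h'])
      rw [h]; simp [this]
  have hmon : ∀ g : GL ι F, g ∈ decompositionStabilizer (blk β F) ↔ Mon g := by
    intro g
    rw [mem_stab_iff hm0 hc]
    constructor
    · intro h j
      obtain ⟨l, hl⟩ := h (β j)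
      obtain ⟨i, rfl⟩ := hne l
      exact ⟨i, _, (hSp i _).1 (hl _ (Sp.single j 1))⟩
    · intro h i
      obtain ⟨j, rfl⟩ := hne i
      obtain ⟨k, c, hk⟩ := h j
      refine ⟨β k, fun x hx => ?_⟩
      rw [(hSp j x).1 hx, Matrix.mulVec_smul, hk, smul_smul]
      exact (Sp.single k 1).smul _
  obtain ⟨a₀, b₀, hab⟩ := Fintype.exists_pair_of_one_lt_card (α := ι) (by omega)
  refine ⟨lt_of_le_of_ne inf_le_right ?_, ?_⟩
  · intro heq
    have h0 : (Pi.single b₀ 1 : ι → F) ⬝ᵥ Pi.single a₀ 1 = 0 := by simp [hab.symm]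
    have h1 := tvec_det (Pi.single a₀ (1 : F)) (Pi.single b₀ (1 : F)) h0
    rw [← heq] at h1
    obtain ⟨i, c, h2⟩ := (hmon _).1 (Subgroup.mem_inf.1 h1).1 b₀
    rw [tvec_mulVec] at h2
    exact not_prop hab (by simp [hab]) (by simp [hab.symm]) h2
  · intro M hHM hMS
    by_cases hM : M ≤ decompositionStabilizer (blk β F)
    · left
      exact le_antisymm (le_inf hM hMS) hHM
    · right
      refine le_antisymm hMS ?_
      obtain ⟨g, hg, hgS⟩ := SetLike.not_le_iff_exists.1 hM
      exact mono_core h5 hn hMS (fun x hx hxs => hHM ⟨(hmon x).2 hx, hxs⟩) hg (fun h => hgS ((hmon g).2 h))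

/-- every decomposition is a conjugate of a block decomposition -/
theorem exists_std {n m : ℕ} {D : Fin t → Submodule F (Fin n → F)} (hD : IsMDecomposition m D) :
    ∃ (β : Fin n → Fin t) (P : GL (Fin n) F), (∀ j, Fintype.card {a // β a = j} = m) ∧
      ∀ j, D j = (blk β F j).map (Matrix.toLin' (P : Matrix (Fin n) (Fin n) F)) := by
  classical
  have hint : DirectSum.IsInternal D :=
    DirectSum.isInternal_submodule_of_iSupIndep_of_iSup_eq_top hD.indep hD.iSup_eq_top
  let b₀ : Module.Basis (Σ _ : Fin t, Fin m) F (Fin n → F) :=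
    hint.collectedBasis (fun j => Module.finBasisOfFinrankEq F (D j) (hD.finrank_eq j))
  have hcard : Fintype.card (Σ _ : Fin t, Fin m) = Fintype.card (Fin n) := by
    rw [← Module.finrank_eq_card_basis b₀, Module.finrank_fintype_fun_eq_card]
  let e : (Σ _ : Fin t, Fin m) ≃ Fin n := Fintype.equivOfCardEq hcard
  let b : Module.Basis (Fin n) F (Fin n → F) := b₀.reindex e
  let β : Fin n → Fin t := fun i => (e.symm i).1
  have hb : ∀ i, b i ∈ D (β i) := by
    intro i
    have h1 : b i = b₀ (e.symm i) := by simp [b]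
    rw [h1]
    exact hint.collectedBasis_mem _ (e.symm i)
  have hβcard : ∀ j, Fintype.card {a // β a = j} = m := by
    intro j
    rw [← Fintype.card_fin m]
    apply Fintype.card_congr
    refine ⟨fun a => (e.symm a.1).2, fun x => ⟨e ⟨j, x⟩, by simp [β]⟩, ?_, ?_⟩
    · rintro ⟨a, rfl⟩
      apply Subtype.ext
      simp [β]
    · intro x
      simp
  let L : (Fin n → F) ≃ₗ[F] (Fin n → F) := b.equivFun.symm
  let P : GL (Fin n) F :=
    ⟨LinearMap.toMatrix' L.toLinearMap, LinearMap.toMatrix' L.symm.toLinearMap, by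
      rw [← LinearMap.toMatrix'_comp]; simp, by
      rw [← LinearMap.toMatrix'_comp]; simp⟩
  have hP : ∀ x, (P : Matrix (Fin n) (Fin n) F) *ᵥ x = L x := fun x => LinearMap.toMatrix'_mulVec _ _
  refine ⟨β, P, hβcard, fun j => ?_⟩
  symm
  apply Submodule.eq_of_le_of_finrank_eq
  · rintro _ ⟨x, hx, rfl⟩
    rw [Matrix.toLin'_apply, hP]
    have : L x = ∑ i, x i • b i := b.equivFun_symm_apply x
    rw [this]
    refine Submodule.sum_mem _ fun i _ => ?_
    by_cases hi : β i = j
    · subst hi; exact Submodule.smul_mem _ _ (hb i)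
    · rw [(show Sp β j x from hx) i hi, zero_smul]; exact Submodule.zero_mem _
  · have hinj : Function.Injective (Matrix.toLin' (P : Matrix (Fin n) (Fin n) F)) := by
      intro x y hxy
      exact gl_mulVec_injective P (by simpa using hxy)
    rw [← LinearEquiv.finrank_eq (Submodule.equivMapOfInjective _ hinj (blk β F j)), finrank_blk, hβcard,
      hD.finrank_eq]

lemma conj_stab {D D' : Fin t → Submodule F (ι → F)} (P : GL ι F)
    (h : ∀ j, D j = (D' j).map (Matrix.toLin' (P : Matrix ι ι F))) :
    decompositionStabilizer D = (decompositionStabilizer D').map (MulAut.conj P).toMonoidHom := by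
  ext g
  constructor
  · rintro ⟨σ, hσ⟩
    refine ⟨P⁻¹ * g * P, ⟨σ, fun i => ?_⟩, ?_⟩
    · have h1 : Matrix.toLin' ((P⁻¹ * g * P : GL ι F) : Matrix ι ι F) =
          (Matrix.toLin' ((P⁻¹ : GL ι F) : Matrix ι ι F)) ∘ₗ (Matrix.toLin' (g : Matrix ι ι F)) ∘ₗ
            (Matrix.toLin' (P : Matrix ι ι F)) := by
        rw [← Matrix.toLin'_mul, ← Matrix.toLin'_mul, Units.val_mul, Units.val_mul, Matrix.mul_assoc]
      rw [h1, Submodule.map_comp, Submodule.map_comp, ← h, hσ, h, ← Submodule.map_comp, ← Matrix.toLin'_mul,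
        ← Units.val_mul, inv_mul_cancel, Units.val_one, Matrix.toLin'_one, Submodule.map_id]
    · change P * (P⁻¹ * g * P) * P⁻¹ = g
      group
  · rintro ⟨g, ⟨σ, hσ⟩, rfl⟩
    refine ⟨σ, fun i => ?_⟩
    change (D i).map (Matrix.toLin' ((P * g * P⁻¹ : GL ι F) : Matrix ι ι F)) = D (σ i)
    have h1 : Matrix.toLin' ((P * g * P⁻¹ : GL ι F) : Matrix ι ι F) =
        (Matrix.toLin' (P : Matrix ι ι F)) ∘ₗ (Matrix.toLin' (g : Matrix ι ι F)) ∘ₗ
          (Matrix.toLin' ((P⁻¹ : GL ι F) : Matrix ι ι F)) := by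
      rw [← Matrix.toLin'_mul, ← Matrix.toLin'_mul, Units.val_mul, Units.val_mul, Matrix.mul_assoc]
    have e : ((D' i).map (Matrix.toLin' (P : Matrix ι ι F))).map
        (Matrix.toLin' ((P⁻¹ : GL ι F) : Matrix ι ι F)) = D' i := by
      rw [← Submodule.map_comp, ← Matrix.toLin'_mul,
        ← Units.val_mul, inv_mul_cancel, Units.val_one, Matrix.toLin'_one, Submodule.map_id]
    rw [h1, h i, Submodule.map_comp, Submodule.map_comp, e, hσ, ← h]

theorem decomposition_maximal [Fintype F] {n : ℕ} (hn : 6 ≤ n) {m : ℕ} (hn1 : m = 1 → 10 ≤ n)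
    (D : Fin t → Submodule F (Fin n → F))
    (hD : IsMDecomposition m D) (h1 : ¬ (m = 1 ∧ Fintype.card F ≤ 4)) (h2 : ¬ (m = 2 ∧ Fintype.card F = 2)) :
    IsMaximalIn (specialLinear (Fin n) F) (decompositionStabilizer D ⊓ specialLinear (Fin n) F) := by
  classical
  obtain ⟨β, P, hc, hDP⟩ := exists_std hD
  have key : IsMaximalIn (specialLinear (Fin n) F) (decompositionStabilizer (blk β F) ⊓ specialLinear (Fin n) F) := by
    by_cases hm1 : m = 1
    · subst hm1
      refine std_maximal_one hc (by simpa using hn1 rfl) ?_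
      by_contra h
      exact h1 ⟨rfl, by omega⟩
    · have hm : 2 ≤ m := by have := hD.pos; omega
      refine std_maximal hc hm hD.two_le ?_
      rintro rfl
      constructor
      · -- n = 2 t
        have hsum : n = t * 2 := by
          have e1 : Fintype.card (Fin n) = ∑ j, Fintype.card {a // β a = j} := by
            rw [← Fintype.card_sigma]
            exact Fintype.card_congr (Equiv.sigmaFiberEquiv β).symm
          simp only [hc, Fintype.card_fin, Finset.sum_const, Finset.card_univ, smul_eq_mul] at e1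
          exact e1
        omega
      · have hq : 2 < Fintype.card F := by
          have h3 : 1 < Fintype.card F := Fintype.one_lt_card
          by_contra h
          exact h2 ⟨rfl, by omega⟩
        have : 1 < Fintype.card Fˣ := by rw [Fintype.card_units]; omega
        have := Fintype.one_lt_card_iff_nontrivial.1 this
        exact exists_ne 1
  have h3 := isMaximalIn_map (MulAut.conj P) key
  rw [Subgroup.map_inf _ _ _ (MulAut.conj P).injective, map_conj_specialLinear, ← conj_stab P hDP] at h3
  exact h3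

end Cfsg.Agent.SmallDim.Blk
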