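import Cfsg.Agent.SmallDim.MonoMax

/-!
Maximality of the monomial subgroup of `SL ι F`, `|ι| ≥ 10`, `|F| ≥ 5`: conclusion.
-/

set_option autoImplicit false
set_option linter.unusedSectionVars false

namespace Cfsg.Agent.SmallDim.Mono

open Matrix Cfsg.Geo Cfsg.Agent.GeoMax Cfsg.Agent.H98.Subf Cfsg.Agent.H98.Blk Cfsg.Agent.H98.Mono
open scoped MatrixGroups

variable {ι : Type} [Fintype ι] [DecidableEq ι] {F : Type*} [Field F]

/-! ### numerical lemmas -/

lemma exists_a [Fintype F] (h5 : 5 ≤ Fintype.card F) :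
    ∃ a : Fˣ, (a : F) ^ 2 ≠ 1 ∧ (a : F) ^ 2 + a + 1 ≠ 0 := by
  classical
  by_cases hc : Fintype.card F = 5
  · have h50 : (5 : F) = 0 := by
      have := Nat.cast_card_eq_zero F
      rw [hc] at this
      exact_mod_cast this
    have h20 : (2 : F) ≠ 0 := by
      intro h
      exact one_ne_zero (α := F) (by linear_combination h50 - 2 * h)
    refine ⟨Units.mk0 2 h20, ?_, ?_⟩
    · rw [Units.val_mk0]
      intro h
      exact one_ne_zero (α := F) (by linear_combination 2 * h - h50)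
    · rw [Units.val_mk0]
      intro h
      exact h20 (by linear_combination h - h50)
  · have h6 : 6 ≤ Fintype.card F := by omega
    by_contra hcon
    push Not at hcon
    have hcon' : ∀ y : F, y ≠ 0 → y ≠ 1 → y ≠ -1 → y ^ 2 + y + 1 = 0 := by
      intro y h0 h1 h2
      apply hcon (Units.mk0 y h0)
      rw [Units.val_mk0]
      intro h
      have : (y - 1) * (y + 1) = 0 := by linear_combination h
      rcases mul_eq_zero.1 this with h3 | h3
      · exact h1 (by linear_combination h3)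
      · exact h2 (by linear_combination h3)
    by_cases hr : ∃ y₁ : F, y₁ ^ 2 + y₁ + 1 = 0
    · obtain ⟨y₁, hy₁⟩ := hr
      have hall : (Finset.univ : Finset F) ⊆ {0, 1, -1, y₁, -1 - y₁} := by
        intro y _
        by_cases i1 : y = 0
        · simp [i1]
        by_cases i2 : y = 1
        · simp [i2]
        by_cases i3 : y = -1
        · simp [i3]
        have h0 := hcon' y i1 i2 i3
        have : (y - y₁) * (y - (-1 - y₁)) = 0 := by linear_combination h0 - hy₁
        rcases mul_eq_zero.1 this with h7 | h7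
        · simp [sub_eq_zero.1 h7]
        · simp [sub_eq_zero.1 h7]
      have := Finset.card_le_card hall
      have h8 := Finset.card_le_five (a := (0 : F)) (b := 1) (c := -1) (d := y₁) (e := -1 - y₁)
      rw [Finset.card_univ] at this
      omega
    · push Not at hr
      have hall : (Finset.univ : Finset F) ⊆ {0, 1, -1} := by
        intro y _
        by_cases i1 : y = 0
        · simp [i1]
        by_cases i2 : y = 1
        · simp [i2]
        by_cases i3 : y = -1
        · simp [i3]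
        exact absurd (hcon' y i1 i2 i3) (hr y)
      have := Finset.card_le_card hall
      have h8 := Finset.card_le_three (a := (0 : F)) (b := 1) (c := -1)
      rw [Finset.card_univ] at this
      omega

/-- five nonzero elements with prescribed sum and product -/
lemma surj5 {a : Fˣ} (ha : (a : F) ^ 2 ≠ 1) (S P : F) (hP : P ≠ 0) :
    ∃ b1 b2 b3 b4 b5 : Fˣ, (b1 : F) + b2 + b3 + b4 + b5 = S ∧ (b1 : F) * b2 * b3 * b4 * b5 = P := by
  classical
  have ha1 : (a : F) ≠ 1 := by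
    intro h; apply ha; rw [h]; ring
  obtain ⟨b5, hb5⟩ : ∃ b5 : Fˣ, S - (b5 : F) ≠ 0 := by
    by_cases h : S = 1
    · exact ⟨a, fun h' => ha1 (by rw [h] at h'; linear_combination -h')⟩
    · exact ⟨1, fun h' => h (by rw [Units.val_one] at h'; linear_combination h')⟩
  set S' := S - (b5 : F) with hS'
  have hb50 : (b5 : F) ≠ 0 := b5.ne_zero
  set P' := P / (b5 : F) with hP'
  have hP'0 : P' ≠ 0 := div_ne_zero hP hb50
  obtain ⟨r, hr0, hr⟩ : ∃ r : F, r ≠ 0 ∧ r ^ 2 ≠ P' := by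
    by_cases h : P' = 1
    · exact ⟨a, a.ne_zero, by rw [h]; exact ha⟩
    · exact ⟨1, one_ne_zero, by rw [one_pow]; exact Ne.symm h⟩
  set w : F := -r ^ 2 / P' with hw
  have hw0 : w ≠ 0 := div_ne_zero (neg_ne_zero.2 (pow_ne_zero 2 hr0)) hP'0
  have hw1 : w + 1 ≠ 0 := by
    intro h
    apply hr
    have : w = -1 := by linear_combination h
    rw [hw, div_eq_iff hP'0] at this
    linear_combination -this
  have hs0 : P' * (w + 1) / (r * S') ≠ 0 := div_ne_zero (mul_ne_zero hP'0 hw1) (mul_ne_zero hr0 hb5)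
  have hwP : w * P' = -r ^ 2 := by rw [hw]; field_simp
  refine ⟨Units.mk0 _ hs0, -Units.mk0 _ hs0, Units.mk0 (S' * w / (w + 1)) (div_ne_zero (mul_ne_zero hb5 hw0) hw1),
    Units.mk0 (S' / (w + 1)) (div_ne_zero hb5 hw1), b5, ?_, ?_⟩
  · simp only [Units.val_neg, Units.val_mk0]
    have e1 : S' * w / (w + 1) + S' / (w + 1) = S' := by field_simp
    have e2 : S' + (b5 : F) = S := by rw [hS']; ring
    linear_combination e1 + e2
  · simp only [Units.val_neg, Units.val_mk0]
    have e3 : P' * (b5 : F) = P := by rw [hP']; field_simp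
    clear_value P' w S'
    rw [← e3]
    field_simp
    linear_combination -hwP

/-! ### Part A -/

section partA

variable {M : Subgroup (GL ι F)} (hD : ∀ d : ι → Fˣ, ∏ i, d i = 1 → dg d ∈ M)
  (hP : ∀ σ : Equiv.Perm ι, Equiv.Perm.sign σ = 1 → pm σ ∈ M)
  (hK : ∀ x ∈ M, ∀ (o : ι) (c : F), (x : Matrix ι ι F) *ᵥ Pi.single o 1 = c • Pi.single o 1 → Mon x)
  (hn : 10 ≤ Fintype.card ι)

include hD hP hK hn in
theorem partA [Fintype F] (h5 : 5 ≤ Fintype.card F) : ∀ x ∈ M, Mon x := by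
  classical
  have hn8 : 8 ≤ Fintype.card ι := by omega
  obtain ⟨a, ha2, ha3⟩ := exists_a h5
  have ha1 : (a : F) ≠ 1 := by
    intro h; apply ha2; rw [h]; ring
  by_contra hcon
  push Not at hcon
  obtain ⟨g₀, hg₀, hgm₀⟩ := hcon
  have hne : Nonempty ι := Fintype.card_pos_iff.1 (by omega)
  let j₀ : ι := Classical.arbitrary ι
  set u₀ := (g₀ : Matrix ι ι F) *ᵥ Pi.single j₀ 1 with hu₀
  obtain ⟨o, ho⟩ : ∃ o, ∀ s, s ≠ o → u₀ s ≠ 0 := by
    by_cases h : ∃ s, u₀ s = 0
    · obtain ⟨s, hs⟩ := h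
      exact ⟨s, fun t ht => S1' hD hP hK hn8 hg₀ hgm₀ ha2 ha3 (Ne.symm ht) hs⟩
    · push Not at h
      exact ⟨Classical.arbitrary ι, fun s _ => h s⟩
  let v : ι → Fˣ := fun s => if h : u₀ s ≠ 0 then Units.mk0 (u₀ s) h else 1
  have hv : ∀ s, s ≠ o → (v s : F) = u₀ s := by
    intro s hs; simp [v, ho s hs]
  let d : ι → Fˣ := Function.update (fun s => (v s)⁻¹) o (∏ s ∈ Finset.univ.erase o, v s)
  have hd : ∏ s, d s = 1 := by
    rw [← Finset.mul_prod_erase _ _ (Finset.mem_univ o)]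
    have e1 : ∏ s ∈ Finset.univ.erase o, d s = ∏ s ∈ Finset.univ.erase o, (v s)⁻¹ :=
      Finset.prod_congr rfl fun s hs => by simp [d, Finset.ne_of_mem_erase hs]
    rw [e1]
    simp [d]
  set g : GL ι F := dg d * g₀ with hgd
  have hg : g ∈ M := M.mul_mem (hD d hd) hg₀
  have hgm : ¬ Mon g := by
    intro h
    apply hgm₀
    have := (Mon.dg d).inv.mul h
    rwa [hgd, inv_mul_cancel_left] at this
  have hu : ∀ s, s ≠ o → ((g : Matrix ι ι F) *ᵥ Pi.single j₀ 1) s = 1 := by
    intro s hs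
    rw [hgd, gl_mul_mulVec, dg_mulVec, ← hu₀]
    simp only [d, Function.update_of_ne hs]
    rw [← hv s hs, Units.inv_mul]
  have hz : ∀ b k l : ι, k ≠ l → ((g : Matrix ι ι F) *ᵥ Pi.single b 1) k = 0 →
      ((g : Matrix ι ι F) *ᵥ Pi.single b 1) l ≠ 0 := fun b k l hkl hk => S1' hD hP hK hn8 hg hgm ha2 ha3 hkl hk
  obtain ⟨γ, ρ, X, hρ, hX, htest⟩ := frame_test hD hP hK hn8 hg hu hz
  -- the final contradiction from a vector with two zeros and two non-zeros
  have hfin : ∀ x ∈ M, ∀ l1 l2 l3 l4 : ι, l1 ≠ l2 → l3 ≠ l4 →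
      ((x : Matrix ι ι F) *ᵥ Pi.single o 1) l1 ≠ 0 → ((x : Matrix ι ι F) *ᵥ Pi.single o 1) l2 ≠ 0 →
      ((x : Matrix ι ι F) *ᵥ Pi.single o 1) l3 = 0 → ((x : Matrix ι ι F) *ᵥ Pi.single o 1) l4 = 0 → False := by
    intro x hx l1 l2 l3 l4 h12 h34 n1 n2 n3 n4
    by_cases hm : Mon x
    · obtain ⟨i, c, h⟩ := hm o
      exact not_prop h12 n1 n2 h
    · exact S1' hD hP hK hn8 hx hm ha2 ha3 h34 n3 n4
  obtain ⟨e⟩ : Nonempty (Fin 9 ↪ {s // s ≠ o}) := by
    apply Function.Embedding.nonempty_of_card_le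
    rw [Fintype.card_subtype_compl, Fintype.card_fin, Fintype.card_subtype_eq]
    omega
  have hinj : Function.Injective (fun i => (e i : ι)) := Subtype.val_injective.comp e.injective
  by_cases hγ : γ = 0
  · have h01 : (e 0 : ι) ≠ e 1 := fun h => by simpa using hinj h
    have h23 : (e 2 : ι) ≠ e 3 := fun h => by simpa using hinj h
    have h20 : (e 2 : ι) ≠ e 0 := fun h => by simpa using hinj h
    have h21 : (e 2 : ι) ≠ e 1 := fun h => by simpa using hinj h
    have h30 : (e 3 : ι) ≠ e 0 := fun h => by simpa using hinj h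
    have h31 : (e 3 : ι) ≠ e 1 := fun h => by simpa using hinj h
    obtain ⟨x, hx, hxl⟩ := htest (dd (e 0 : ι) (e 1) a) (dd_m (Ne.symm (e 0).2) (Ne.symm (e 1).2) a) (dd_prod h01 a)
    refine hfin x hx (e 0) (e 1) (e 2) (e 3) h01 h23 ?_ ?_ ?_ ?_
    · rw [hxl _ (e 0).2, hγ, dd_k h01, zero_mul, zero_add]
      exact mul_ne_zero hX (mul_ne_zero hρ (sub_ne_zero.2 ha1))
    · rw [hxl _ (e 1).2, hγ, dd_l, zero_mul, zero_add]
      refine mul_ne_zero hX (mul_ne_zero hρ (sub_ne_zero.2 ?_))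
      intro h
      apply ha1
      have : (a : F) * ((a⁻¹ : Fˣ) : F) = 1 := a.mul_inv
      rwa [h, mul_one] at this
    · rw [hxl _ (e 2).2, hγ, dd_m h20 h21]; simp
    · rw [hxl _ (e 3).2, hγ, dd_m h30 h31]; simp
  · set τ : F := (a : F) - 1 with hτ
    have hτ0 : τ ≠ 0 := sub_ne_zero.2 ha1
    obtain ⟨b1, b2, b3, b4, b5, hsum, hprod⟩ := surj5 ha2 (-ρ * τ / γ - 2 * τ + 5) (((a : F) ^ 2)⁻¹)
      (inv_ne_zero (pow_ne_zero 2 a.ne_zero))
    let a₀ : Fin 9 → Fˣ := ![a, a, b1, b2, b3, b4, b5, 1, 1]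
    let A : ι → Fˣ := Function.extend (fun i => (e i : ι)) a₀ 1
    have hAe : ∀ i, A (e i) = a₀ i := fun i => hinj.extend_apply a₀ 1 i
    have hAo : ∀ s, s ∉ Set.range (fun i => (e i : ι)) → A s = 1 := by
      intro s hs
      rw [show A s = Function.extend (fun i => (e i : ι)) a₀ 1 s from rfl, Function.extend_apply' _ _ _ hs]; rfl
    have hAo' : A o = 1 := hAo o (by rintro ⟨i, hi⟩; exact (e i).2 hi)
    have hAprod : ∏ s, A s = 1 := by
      rw [← Fintype.prod_of_injective (fun i => (e i : ι)) hinj a₀ A hAo (fun i => (hAe i).symm)]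
      apply Units.ext
      simp only [a₀, Fin.prod_univ_succ, Fin.prod_univ_zero, Units.val_mul, Matrix.cons_val_zero,
        Matrix.cons_val_succ, Units.val_one, mul_one]
      have ha0 : (a : F) ≠ 0 := a.ne_zero
      calc (a : F) * (a * (b1 * (b2 * (b3 * (b4 * b5))))) = a ^ 2 * ((b1 : F) * b2 * b3 * b4 * b5) := by ring
        _ = 1 := by rw [hprod]; field_simp
    have hAsum : ∑ s, ((A s : F) - 1) = -ρ * τ / γ := by
      rw [← Fintype.sum_of_injective (fun i => (e i : ι)) hinj (fun i => (a₀ i : F) - 1) (fun s => (A s : F) - 1)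
        (fun s hs => by rw [hAo s hs]; simp) (fun i => by rw [hAe])]
      simp only [a₀, Fin.sum_univ_succ, Fin.sum_univ_zero, Matrix.cons_val_zero,
        Matrix.cons_val_succ, Units.val_one, add_zero, sub_self]
      linear_combination hsum
    obtain ⟨x, hx, hxl⟩ := htest A hAo' hAprod
    have hval : ∀ i, ((x : Matrix ι ι F) *ᵥ Pi.single o 1) (e i) = X * (ρ * ((a₀ i : F) - 1 - τ)) := by
      intro i
      rw [hxl _ (e i).2, hAsum, hAe]
      field_simp
      ring
    have h78 : (e 7 : ι) ≠ e 8 := fun h => by simpa using hinj h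
    have h01 : (e 0 : ι) ≠ e 1 := fun h => by simpa using hinj h
    refine hfin x hx (e 7) (e 8) (e 0) (e 1) h78 h01 ?_ ?_ ?_ ?_
    · rw [hval]
      have : (a₀ 7 : F) = 1 := rfl
      rw [this, sub_self, zero_sub]
      exact mul_ne_zero hX (mul_ne_zero hρ (neg_ne_zero.2 hτ0))
    · rw [hval]
      have : (a₀ 8 : F) = 1 := rfl
      rw [this, sub_self, zero_sub]
      exact mul_ne_zero hX (mul_ne_zero hρ (neg_ne_zero.2 hτ0))
    · rw [hval]
      have : (a₀ 0 : F) = a := rfl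
      rw [this, hτ]; ring
    · rw [hval]
      have : (a₀ 1 : F) = a := rfl
      rw [this, hτ]; ring

end partA

/-! ### Part C: from one transvection with a basis vector as centre -/

lemma exists_even_pair (h : 4 ≤ Fintype.card ι) {i j i' j' : ι} (hij : i ≠ j) (hij' : i' ≠ j') :
    ∃ σ : Equiv.Perm ι, Equiv.Perm.sign σ = 1 ∧ σ i = i' ∧ σ j = j' := by
  obtain ⟨σ₀, h1, h2⟩ : ∃ σ₀ : Equiv.Perm ι, σ₀ i = i' ∧ σ₀ j = j' := by
    refine ⟨Equiv.swap (Equiv.swap i i' j) j' * Equiv.swap i i', ?_, ?_⟩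
    · rw [Equiv.Perm.mul_apply, Equiv.swap_apply_left]
      refine Equiv.swap_apply_of_ne_of_ne ?_ hij'
      intro h1
      have h2 : Equiv.swap i i' i = Equiv.swap i i' j := by rw [Equiv.swap_apply_left]; exact h1
      exact hij ((Equiv.swap i i').injective h2)
    · rw [Equiv.Perm.mul_apply, Equiv.swap_apply_left]
  obtain ⟨p, hp⟩ := exists_notMem ({i, j} : Finset ι) (lt_of_le_of_lt Finset.card_le_two (by omega))
  obtain ⟨q, hq⟩ := exists_notMem ({i, j, p} : Finset ι) (lt_of_le_of_lt Finset.card_le_three (by omega))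
  simp only [Finset.mem_insert, Finset.mem_singleton, not_or] at hp hq
  rcases Int.units_eq_one_or (Equiv.Perm.sign σ₀) with h3 | h3
  · exact ⟨σ₀, h3, h1, h2⟩
  · refine ⟨σ₀ * Equiv.swap p q, ?_, ?_, ?_⟩
    · rw [map_mul, h3, Equiv.Perm.sign_swap (Ne.symm hq.2.2)]; rfl
    · rw [Equiv.Perm.mul_apply, Equiv.swap_apply_of_ne_of_ne (Ne.symm hp.1) (Ne.symm hq.1), h1]
    · rw [Equiv.Perm.mul_apply, Equiv.swap_apply_of_ne_of_ne (Ne.symm hp.2) (Ne.symm hq.2.1), h2]

section partC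

variable {M : Subgroup (GL ι F)} (hD : ∀ d : ι → Fˣ, ∏ i, d i = 1 → dg d ∈ M)
  (hP : ∀ σ : Equiv.Perm ι, Equiv.Perm.sign σ = 1 → pm σ ∈ M)

lemma dg_single (d : ι → Fˣ) (o : ι) :
    ((dg d : GL ι F) : Matrix ι ι F) *ᵥ Pi.single o 1 = (d o : F) • Pi.single o 1 := by
  rw [dg_mulVec]
  ext i
  by_cases h : i = o
  · subst h; simp
  · simp [h]

include hD hP in
theorem partC (hn : 4 ≤ Fintype.card ι) (hb : ∃ b : Fˣ, b ≠ 1) {o : ι} {ψ : ι → F} (hψ : ψ ≠ 0)
    (h : HasT M (Pi.single o 1) ψ) : specialLinear ι F ≤ M := by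
  obtain ⟨s, hs⟩ := Function.ne_iff.1 hψ
  have hψo : ψ o = 0 := by simpa using h.1
  have hso : s ≠ o := by rintro rfl; exact hs hψo
  obtain ⟨q, hq⟩ := exists_notMem ({o, s} : Finset ι) (lt_of_le_of_lt Finset.card_le_two (by omega))
  obtain ⟨q', hq'⟩ := exists_notMem ({o, s, q} : Finset ι) (lt_of_le_of_lt Finset.card_le_three (by omega))
  simp only [Finset.mem_insert, Finset.mem_singleton, not_or] at hq hq'
  obtain ⟨b, hb⟩ := hb
  have h1 := h.conj (hD _ (dd_prod (Ne.symm hq.2) b))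
  rw [dg_single, dd_m (Ne.symm hso) (Ne.symm hq.1), Units.val_one, one_smul, vecMul_dg_inv] at h1
  have h2 := h1.sub_right h
  set φ : ι → F := (fun i => (((dd s q b i)⁻¹ : Fˣ) : F) * ψ i) - ψ with hφ
  have h3 := h2.conj (hD _ (dd_prod (Ne.symm hq'.2.1) b))
  rw [dg_single, dd_m (Ne.symm hso) (Ne.symm hq'.1), Units.val_one, one_smul, vecMul_dg_inv] at h3
  have h4 := h3.sub_right h2
  set c : F := (((b⁻¹ : Fˣ) : F) - 1) * (((((b⁻¹ : Fˣ) : F)) - 1) * ψ s) with hc
  have hc0 : c ≠ 0 := mul_ne_zero (unit_inv_sub_ne hb) (mul_ne_zero (unit_inv_sub_ne hb) hs)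
  have h5 : (fun i => (((dd s q' b i)⁻¹ : Fˣ) : F) * φ i) - φ = c • Pi.single s 1 := by
    ext i
    simp only [Pi.sub_apply, Pi.smul_apply, smul_eq_mul]
    by_cases i1 : i = s
    · subst i1
      rw [dd_k (Ne.symm hq'.2.1), Pi.single_eq_same, hφ, Pi.sub_apply, dd_k (Ne.symm hq.2)]
      rw [hc]; ring
    rw [Pi.single_eq_of_ne i1, mul_zero]
    by_cases i2 : i = q'
    · subst i2
      have : φ i = 0 := by
        rw [hφ, Pi.sub_apply, dd_m i1 hq'.2.2]; simp
      rw [this]; ring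
    · rw [dd_m i1 i2]; simp
  rw [h5] at h4
  have h6 : ∀ c' : F, HasT M (Pi.single o 1) (c' • Pi.single s 1) := by
    intro c'
    by_cases hc' : c' = 0
    · rw [hc', zero_smul]; exact HasT.zero_right _ _
    have h7 := h4.conj (hD _ (dd_prod (Ne.symm hq.2) (Units.mk0 (c / c') (div_ne_zero hc0 hc'))))
    rw [dg_single, dd_m (Ne.symm hso) (Ne.symm hq.1), Units.val_one, one_smul, vecMul_dg_inv] at h7
    convert h7 using 1
    ext i
    by_cases i1 : i = s
    · subst i1
      simp only [Pi.smul_apply, Pi.single_eq_same, smul_eq_mul, mul_one, dd_k (Ne.symm hq.2),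
        Units.val_inv_eq_inv_val, Units.val_mk0]
      field_simp
    · simp [i1]
  have : Nontrivial ι := Fintype.one_lt_card_iff_nontrivial.1 (by omega)
  apply sl_le_of_roots
  intro i j hij c'
  obtain ⟨σ, hσ, hσo, hσs⟩ := exists_even_pair hn (Ne.symm hso) hij
  have h8 := (h6 c').conj (hP σ hσ)
  rw [pm_single, hσo, vecMul_pm_inv] at h8
  convert h8 using 1
  ext k
  simp only [Pi.smul_apply, smul_eq_mul, Function.comp]
  rw [← hσs]
  congr 1
  by_cases hk : k = σ s
  · subst hk; simp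
  · rw [Pi.single_eq_of_ne hk, Pi.single_eq_of_ne]
    intro h; apply hk; rw [← h, Equiv.apply_symm_apply]

end partC

/-! ### Part B: the stabiliser of a coordinate point -/

section partB

variable (o : ι)

/-- restriction to the coordinates different from `o` -/
def res (y : ι → F) : {s // s ≠ o} → F := fun s => y s.1

/-- extension by `0` at `o` -/
def exz (z : {s // s ≠ o} → F) : ι → F := fun s => if h : s ≠ o then z ⟨s, h⟩ else 0

lemma res_exz (z : {s // s ≠ o} → F) : res o (exz o z) = z := by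
  ext ⟨s, hs⟩
  simp [res, exz, hs]

lemma exz_res (y : ι → F) : y = exz o (res o y) + y o • Pi.single o 1 := by
  ext s
  by_cases hs : s = o
  · subst hs; simp [res, exz]
  · simp [res, exz, hs]

lemma res_single : res o (Pi.single o (1 : F)) = 0 := by
  ext ⟨s, hs⟩
  simp [res, hs]

lemma exz_single (j : {s // s ≠ o}) : exz o (Pi.single j (1 : F)) = Pi.single j.1 1 := by
  ext s
  by_cases hs : s = o
  · subst hs; simp [exz, Ne.symm j.2]
  · by_cases hj : s = j.1
    · subst hj; simp [exz, hs]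
    · have : (⟨s, hs⟩ : {s // s ≠ o}) ≠ j := fun h => hj (congrArg Subtype.val h)
      simp [exz, hs, hj, this]

/-- `x` induces `g` on the quotient by `e_o` -/
def Ind (x : GL ι F) (g : GL {s // s ≠ o} F) : Prop :=
  ∀ y : ι → F, res o ((x : Matrix ι ι F) *ᵥ y) = (g : Matrix {s // s ≠ o} {s // s ≠ o} F) *ᵥ (res o y)

variable {o}

lemma exists_ind {x : GL ι F} {c : F} (h : (x : Matrix ι ι F) *ᵥ Pi.single o 1 = c • Pi.single o 1) :
    ∃ g, Ind o x g := by
  have hc := Mon.c_ne h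
  have h' : ((x⁻¹ : GL ι F) : Matrix ι ι F) *ᵥ Pi.single o 1 = c⁻¹ • Pi.single o 1 := by
    apply gl_mulVec_injective x
    change (x : Matrix ι ι F) *ᵥ _ = (x : Matrix ι ι F) *ᵥ _
    rw [gl_mulVec_inv, Matrix.mulVec_smul, h, smul_smul, inv_mul_cancel₀ hc, one_smul]
  have key : ∀ (x : GL ι F) (c : F), (x : Matrix ι ι F) *ᵥ Pi.single o 1 = c • Pi.single o 1 →
      ∀ y : ι → F, res o ((x : Matrix ι ι F) *ᵥ y) =
        ((x : Matrix ι ι F).submatrix (Subtype.val : {s // s ≠ o} → ι) Subtype.val) *ᵥ (res o y) := by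
    intro x c h y
    have e1 : ∀ z : {s // s ≠ o} → F, res o ((x : Matrix ι ι F) *ᵥ exz o z) =
        ((x : Matrix ι ι F).submatrix (Subtype.val : {s // s ≠ o} → ι) Subtype.val) *ᵥ z := by
      intro z
      ext ⟨s, hs⟩
      simp only [res, Matrix.mulVec, dotProduct, Matrix.submatrix_apply]
      symm
      refine Fintype.sum_of_injective (Subtype.val : {s // s ≠ o} → ι) Subtype.val_injective _ _ ?_ ?_
      · intro i hi
        have : i = o := by
          by_contra hne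
          exact hi ⟨⟨i, hne⟩, rfl⟩
        subst this
        simp [exz]
      · rintro ⟨i, hi⟩
        simp [exz, hi]
    rw [← e1]
    conv_lhs => rw [exz_res o y, Matrix.mulVec_add, Matrix.mulVec_smul, h]
    ext ⟨s, hs⟩
    simp [res, hs]
  let B : Matrix {s // s ≠ o} {s // s ≠ o} F := (x : Matrix ι ι F).submatrix Subtype.val Subtype.val
  let B' : Matrix {s // s ≠ o} {s // s ≠ o} F := ((x⁻¹ : GL ι F) : Matrix ι ι F).submatrix Subtype.val Subtype.val
  have hBB' : B * B' = 1 := by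
    apply mat_ext; intro z
    rw [← Matrix.mulVec_mulVec, Matrix.one_mulVec]
    have e1 := key x⁻¹ c⁻¹ h' (exz o z)
    rw [res_exz] at e1
    have e2 := key x c h (((x⁻¹ : GL ι F) : Matrix ι ι F) *ᵥ exz o z)
    rw [gl_mulVec_inv, res_exz, e1] at e2
    exact e2.symm
  have hB'B : B' * B = 1 := by
    apply mat_ext; intro z
    rw [← Matrix.mulVec_mulVec, Matrix.one_mulVec]
    have e1 := key x c h (exz o z)
    rw [res_exz] at e1
    have e2 := key x⁻¹ c⁻¹ h' ((x : Matrix ι ι F) *ᵥ exz o z)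
    rw [gl_inv_mulVec, res_exz, e1] at e2
    exact e2.symm
  exact ⟨⟨B, B', hBB', hB'B⟩, key x c h⟩

/-- block diagonal extension -/
def lft (o : ι) (g : GL {s // s ≠ o} F) : (ι → F) →ₗ[F] (ι → F) where
  toFun y := exz o ((g : Matrix {s // s ≠ o} {s // s ≠ o} F) *ᵥ res o y) + y o • Pi.single o 1
  map_add' x y := by
    have : res o (x + y) = res o x + res o y := rfl
    rw [this, Matrix.mulVec_add]
    ext s
    by_cases hs : s = o
    · subst hs; simp [exz]
    · simp [exz, hs]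
  map_smul' c x := by
    have : res o (c • x) = c • res o x := rfl
    rw [this, Matrix.mulVec_smul]
    ext s
    by_cases hs : s = o
    · subst hs; simp [exz]
    · simp [exz, hs]

lemma res_lft (g : GL {s // s ≠ o} F) (y : ι → F) :
    res o (lft o g y) = (g : Matrix {s // s ≠ o} {s // s ≠ o} F) *ᵥ res o y := by
  ext ⟨s, hs⟩
  simp [lft, res, exz, hs]

lemma lft_o (g : GL {s // s ≠ o} F) (y : ι → F) : lft o g y o = y o := by
  simp [lft, exz]

lemma res_ext {x y : ι → F} (h : res o x = res o y) (h' : x o = y o) : x = y := by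
  rw [exz_res o x, exz_res o y, h, h']

/-- block diagonal extension as a group element -/
def lift (o : ι) (g : GL {s // s ≠ o} F) : GL ι F where
  val := LinearMap.toMatrix' (lft o g)
  inv := LinearMap.toMatrix' (lft o g⁻¹)
  val_inv := by
    apply mat_ext; intro y
    rw [← Matrix.mulVec_mulVec, LinearMap.toMatrix'_mulVec, LinearMap.toMatrix'_mulVec, Matrix.one_mulVec]
    apply res_ext (o := o)
    · rw [res_lft, res_lft, gl_mulVec_inv]
    · rw [lft_o, lft_o]
  inv_val := by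
    apply mat_ext; intro y
    rw [← Matrix.mulVec_mulVec, LinearMap.toMatrix'_mulVec, LinearMap.toMatrix'_mulVec, Matrix.one_mulVec]
    apply res_ext (o := o)
    · rw [res_lft, res_lft, gl_inv_mulVec]
    · rw [lft_o, lft_o]

lemma lift_mulVec (g : GL {s // s ≠ o} F) (y : ι → F) :
    ((lift o g : GL ι F) : Matrix ι ι F) *ᵥ y = lft o g y := LinearMap.toMatrix'_mulVec _ _

lemma Mon.lift {g : GL {s // s ≠ o} F} (hg : Mon g) : Mon (lift o g) := by
  intro j
  by_cases hj : j = o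
  · refine ⟨o, 1, ?_⟩
    subst hj
    rw [lift_mulVec]
    apply res_ext (o := j)
    · rw [res_lft, res_single, Matrix.mulVec_zero, one_smul, res_single]
    · rw [lft_o, one_smul]
  · obtain ⟨i, c, h⟩ := hg ⟨j, hj⟩
    refine ⟨i.1, c, ?_⟩
    rw [lift_mulVec]
    apply res_ext (o := o)
    · rw [res_lft]
      have e1 : res o (Pi.single j (1 : F) : ι → F) = Pi.single ⟨j, hj⟩ 1 := by
        rw [← exz_single o ⟨j, hj⟩, res_exz]
      have e2 : res o (c • (Pi.single i.1 (1 : F) : ι → F)) = c • Pi.single i 1 := by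
        have : res o (c • (Pi.single i.1 (1 : F) : ι → F)) = c • res o (Pi.single i.1 (1 : F) : ι → F) := rfl
        rw [this, ← exz_single o i, res_exz]
      rw [e1, e2, h]
    · rw [lft_o]
      simp [Ne.symm hj, Ne.symm i.2]

/-- determinant one monomial lift -/
noncomputable def lift1 (o : ι) (g : GL {s // s ≠ o} F) : GL ι F :=
  lift o g * dg (sd o (Matrix.GeneralLinearGroup.det (lift o g))⁻¹)

lemma lift1_sl (g : GL {s // s ≠ o} F) : lift1 o g ∈ specialLinear ι F := by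
  change Matrix.GeneralLinearGroup.det _ = 1
  rw [lift1, map_mul]
  have : Matrix.GeneralLinearGroup.det (dg (sd o (Matrix.GeneralLinearGroup.det (lift o g))⁻¹) : GL ι F) =
      (Matrix.GeneralLinearGroup.det (lift o g))⁻¹ := by
    apply Units.ext
    change ((dg (sd o (Matrix.GeneralLinearGroup.det (lift o g))⁻¹) : GL ι F) : Matrix ι ι F).det = _
    rw [dg_det, Finset.prod_eq_single o]
    · simp [sd]
    · intro i _ hi; simp [sd, hi]
    · simp
  rw [this, mul_inv_cancel]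

lemma lift1_ind (g : GL {s // s ≠ o} F) : Ind o (lift1 o g) g := by
  intro y
  rw [lift1, gl_mul_mulVec, lift_mulVec, res_lft, dg_sd_mulVec]
  congr 1
  ext ⟨s, hs⟩
  simp [res, hs]

lemma Mon.lift1 {g : GL {s // s ≠ o} F} (hg : Mon g) : Mon (lift1 o g) := hg.lift.mul (Mon.dg _)

/-- the group induced on the quotient by `e_o` -/
def quo (M : Subgroup (GL ι F)) (o : ι) : Subgroup (GL {s // s ≠ o} F) where
  carrier := {g | ∃ x ∈ M, Ind o x g}
  mul_mem' := by
    rintro g g' ⟨x, hx, h⟩ ⟨x', hx', h'⟩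
    refine ⟨x * x', M.mul_mem hx hx', fun y => ?_⟩
    rw [gl_mul_mulVec, h, h', gl_mul_mulVec]
  one_mem' := ⟨1, M.one_mem, fun y => by simp⟩
  inv_mem' := by
    rintro g ⟨x, hx, h⟩
    refine ⟨x⁻¹, M.inv_mem hx, fun y => ?_⟩
    apply gl_mulVec_injective g
    change (g : Matrix {s // s ≠ o} {s // s ≠ o} F) *ᵥ _ = (g : Matrix {s // s ≠ o} {s // s ≠ o} F) *ᵥ _
    rw [← h, gl_mulVec_inv, gl_mulVec_inv]

lemma mem_quo {M : Subgroup (GL ι F)} {g : GL {s // s ≠ o} F} : g ∈ quo M o ↔ ∃ x ∈ M, Ind o x g := Iff.rfl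

/-- an element acting trivially on the quotient -/
lemma trivial_quo {z : GL ι F} (hz : z ∈ specialLinear ι F)
    (h : ∀ y : ι → F, res o ((z : Matrix ι ι F) *ᵥ y) = res o y) :
    ∃ ψ : ι → F, ψ ⬝ᵥ (Pi.single o 1 : ι → F) = 0 ∧ (z : Matrix ι ι F) = 1 + vecMulVec (Pi.single o 1) ψ := by
  let ψ : ι → F := fun j => ((z : Matrix ι ι F) *ᵥ Pi.single j 1) o - (Pi.single j (1 : F) : ι → F) o
  have hz' : (z : Matrix ι ι F) = 1 + vecMulVec (Pi.single o 1) ψ := by
    apply Matrix.ext_of_mulVec_single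
    intro j
    rw [Matrix.add_mulVec, Matrix.one_mulVec, Matrix.vecMulVec_mulVec]
    apply res_ext (o := o)
    · rw [h]
      ext ⟨s, hs⟩
      simp [res, hs]
    · simp [ψ]
  refine ⟨ψ, ?_, hz'⟩
  have hdet : (z : Matrix ι ι F).det = 1 := by
    have h1 : Matrix.GeneralLinearGroup.det z = 1 := hz
    exact congrArg Units.val h1
  rw [hz', vecMulVec_eq Unit, Matrix.det_one_add_replicateCol_mul_replicateRow] at hdet
  linear_combination hdet

theorem partB [Fintype F] (h5 : 5 ≤ Fintype.card F) (hn : 10 ≤ Fintype.card ι) {M : Subgroup (GL ι F)}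
    (hMS : M ≤ specialLinear ι F) (hH : ∀ x : GL ι F, Mon x → x ∈ specialLinear ι F → x ∈ M)
    {x : GL ι F} (hx : x ∈ M) (hxm : ¬ Mon x) {c : F}
    (hxo : (x : Matrix ι ι F) *ᵥ Pi.single o 1 = c • Pi.single o 1) :
    ∃ (o' : ι) (ψ : ι → F), ψ ≠ 0 ∧ HasT M (Pi.single o' 1) ψ := by
  classical
  obtain ⟨g, hg⟩ := exists_ind hxo
  by_cases hgm : Mon g
  · have h1 : lift1 o g ∈ M := hH _ hgm.lift1 (lift1_sl g)
    have h2 : x * (lift1 o g)⁻¹ ∈ M := M.mul_mem hx (M.inv_mem h1)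
    obtain ⟨ψ, h0, hz⟩ := trivial_quo (o := o) (hMS h2) (by
      intro y
      rw [gl_mul_mulVec, hg, ← lift1_ind g, gl_mulVec_inv])
    refine ⟨o, ψ, ?_, h0, _, h2, hz⟩
    rintro rfl
    apply hxm
    have : x * (lift1 o g)⁻¹ = 1 := Units.ext (by rw [hz]; simp)
    rw [mul_inv_eq_one] at this
    rw [this]; exact hgm.lift1
  · have hQ : ∀ g' : GL {s // s ≠ o} F, Mon g' → g' ∈ quo M o := fun g' h =>
      ⟨lift1 o g', hH _ h.lift1 (lift1_sl g'), lift1_ind g'⟩
    have hgQ : g ∈ quo M o := ⟨x, hx, hg⟩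
    -- a column with two nonzero entries
    obtain ⟨j, hj⟩ : ∃ j, ∀ (i : {s // s ≠ o}) (c : F),
        (g : Matrix {s // s ≠ o} {s // s ≠ o} F) *ᵥ Pi.single j 1 ≠ c • Pi.single i 1 := by
      by_contra hcon
      push Not at hcon
      exact hgm hcon
    obtain ⟨i₁, hi₁⟩ := Function.ne_iff.1 (mulVec_single_ne g j)
    obtain ⟨i₂, hi₂, hi₂'⟩ : ∃ i₂, i₁ ≠ i₂ ∧ ((g : Matrix {s // s ≠ o} {s // s ≠ o} F) *ᵥ Pi.single j 1) i₂ ≠ 0 := by
      by_contra hcon
      push Not at hcon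
      apply hj i₁ (((g : Matrix {s // s ≠ o} {s // s ≠ o} F) *ᵥ Pi.single j 1) i₁)
      ext k
      by_cases hk : k = i₁
      · subst hk; simp
      · rw [hcon k (Ne.symm hk)]; simp [hk]
    obtain ⟨p, q, hpq, c', hc', hT⟩ := root_of_nonmono h5 (by
      rw [Fintype.card_subtype_compl, Fintype.card_subtype_eq]; omega) (fun d => hQ _ (Mon.dg d)) (fun σ => hQ _ (Mon.pm σ))
      hgQ hi₂ hi₁ hi₂'
    obtain ⟨-, g', hg', hg'm⟩ := hT
    obtain ⟨x', hx', hind⟩ := mem_quo.1 hg'
    have hpq' : p.1 ≠ q.1 := fun h => hpq (Subtype.ext h)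
    -- the root element r of GL ι
    have hr0 : (c' • (Pi.single q.1 (1 : F) : ι → F)) ⬝ᵥ (Pi.single p.1 1 : ι → F) = 0 := by
      simp [Ne.symm hpq']
    set r : GL ι F := tvec (Pi.single p.1 1) (c' • (Pi.single q.1 (1 : F) : ι → F)) hr0 with hrd
    have hrv : ∀ y : ι → F, (r : Matrix ι ι F) *ᵥ y = y + (c' * y q.1) • Pi.single p.1 1 := by
      intro y
      rw [hrd, tvec_mulVec, smul_dotProduct]; simp
    have hrx : ∀ y : ι → F, res o ((x' : Matrix ι ι F) *ᵥ y) = res o ((r : Matrix ι ι F) *ᵥ y) := by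
      intro y
      rw [hind, hg'm, hrv, Matrix.add_mulVec, Matrix.one_mulVec, Matrix.vecMulVec_mulVec]
      ext ⟨s, hs⟩
      by_cases hsp : s = p.1
      · subst hsp; simp [res]
      · have : (⟨s, hs⟩ : {s // s ≠ o}) ≠ p := fun h => hsp (congrArg Subtype.val h)
        simp [res, hsp, this]
    have hrsl : r ∈ specialLinear ι F := tvec_det _ _ _
    obtain ⟨ψ, h0, hz⟩ := trivial_quo (o := o) (z := x' * r⁻¹) (Subgroup.mul_mem _ (hMS hx') (Subgroup.inv_mem _ hrsl)) (by
      intro y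
      rw [gl_mul_mulVec, hrx, gl_mulVec_inv])
    have hψo : ψ o = 0 := by simpa using h0
    by_cases hψ : ψ = 0
    · refine ⟨p.1, c' • Pi.single q.1 1, ?_, ?_⟩
      · intro h
        have := congrFun h q.1
        simp at this
        exact hc' this
      · rw [hasT_iff]
        refine ⟨hr0, ?_⟩
        have : x' * r⁻¹ = 1 := Units.ext (by rw [hz, hψ]; simp)
        rw [mul_inv_eq_one] at this
        rw [← hrd, ← this]; exact hx'
    · obtain ⟨s, hs⟩ := Function.ne_iff.1 hψ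
      have hso : s ≠ o := by rintro rfl; exact hs hψo
      obtain ⟨t, ht⟩ := exists_notMem ({o, s, p.1, q.1} : Finset ι) (lt_of_le_of_lt Finset.card_le_four (by omega))
      simp only [Finset.mem_insert, Finset.mem_singleton, not_or] at ht
      obtain ⟨b, hb⟩ : ∃ b : Fˣ, b ≠ 1 := by
        have : 1 < Fintype.card Fˣ := by rw [Fintype.card_units]; omega
        have := Fintype.one_lt_card_iff_nontrivial.1 this
        exact exists_ne 1
      have hd1 := dd_prod (F := F) (Ne.symm ht.1) b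
      have hdM : dg (dd o t b) ∈ M := hH _ (Mon.dg _) (dg_mem_sl hd1)
      set δ : GL ι F := dg (dd o t b) with hδ
      -- conjugating `r` by δ does nothing
      have hδr : δ * r * δ⁻¹ = r := by
        apply gl_ext; intro y
        rw [gl_mul_mulVec, gl_mul_mulVec, hrv, hrv, Matrix.mulVec_add, gl_mulVec_inv, Matrix.mulVec_smul, hδ,
          dg_single, dd_m p.2 (Ne.symm ht.2.2.1), Units.val_one, one_smul, dg_inv, dg_mulVec]
        simp only [Pi.inv_apply]
        rw [dd_m q.2 (Ne.symm ht.2.2.2)]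
        simp
      have hzT : HasT ⊤ (Pi.single o 1) ψ := ⟨h0, _, trivial, hz⟩
      have hzc := (hzT.conj (g := δ) trivial)
      rw [hδ, dg_single, dd_k (Ne.symm ht.1), hasT_smul_left_iff b.ne_zero, vecMul_dg_inv] at hzc
      set φ : ι → F := (b : F) • fun i => (((dd o t b i)⁻¹ : Fˣ) : F) * ψ i with hφ
      have hmem : δ * x' * δ⁻¹ * x'⁻¹ ∈ M :=
        M.mul_mem (M.mul_mem (M.mul_mem hdM hx') (M.inv_mem hdM)) (M.inv_mem hx')
      set z : GL ι F := x' * r⁻¹ with hzd
      have hx'z : x' = z * r := by rw [hzd]; group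
      have e1 : δ * x' * δ⁻¹ * x'⁻¹ = (δ * z * δ⁻¹) * z⁻¹ := by
        calc δ * x' * δ⁻¹ * x'⁻¹ = (δ * z * δ⁻¹) * (δ * r * δ⁻¹) * r⁻¹ * z⁻¹ := by rw [hx'z]; group
          _ = (δ * z * δ⁻¹) * z⁻¹ := by rw [hδr]; group
      refine ⟨o, φ - ψ, ?_, ?_, _, hmem, ?_⟩
      · intro h
        have e2 := congrFun h s
        by_cases hst : s = t
        · exact ht.2.1 hst.symm
        rw [Pi.sub_apply, hφ, Pi.smul_apply, dd_m hso hst] at e2
        simp only [inv_one, Units.val_one, one_mul, smul_eq_mul, Pi.zero_apply] at e2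
        have e3 : ((b : F) - 1) * ψ s = 0 := by linear_combination e2
        rcases mul_eq_zero.1 e3 with h3 | h3
        · exact unit_sub_ne hb h3
        · exact hs h3
      · simp [hφ, hψo]
      · rw [e1]
        apply mat_ext; intro y
        rw [gl_mul_mulVec]
        have e4 : (((z⁻¹ : GL ι F)) : Matrix ι ι F) *ᵥ y = y - (ψ ⬝ᵥ y) • Pi.single o 1 := by
          apply gl_mulVec_injective z
          change (z : Matrix ι ι F) *ᵥ _ = (z : Matrix ι ι F) *ᵥ _
          rw [gl_mulVec_inv, hz, Matrix.add_mulVec, Matrix.one_mulVec, Matrix.vecMulVec_mulVec, dotProduct_sub,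
            dotProduct_smul, h0]
          simp
        have e5 : ∀ y : ι → F, ((δ * z * δ⁻¹ : GL ι F) : Matrix ι ι F) *ᵥ y = y + (φ ⬝ᵥ y) • Pi.single o 1 := by
          intro y
          rw [gl_mul_mulVec, gl_mul_mulVec, hz, Matrix.add_mulVec, Matrix.one_mulVec, Matrix.vecMulVec_mulVec,
            Matrix.mulVec_add, gl_mulVec_inv, hδ]
          have e6 : ψ ⬝ᵥ ((((dg (dd o t b))⁻¹ : GL ι F) : Matrix ι ι F) *ᵥ y) = (b : F)⁻¹ * (φ ⬝ᵥ y) := by
            rw [Matrix.dotProduct_mulVec, vecMul_dg_inv, hφ, smul_dotProduct, smul_eq_mul, ← mul_assoc,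
              inv_mul_cancel₀ b.ne_zero, one_mul]
          rw [e6]
          have e7 : MulOpposite.op ((b : F)⁻¹ * (φ ⬝ᵥ y)) • (Pi.single o 1 : ι → F) = ((b : F)⁻¹ * (φ ⬝ᵥ y)) • Pi.single o 1 := by
            ext i; simp [mul_comm]
          rw [e7, Matrix.mulVec_smul, dg_single, dd_k (Ne.symm ht.1), smul_smul]
          congr 2
          field_simp
        have e8 : φ ⬝ᵥ (Pi.single o 1 : ι → F) = 0 := by simp [hφ, hψo]
        rw [e4, e5, dotProduct_sub, dotProduct_smul, e8, Matrix.add_mulVec, Matrix.one_mulVec, Matrix.vecMulVec_mulVec,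
          sub_dotProduct]
        ext i
        simp
        ring

end partB

theorem mono_core [Fintype F] (h5 : 5 ≤ Fintype.card F) (hn : 10 ≤ Fintype.card ι) {M : Subgroup (GL ι F)}
    (hMS : M ≤ specialLinear ι F) (hH : ∀ x : GL ι F, Mon x → x ∈ specialLinear ι F → x ∈ M)
    {x : GL ι F} (hx : x ∈ M) (hxm : ¬ Mon x) : specialLinear ι F ≤ M := by
  have hD : ∀ d : ι → Fˣ, ∏ i, d i = 1 → dg d ∈ M := fun d h => hH _ (Mon.dg d) (dg_mem_sl h)
  have hP : ∀ σ : Equiv.Perm ι, Equiv.Perm.sign σ = 1 → pm σ ∈ M := fun σ h => hH _ (Mon.pm σ) (pm_mem_sl h)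
  have hb : ∃ b : Fˣ, b ≠ 1 := by
    classical
    have : 1 < Fintype.card Fˣ := by
      rw [Fintype.card_units]; omega
    have := Fintype.one_lt_card_iff_nontrivial.1 this
    exact exists_ne 1
  by_cases hK : ∀ x ∈ M, ∀ (o : ι) (c : F), (x : Matrix ι ι F) *ᵥ Pi.single o 1 = c • Pi.single o 1 → Mon x
  · exact absurd (partA hD hP hK hn h5 x hx) hxm
  · push Not at hK
    obtain ⟨y, hy, o, c, hyo, hym⟩ := hK
    obtain ⟨o', ψ, hψ, h⟩ := partB h5 hn hMS hH hy hym hyo
    exact partC hD hP (by omega) hb hψ h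

end Cfsg.Agent.SmallDim.Mono
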