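import Cfsg.Agent.H98.BlkMax
import Cfsg.Agent.H98.MonoGL

/-!
Maximality of the monomial subgroup of `SL ι F`, `|ι| ≥ 8`, `|F| ≥ 5`.
-/

set_option autoImplicit false
set_option linter.unusedSectionVars false

namespace Cfsg.Agent.SmallDim.Mono

open Matrix Cfsg.Geo Cfsg.Agent.GeoMax Cfsg.Agent.H98.Subf Cfsg.Agent.H98.Blk Cfsg.Agent.H98.Mono
open scoped MatrixGroups

variable {ι : Type} [Fintype ι] [DecidableEq ι] {F : Type*} [Field F]

/-- monomial matrices -/
def Mon (x : GL ι F) : Prop :=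
  ∀ j, ∃ i, ∃ c : F, (x : Matrix ι ι F) *ᵥ Pi.single j 1 = c • Pi.single i 1

lemma single_ne (i : ι) : (Pi.single i 1 : ι → F) ≠ 0 := by
  intro h
  have := congrFun h i
  simp at this

lemma mulVec_single_ne (x : GL ι F) (j : ι) : (x : Matrix ι ι F) *ᵥ Pi.single j 1 ≠ 0 := by
  intro h
  exact single_ne j (gl_mulVec_injective x (by simpa using h))

lemma Mon.c_ne {x : GL ι F} {i j : ι} {c : F} (h : (x : Matrix ι ι F) *ᵥ Pi.single j 1 = c • Pi.single i 1) :
    c ≠ 0 := by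
  rintro rfl
  rw [zero_smul] at h
  exact mulVec_single_ne x j h

lemma Mon.mul {x y : GL ι F} (hx : Mon x) (hy : Mon y) : Mon (x * y) := by
  intro j
  obtain ⟨i, c, h⟩ := hy j
  obtain ⟨k, d, h'⟩ := hx i
  refine ⟨k, c * d, ?_⟩
  rw [gl_mul_mulVec, h, Matrix.mulVec_smul, h', smul_smul]

lemma smul_single_inj {i j : ι} {c d : F} (hc : c ≠ 0) (h : c • (Pi.single i 1 : ι → F) = d • Pi.single j 1) :
    i = j := by
  by_contra hne
  have := congrFun h i
  simp [hne] at this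
  exact hc this

lemma Mon.inv {x : GL ι F} (hx : Mon x) : Mon x⁻¹ := by
  choose π c h using hx
  have hinj : Function.Injective π := by
    intro i j hij
    have h1 : (x : Matrix ι ι F) *ᵥ (c j • Pi.single i 1) = (x : Matrix ι ι F) *ᵥ (c i • Pi.single j 1) := by
      rw [Matrix.mulVec_smul, Matrix.mulVec_smul, h, h, hij, smul_smul, smul_smul, mul_comm]
    exact smul_single_inj (Mon.c_ne (h j)) (gl_mulVec_injective x h1)
  have hsurj := Finite.surjective_of_injective hinj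
  intro j
  obtain ⟨i, rfl⟩ := hsurj j
  refine ⟨i, (c i)⁻¹, ?_⟩
  apply gl_mulVec_injective x
  change (x : Matrix ι ι F) *ᵥ _ = (x : Matrix ι ι F) *ᵥ _
  rw [gl_mulVec_inv, Matrix.mulVec_smul, h, smul_smul, inv_mul_cancel₀ (Mon.c_ne (h i)), one_smul]

lemma Mon.pm (σ : Equiv.Perm ι) : Mon (pm σ : GL ι F) := fun j => ⟨σ j, 1, by rw [pm_single, one_smul]⟩

lemma Mon.dg (d : ι → Fˣ) : Mon (dg d : GL ι F) := by
  intro j
  refine ⟨j, d j, ?_⟩
  rw [dg_mulVec]
  ext i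
  by_cases h : i = j
  · subst h; simp
  · simp [h]

/-- two distinct nonzero coordinates contradict being proportional to a basis vector -/
lemma not_prop {v : ι → F} {p q i : ι} {c : F} (hpq : p ≠ q) (hp : v p ≠ 0) (hq : v q ≠ 0) (h : v = c • Pi.single i 1) :
    False := by
  by_cases hpi : p = i
  · have hqi : q ≠ i := fun h' => hpq (hpi.trans h'.symm)
    rw [h] at hq
    simp [hqi] at hq
  · rw [h] at hp
    simp [hpi] at hp

lemma exists_notMem (s : Finset ι) (h : s.card < Fintype.card ι) : ∃ i, i ∉ s := by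
  obtain ⟨c, -, hc⟩ := Finset.exists_mem_notMem_of_card_lt_card (s := s) (t := Finset.univ) (by rwa [Finset.card_univ])
  exact ⟨c, hc⟩

lemma exists_even_map (h : 4 ≤ Fintype.card ι) (i j : ι) : ∃ σ : Equiv.Perm ι, Equiv.Perm.sign σ = 1 ∧ σ i = j := by
  by_cases hij : i = j
  · exact ⟨1, by simp, by simp [hij]⟩
  · obtain ⟨k, hk⟩ := exists_notMem ({i, j} : Finset ι) (lt_of_le_of_lt (Finset.card_le_two) (by omega))
    obtain ⟨l, hl⟩ := exists_notMem ({i, j, k} : Finset ι) (lt_of_le_of_lt (Finset.card_le_three) (by omega))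
    simp only [Finset.mem_insert, Finset.mem_singleton, not_or] at hk hl
    refine ⟨Equiv.swap i j * Equiv.swap k l, ?_, ?_⟩
    · rw [map_mul, Equiv.Perm.sign_swap hij, Equiv.Perm.sign_swap (Ne.symm hl.2.2)]; rfl
    · rw [Equiv.Perm.mul_apply, Equiv.swap_apply_of_ne_of_ne (Ne.symm hk.1) (Ne.symm hl.1), Equiv.swap_apply_left]

section partA

variable {M : Subgroup (GL ι F)} (hD : ∀ d : ι → Fˣ, ∏ i, d i = 1 → dg d ∈ M)
  (hP : ∀ σ : Equiv.Perm ι, Equiv.Perm.sign σ = 1 → pm σ ∈ M)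
  (hK : ∀ x ∈ M, ∀ (o : ι) (c : F), (x : Matrix ι ι F) *ᵥ Pi.single o 1 = c • Pi.single o 1 → Mon x)
  (hn : 8 ≤ Fintype.card ι)

include hP hK hn in
lemma K2 {x : GL ι F} (hx : x ∈ M) {i j : ι} {c : F} (h : (x : Matrix ι ι F) *ᵥ Pi.single i 1 = c • Pi.single j 1) :
    Mon x := by
  obtain ⟨σ, hσ, hσj⟩ := exists_even_map (show 4 ≤ Fintype.card ι by omega) j i
  have h1 : ((pm σ * x : GL ι F) : Matrix ι ι F) *ᵥ Pi.single i 1 = c • Pi.single i 1 := by
    rw [gl_mul_mulVec, h, Matrix.mulVec_smul, pm_single, hσj]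
  have h2 := hK _ (M.mul_mem (hP σ hσ) hx) i c h1
  have h3 := (Mon.pm (F := F) σ).inv.mul h2
  rwa [inv_mul_cancel_left] at h3

/-- the diagonal matrix with `a` at `k` and `a⁻¹` at `l` -/
def dd (k l : ι) (a : Fˣ) : ι → Fˣ := Function.update (Function.update 1 k a) l a⁻¹

lemma dd_prod {k l : ι} (hkl : k ≠ l) (a : Fˣ) : ∏ i, dd k l a i = 1 := by
  unfold dd
  rw [Finset.prod_update_of_mem (Finset.mem_univ _), ← Finset.erase_eq, 
    Finset.prod_update_of_mem (by simp [hkl])]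
  simp

lemma dd_k {k l : ι} (hkl : k ≠ l) (a : Fˣ) : dd k l a k = a := by
  unfold dd; rw [Function.update_of_ne hkl, Function.update_self]
lemma dd_l (k l : ι) (a : Fˣ) : dd k l a l = a⁻¹ := by
  unfold dd; rw [Function.update_self]
lemma dd_m {k l m : ι} (hk : m ≠ k) (hl : m ≠ l) (a : Fˣ) : dd k l a m = 1 := by
  unfold dd; rw [Function.update_of_ne hl, Function.update_of_ne hk]; rfl

include hD hP hK hn in
lemma S1 {g : GL ι F} (hg : g ∈ M) (hgm : ¬ Mon g) {i k l : ι} (hkl : k ≠ l)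
    (hk : ((g : Matrix ι ι F) *ᵥ Pi.single i 1) k = 0) (hl : ((g : Matrix ι ι F) *ᵥ Pi.single i 1) l = 0)
    {a : Fˣ} (ha2 : (a : F) ^ 2 ≠ 1) (ha3 : (a : F) ^ 2 + a + 1 ≠ 0) (j : ι)
    (hj : ((dg (dd k l a) : GL ι F) : Matrix ι ι F) *ᵥ ((g : Matrix ι ι F) *ᵥ Pi.single j 1) ≠
      (g : Matrix ι ι F) *ᵥ Pi.single j 1) :
    ∀ m, m ≠ k → m ≠ l → ((g : Matrix ι ι F) *ᵥ Pi.single j 1) m = 0 := by
  set t : GL ι F := dg (dd k l a) with ht
  have ht_k : ∀ x : ι → F, ((t : Matrix ι ι F) *ᵥ x) k = a * x k := by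
    intro x; rw [ht, dg_mulVec]; simp only [dd_k hkl]
  have ht_l : ∀ x : ι → F, ((t : Matrix ι ι F) *ᵥ x) l = ((a⁻¹ : Fˣ) : F) * x l := by
    intro x; rw [ht, dg_mulVec]; simp only [dd_l]
  have ht_m : ∀ (x : ι → F) (m : ι), m ≠ k → m ≠ l → ((t : Matrix ι ι F) *ᵥ x) m = x m := by
    intro x m h1 h2; rw [ht, dg_mulVec]; simp only [dd_m h1 h2, Units.val_one, one_mul]
  have hext : ∀ x y : ι → F, x k = y k → x l = y l → (∀ m, m ≠ k → m ≠ l → x m = y m) → x = y := by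
    intro x y h1 h2 h3
    ext m
    by_cases hmk : m = k
    · rw [hmk]; exact h1
    by_cases hml : m = l
    · rw [hml]; exact h2
    exact h3 m hmk hml
  have haa : (a : F) * ((a⁻¹ : Fˣ) : F) = 1 := a.mul_inv
  have ha0 : (a : F) ≠ 0 := a.ne_zero
  have htM : t ∈ M := hD _ (dd_prod hkl a)
  set N : GL ι F := g⁻¹ * t * g with hN
  have hNM : N ∈ M := M.mul_mem (M.mul_mem (M.inv_mem hg) htM) hg
  have hgN : ∀ x : ι → F, (g : Matrix ι ι F) *ᵥ ((N : Matrix ι ι F) *ᵥ x) =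
      (t : Matrix ι ι F) *ᵥ ((g : Matrix ι ι F) *ᵥ x) := by
    intro x
    rw [hN, gl_mul_mulVec, gl_mul_mulVec, gl_mulVec_inv]
  have hNi : (N : Matrix ι ι F) *ᵥ Pi.single i 1 = (1 : F) • Pi.single i 1 := by
    apply gl_mulVec_injective g
    change (g : Matrix ι ι F) *ᵥ _ = (g : Matrix ι ι F) *ᵥ _
    rw [hgN, one_smul]
    apply hext
    · rw [ht_k, hk, mul_zero]
    · rw [ht_l, hl, mul_zero]
    · exact ht_m _
  have hNmon : Mon N := hK N hNM i 1 hNi
  set f : ι → F := (g : Matrix ι ι F) *ᵥ Pi.single j 1 with hf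
  obtain ⟨j1, c₁, h1⟩ := hNmon j
  obtain ⟨j2, c₂, h2⟩ := hNmon j1
  obtain ⟨j3, c₃, h3⟩ := hNmon j2
  have hc1 := Mon.c_ne h1
  have hc2 := Mon.c_ne h2
  have hc3 := Mon.c_ne h3
  -- f is not proportional to a basis vector
  have hfk : (∀ m, m ≠ k → m ≠ l → f m = 0) → f k ≠ 0 ∧ f l ≠ 0 := by
    intro h0
    constructor
    · intro hk0
      apply hgm
      refine K2 hP hK hn hg (i := j) (j := l) (c := f l) ?_
      apply hext
      · simp [← hf, hk0, hkl]
      · simp [← hf]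
      · intro m h1 h2; simp [← hf, h0 m h1 h2, h2]
    · intro hl0
      apply hgm
      refine K2 hP hK hn hg (i := j) (j := k) (c := f k) ?_
      apply hext
      · simp [← hf]
      · simp [← hf, hl0, hkl.symm]
      · intro m h1 h2; simp [← hf, h0 m h1 h2, h1]
  have htf : (t : Matrix ι ι F) *ᵥ f = c₁ • ((g : Matrix ι ι F) *ᵥ Pi.single j1 1) := by
    rw [hf, ← hgN, h1, Matrix.mulVec_smul]
  by_cases hj1 : j1 = j
  · -- eigenvector
    subst hj1
    rw [← hf] at htf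
    have hc : c₁ ≠ 1 := by
      rintro rfl
      rw [one_smul] at htf
      exact hj htf
    have h0 : ∀ m, m ≠ k → m ≠ l → f m = 0 := by
      intro m h1 h2
      have := congrFun htf m
      rw [ht_m _ _ h1 h2, Pi.smul_apply, smul_eq_mul] at this
      have h3 : (c₁ - 1) * f m = 0 := by linear_combination -this
      exact (mul_eq_zero.1 h3).resolve_left (sub_ne_zero.2 hc)
    obtain ⟨hk0, hl0⟩ := hfk h0
    exfalso
    have e1 := congrFun htf k
    have e2 := congrFun htf l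
    rw [ht_k, Pi.smul_apply, smul_eq_mul] at e1
    rw [ht_l, Pi.smul_apply, smul_eq_mul] at e2
    have e3 := mul_right_cancel₀ hk0 e1
    have e4 := mul_right_cancel₀ hl0 e2
    apply ha2
    rw [← e3] at e4
    rw [sq]
    calc (a : F) * a = a * ((a⁻¹ : Fˣ) : F) := by rw [e4]
      _ = 1 := haa
  · by_cases hj2 : j2 = j
    · subst hj2
      have htf2 : (t : Matrix ι ι F) *ᵥ ((t : Matrix ι ι F) *ᵥ f) = (c₁ * c₂) • f := by
        rw [htf, Matrix.mulVec_smul, ← hgN, h2, Matrix.mulVec_smul, ← hf, smul_smul]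
      by_cases hc : c₁ * c₂ = 1
      · exfalso
        rw [hc, one_smul] at htf2
        have e1 := congrFun htf2 k
        have e2 := congrFun htf2 l
        rw [ht_k, ht_k] at e1
        rw [ht_l, ht_l] at e2
        have e3 : ((a : F) ^ 2 - 1) * f k = 0 := by linear_combination e1
        have e4 : ((a : F) ^ 2 - 1) * f l = 0 := by
          have : f l = a ^ 2 * f l := by
            calc f l = (a * ((a⁻¹ : Fˣ) : F)) * (a * ((a⁻¹ : Fˣ) : F)) * f l := by rw [haa]; ring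
              _ = a ^ 2 * (((a⁻¹ : Fˣ) : F) * (((a⁻¹ : Fˣ) : F) * f l)) := by ring
              _ = a ^ 2 * f l := by rw [e2]
          linear_combination -this
        have hk0 := (mul_eq_zero.1 e3).resolve_left (sub_ne_zero.2 ha2)
        have hl0 := (mul_eq_zero.1 e4).resolve_left (sub_ne_zero.2 ha2)
        apply hj
        apply hext
        · rw [ht_k, hk0, mul_zero]
        · rw [ht_l, hl0, mul_zero]
        · exact ht_m _
      · intro m h1 h2
        have := congrFun htf2 m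
        rw [ht_m _ _ h1 h2, ht_m _ _ h1 h2, Pi.smul_apply, smul_eq_mul] at this
        have h3 : (c₁ * c₂ - 1) * f m = 0 := by linear_combination -this
        exact (mul_eq_zero.1 h3).resolve_left (sub_ne_zero.2 hc)
    · exfalso
      set s : F := 1 + a + ((a⁻¹ : Fˣ) : F) with hs
      have hid : (t : Matrix ι ι F) *ᵥ ((t : Matrix ι ι F) *ᵥ ((t : Matrix ι ι F) *ᵥ f)) =
          s • ((t : Matrix ι ι F) *ᵥ ((t : Matrix ι ι F) *ᵥ f)) - s • ((t : Matrix ι ι F) *ᵥ f) + f := by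
        apply hext
        · simp only [Pi.add_apply, Pi.sub_apply, Pi.smul_apply, smul_eq_mul, ht_k, hs]
          linear_combination (f k) * (1 - (a : F)) * haa
        · simp only [Pi.add_apply, Pi.sub_apply, Pi.smul_apply, smul_eq_mul, ht_l, hs]
          linear_combination (f l) * (1 - ((a⁻¹ : Fˣ) : F)) * haa
        · intro m h1 h2
          simp only [Pi.add_apply, Pi.sub_apply, Pi.smul_apply, smul_eq_mul, ht_m _ _ h1 h2]
          ring
      have hN2 : (N : Matrix ι ι F) *ᵥ ((N : Matrix ι ι F) *ᵥ Pi.single j 1) = (c₁ * c₂) • Pi.single j2 1 := by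
        rw [h1, Matrix.mulVec_smul, h2, smul_smul]
      have hN3 : (N : Matrix ι ι F) *ᵥ ((N : Matrix ι ι F) *ᵥ ((N : Matrix ι ι F) *ᵥ Pi.single j 1)) =
          (c₁ * c₂ * c₃) • Pi.single j3 1 := by
        rw [hN2, Matrix.mulVec_smul, h3, smul_smul]
      have hid2 : (c₁ * c₂ * c₃) • (Pi.single j3 1 : ι → F) = s • ((c₁ * c₂) • Pi.single j2 1) -
          s • (c₁ • Pi.single j1 1) + Pi.single j 1 := by
        apply gl_mulVec_injective g
        change (g : Matrix ι ι F) *ᵥ _ = (g : Matrix ι ι F) *ᵥ _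
        rw [← hN3, ← hN2, ← h1, hgN, hgN, hgN, Matrix.mulVec_add, Matrix.mulVec_sub, Matrix.mulVec_smul,
          Matrix.mulVec_smul, hgN, hgN]
        exact hid
      have hj31 : j3 ≠ j1 := by
        rintro rfl
        have : (N : Matrix ι ι F) *ᵥ (c₁ • Pi.single j2 1) = (N : Matrix ι ι F) *ᵥ (c₃ • Pi.single j 1) := by
          rw [Matrix.mulVec_smul, Matrix.mulVec_smul, h3, h1, smul_smul, smul_smul, mul_comm]
        exact hj2 (smul_single_inj hc1 (gl_mulVec_injective N this))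
      have hj21 : j2 ≠ j1 := by
        rintro rfl
        have : (N : Matrix ι ι F) *ᵥ (c₁ • Pi.single j2 1) = (N : Matrix ι ι F) *ᵥ (c₂ • Pi.single j 1) := by
          rw [Matrix.mulVec_smul, Matrix.mulVec_smul, h2, h1, smul_smul, smul_smul, mul_comm]
        exact hj1 (smul_single_inj hc1 (gl_mulVec_injective N this))
      have e := congrFun hid2 j1
      simp only [Pi.add_apply, Pi.sub_apply, Pi.smul_apply, smul_eq_mul, Pi.single_eq_same,
        Pi.single_eq_of_ne hj31.symm, Pi.single_eq_of_ne hj21.symm, Pi.single_eq_of_ne hj1, mul_zero, mul_one,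
        zero_sub, add_zero] at e
      have hs0 : s = 0 := by
        have : s * c₁ = 0 := by linear_combination e
        exact (mul_eq_zero.1 this).resolve_right hc1
      apply ha3
      have : (a : F) * s = 0 := by rw [hs0, mul_zero]
      rw [hs] at this
      linear_combination this - haa

include hD hP hK hn in
/-- columns of non-monomial elements have at most one zero -/
lemma S1' {g : GL ι F} (hg : g ∈ M) (hgm : ¬ Mon g) {a : Fˣ} (ha2 : (a : F) ^ 2 ≠ 1)
    (ha3 : (a : F) ^ 2 + a + 1 ≠ 0) {i k l : ι} (hkl : k ≠ l)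
    (hk : ((g : Matrix ι ι F) *ᵥ Pi.single i 1) k = 0) : ((g : Matrix ι ι F) *ᵥ Pi.single i 1) l ≠ 0 := by
  intro hl
  have ha1 : (a : F) ≠ 1 := by
    intro h; apply ha2; rw [h]; ring
  have hmove : ∀ p q : ι, p ≠ q → ∃ j, ((dg (dd p q a) : GL ι F) : Matrix ι ι F) *ᵥ ((g : Matrix ι ι F) *ᵥ Pi.single j 1) ≠
      (g : Matrix ι ι F) *ᵥ Pi.single j 1 := by
    intro p q hpq
    by_contra hcon
    push Not at hcon
    have h1 : (dg (dd p q a) : GL ι F) * g = g := by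
      apply Units.ext
      apply Matrix.ext_of_mulVec_single
      intro j
      change ((dg (dd p q a) * g : GL ι F) : Matrix ι ι F) *ᵥ _ = _
      rw [gl_mul_mulVec]; exact hcon j
    have h2 : (dg (dd p q a) : GL ι F) = 1 := by simpa using h1
    have h3 := congrArg (fun z : GL ι F => ((z : Matrix ι ι F) *ᵥ Pi.single p 1) p) h2
    simp only [dg_mulVec, dd_k hpq, Pi.single_eq_same, mul_one, Units.val_one, Matrix.one_mulVec] at h3
    exact ha1 h3
  obtain ⟨j, hj⟩ := hmove k l hkl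
  have h0 := S1 hD hP hK hn hg hgm hkl hk hl ha2 ha3 j hj
  obtain ⟨k', hk'⟩ := exists_notMem ({k, l} : Finset ι) (lt_of_le_of_lt (Finset.card_le_two) (by omega))
  obtain ⟨l', hl'⟩ := exists_notMem ({k, l, k'} : Finset ι) (lt_of_le_of_lt (Finset.card_le_three) (by omega))
  obtain ⟨m', hm'⟩ := exists_notMem ({k, l, k', l'} : Finset ι) (lt_of_le_of_lt (Finset.card_le_four) (by omega))
  simp only [Finset.mem_insert, Finset.mem_singleton, not_or] at hk' hl' hm'
  have z1 := h0 k' hk'.1 hk'.2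
  have z2 := h0 l' hl'.1 hl'.2.1
  have z3 := h0 m' hm'.1 hm'.2.1
  have hkl' : k' ≠ l' := Ne.symm hl'.2.2
  have hlm' : l' ≠ m' := Ne.symm hm'.2.2.2
  have hkm' : k' ≠ m' := Ne.symm hm'.2.2.1
  obtain ⟨j2, hj2⟩ := hmove l' m' hlm'
  have h2 := S1 hD hP hK hn hg hgm hlm' z2 z3 ha2 ha3 j2 hj2
  set f := (g : Matrix ι ι F) *ᵥ Pi.single j2 1 with hf
  have hfl : f l' ≠ 0 := by
    intro h
    apply hgm
    refine K2 hP hK hn hg (i := j2) (j := m') (c := f m') ?_
    ext m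
    rw [← hf]
    by_cases hm1 : m = m'
    · subst hm1; simp
    by_cases hm2 : m = l'
    · subst hm2; simp [h, hm1]
    · simp [h2 m hm2 hm1, hm1]
  have hfm : f m' ≠ 0 := by
    intro h
    apply hgm
    refine K2 hP hK hn hg (i := j2) (j := l') (c := f l') ?_
    ext m
    rw [← hf]
    by_cases hm1 : m = m'
    · subst hm1; simp [h, hlm'.symm]
    by_cases hm2 : m = l'
    · subst hm2; simp
    · simp [h2 m hm2 hm1, hm2]
  have h3 := S1 hD hP hK hn hg hgm hkl' z1 z2 ha2 ha3 j2 (by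
    intro h
    have := congrFun h l'
    rw [dg_mulVec, ← hf] at this
    simp only [dd_l] at this
    have h5 := mul_right_cancel₀ hfl (this.trans (one_mul _).symm)
    apply ha1
    have : (a : F) * ((a⁻¹ : Fˣ) : F) = 1 := a.mul_inv
    rw [h5, mul_one] at this
    exact this)
  exact hfm (h3 m' (Ne.symm hkm') (Ne.symm hlm'))

/-- 3-cycle `i → j → k → i` -/
def cyc (i j k : ι) : Equiv.Perm ι := Equiv.swap i j * Equiv.swap j k

lemma cyc_sign {i j k : ι} (hij : i ≠ j) (hjk : j ≠ k) : Equiv.Perm.sign (cyc i j k) = 1 := by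
  unfold cyc
  rw [map_mul, Equiv.Perm.sign_swap hij, Equiv.Perm.sign_swap hjk]; rfl

lemma cyc_i {i j k : ι} (hij : i ≠ j) (hik : i ≠ k) : cyc i j k i = j := by
  unfold cyc
  rw [Equiv.Perm.mul_apply, Equiv.swap_apply_of_ne_of_ne hij hik, Equiv.swap_apply_left]
lemma cyc_j {i j k : ι} (hik : i ≠ k) (hjk : j ≠ k) : cyc i j k j = k := by
  unfold cyc
  rw [Equiv.Perm.mul_apply, Equiv.swap_apply_left, Equiv.swap_apply_of_ne_of_ne hik.symm hjk.symm]
lemma cyc_k (i j k : ι) : cyc i j k k = i := by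
  unfold cyc
  rw [Equiv.Perm.mul_apply, Equiv.swap_apply_right, Equiv.swap_apply_right]
lemma cyc_m {i j k m : ι} (hi : m ≠ i) (hj : m ≠ j) (hk : m ≠ k) : cyc i j k m = m := by
  unfold cyc
  rw [Equiv.Perm.mul_apply, Equiv.swap_apply_of_ne_of_ne hj hk, Equiv.swap_apply_of_ne_of_ne hi hj]

section cycact
variable {i j k : ι} (hij : i ≠ j) (hik : i ≠ k) (hjk : j ≠ k) (x : ι → F)
include hij hik hjk

lemma P_j : (((pm (cyc i j k) : GL ι F) : Matrix ι ι F) *ᵥ x) j = x i := by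
  rw [pm_mulVec]; change x ((cyc i j k).symm j) = _
  rw [(Equiv.symm_apply_eq _).2 (cyc_i hij hik).symm]
lemma P_k : (((pm (cyc i j k) : GL ι F) : Matrix ι ι F) *ᵥ x) k = x j := by
  rw [pm_mulVec]; change x ((cyc i j k).symm k) = _
  rw [(Equiv.symm_apply_eq _).2 (cyc_j hik hjk).symm]
lemma P_i : (((pm (cyc i j k) : GL ι F) : Matrix ι ι F) *ᵥ x) i = x k := by
  rw [pm_mulVec]; change x ((cyc i j k).symm i) = _
  rw [(Equiv.symm_apply_eq _).2 (cyc_k i j k).symm]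
omit hij hik hjk in
lemma P_m {m : ι} (hi : m ≠ i) (hj : m ≠ j) (hk : m ≠ k) :
    (((pm (cyc i j k) : GL ι F) : Matrix ι ι F) *ᵥ x) m = x m := by
  rw [pm_mulVec]; change x ((cyc i j k).symm m) = _
  rw [(Equiv.symm_apply_eq _).2 (cyc_m hi hj hk).symm]

lemma P_three : ((pm (cyc i j k) : GL ι F) : Matrix ι ι F) *ᵥ (((pm (cyc i j k) : GL ι F) : Matrix ι ι F) *ᵥ
    (((pm (cyc i j k) : GL ι F) : Matrix ι ι F) *ᵥ x)) = x := by
  ext m
  by_cases hmi : m = i
  · subst hmi; rw [P_i hij hik hjk, P_k hij hik hjk, P_j hij hik hjk]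
  by_cases hmj : m = j
  · subst hmj; rw [P_j hij hik hjk, P_i hij hik hjk, P_k hij hik hjk]
  by_cases hmk : m = k
  · subst hmk; rw [P_k hij hik hjk, P_j hij hik hjk, P_i hij hik hjk]
  · rw [P_m _ hmi hmj hmk, P_m _ hmi hmj hmk, P_m _ hmi hmj hmk]

end cycact

section frame

variable {g : GL ι F} (hg : g ∈ M) {j₀ o : ι} (hu : ∀ s, s ≠ o → ((g : Matrix ι ι F) *ᵥ Pi.single j₀ 1) s = 1)
  (hz : ∀ b k l : ι, k ≠ l → ((g : Matrix ι ι F) *ᵥ Pi.single b 1) k = 0 → ((g : Matrix ι ι F) *ᵥ Pi.single b 1) l ≠ 0)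

include hg hu hK in
/-- even permutations fixing `o` permute the columns of `g` -/
lemma frame_mon {σ : Equiv.Perm ι} (hσ : pm σ ∈ M) (hσo : σ o = o) : Mon (g⁻¹ * pm σ * g) := by
  refine hK _ (M.mul_mem (M.mul_mem (M.inv_mem hg) hσ) hg) j₀ 1 ?_
  apply gl_mulVec_injective g
  change (g : Matrix ι ι F) *ᵥ _ = (g : Matrix ι ι F) *ᵥ _
  rw [gl_mul_mulVec, gl_mul_mulVec, gl_mulVec_inv, one_smul, pm_mulVec]
  ext s
  change ((g : Matrix ι ι F) *ᵥ Pi.single j₀ 1) (σ.symm s) = _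
  by_cases hs : s = o
  · subst hs
    rw [(Equiv.symm_apply_eq _).2 hσo.symm]
  · rw [hu s hs, hu]
    intro h
    apply hs
    rw [Equiv.symm_apply_eq, hσo] at h
    exact h

include hz hn in
lemma exists_nz (s : Finset ι) (hs : s.card + 2 ≤ Fintype.card ι) (b : ι) :
    ∃ m, m ∉ s ∧ ((g : Matrix ι ι F) *ᵥ Pi.single b 1) m ≠ 0 := by
  obtain ⟨m1, hm1⟩ := exists_notMem s (by omega)
  obtain ⟨m2, hm2⟩ := exists_notMem (insert m1 s) (by
    have := Finset.card_insert_le m1 s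
    omega)
  simp only [Finset.mem_insert, not_or] at hm2
  by_cases h : ((g : Matrix ι ι F) *ᵥ Pi.single b 1) m1 = 0
  · exact ⟨m2, hm2.2, hz b m1 m2 (Ne.symm hm2.1) h⟩
  · exact ⟨m1, hm1, h⟩

lemma twob {i j k : ι} (hij : i ≠ j) (hik : i ≠ k) (hjk : j ≠ k)
    (hN : Mon (g⁻¹ * pm (cyc i j k) * g)) {b b1 b2 b' : ι} {c₁ c₂ : F}
    (h1 : ((g⁻¹ * pm (cyc i j k) * g : GL ι F) : Matrix ι ι F) *ᵥ Pi.single b 1 = c₁ • Pi.single b1 1)
    (h2 : ((g⁻¹ * pm (cyc i j k) * g : GL ι F) : Matrix ι ι F) *ᵥ Pi.single b1 1 = c₂ • Pi.single b2 1)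
    (hb1 : b1 ≠ b) (hb2 : b2 ≠ b) (hb21 : b2 ≠ b1) (hb' : b' ≠ b) (hb'1 : b' ≠ b1) (hb'2 : b' ≠ b2) :
    ((g⁻¹ * pm (cyc i j k) * g : GL ι F) : Matrix ι ι F) *ᵥ Pi.single b' 1 = Pi.single b' 1 := by
  set N : GL ι F := g⁻¹ * pm (cyc i j k) * g with hNd
  set P : GL ι F := pm (cyc i j k) with hP'
  have hgN : ∀ x : ι → F, (g : Matrix ι ι F) *ᵥ ((N : Matrix ι ι F) *ᵥ x) =
      (P : Matrix ι ι F) *ᵥ ((g : Matrix ι ι F) *ᵥ x) := by
    intro x
    rw [hNd, gl_mul_mulVec, gl_mul_mulVec, gl_mulVec_inv]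
  by_contra hcon
  let y : ι → (ι → F) := fun a => (P : Matrix ι ι F) *ᵥ ((g : Matrix ι ι F) *ᵥ Pi.single a 1) -
    (g : Matrix ι ι F) *ᵥ Pi.single a 1
  have hyg : ∀ a, y a = (g : Matrix ι ι F) *ᵥ ((N : Matrix ι ι F) *ᵥ Pi.single a 1 - Pi.single a 1) := by
    intro a
    rw [Matrix.mulVec_sub, hgN]
  have hy0 : ∀ a m, m ≠ i → m ≠ j → m ≠ k → y a m = 0 := by
    intro a m h1 h2 h3
    simp only [y, Pi.sub_apply, hP']
    rw [P_m _ h1 h2 h3, sub_self]
  have hys : ∀ a, y a k = - y a i - y a j := by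
    intro a
    simp only [y, Pi.sub_apply, hP']
    rw [P_i hij hik hjk, P_j hij hik hjk, P_k hij hik hjk]; ring
  obtain ⟨φ, -, hφ0, hφ⟩ := exists_orth (F₀ := (⊤ : Subfield F)) (ι := Fin 3) (k := 2) (by simp)
    ![![y b i, y b1 i, y b' i], ![y b j, y b1 j, y b' j]] (fun _ _ => trivial)
  have e1 := hφ 0
  have e2 := hφ 1
  simp [dotProduct, Fin.sum_univ_three] at e1 e2
  have hzero : φ 0 • y b + φ 1 • y b1 + φ 2 • y b' = 0 := by
    ext m
    simp only [Pi.add_apply, Pi.smul_apply, smul_eq_mul, Pi.zero_apply]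
    by_cases hmi : m = i
    · rw [hmi]; exact e1
    by_cases hmj : m = j
    · rw [hmj]; exact e2
    by_cases hmk : m = k
    · rw [hmk, hys, hys, hys]; linear_combination -e1 - e2
    · rw [hy0 _ _ hmi hmj hmk, hy0 _ _ hmi hmj hmk, hy0 _ _ hmi hmj hmk]; ring
  obtain ⟨b'', ν, h3⟩ := hN b'
  rw [hyg, hyg, hyg, ← Matrix.mulVec_smul, ← Matrix.mulVec_smul, ← Matrix.mulVec_smul, ← Matrix.mulVec_add,
    ← Matrix.mulVec_add] at hzero
  have hz2 : φ 0 • ((N : Matrix ι ι F) *ᵥ Pi.single b 1 - Pi.single b 1) +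
      φ 1 • ((N : Matrix ι ι F) *ᵥ Pi.single b1 1 - Pi.single b1 1) +
      φ 2 • ((N : Matrix ι ι F) *ᵥ Pi.single b' 1 - Pi.single b' 1) = 0 := by
    apply gl_mulVec_injective g
    simpa using hzero
  rw [h1, h2, h3] at hz2
  have f2 : φ 2 = 0 := by
    have e := congrFun hz2 b'
    simp only [Pi.add_apply, Pi.smul_apply, Pi.sub_apply, smul_eq_mul, Pi.single_eq_of_ne hb', Pi.single_eq_of_ne hb'1,
      Pi.single_eq_of_ne hb'2, Pi.single_eq_same, mul_zero, sub_zero, zero_add, Pi.zero_apply] at e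
    by_cases hbb : b'' = b'
    · subst hbb
      rw [Pi.single_eq_same, mul_one] at e
      rcases mul_eq_zero.1 e with h | h
      · exact h
      · exfalso
        apply hcon
        rw [h3, sub_eq_zero.1 h, one_smul]
    · rw [Pi.single_eq_of_ne (Ne.symm hbb)] at e
      simpa using e
  rw [f2, zero_smul, add_zero] at hz2
  have f0 : φ 0 = 0 := by
    have e := congrFun hz2 b
    simp only [Pi.add_apply, Pi.smul_apply, Pi.sub_apply, smul_eq_mul, Pi.single_eq_of_ne hb1.symm,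
      Pi.single_eq_of_ne hb2.symm, Pi.single_eq_same, Pi.zero_apply] at e
    linear_combination -e
  have f1 : φ 1 = 0 := by
    have e := congrFun hz2 b1
    rw [f0] at e
    simp only [Pi.add_apply, Pi.smul_apply, Pi.sub_apply, smul_eq_mul, Pi.single_eq_of_ne hb21.symm,
      Pi.single_eq_same, Pi.zero_apply] at e
    linear_combination -e
  apply hφ0
  ext a
  fin_cases a
  · exact f0
  · exact f1
  · exact f2

include hg hu hK hP hn hz in
lemma twoc {i j k i' j' k' : ι} (hij : i ≠ j) (hik : i ≠ k) (hjk : j ≠ k)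
    (hij' : i' ≠ j') (hik' : i' ≠ k') (hjk' : j' ≠ k')
    (hio : i ≠ o) (hjo : j ≠ o) (hko : k ≠ o) (hio' : i' ≠ o) (hjo' : j' ≠ o) (hko' : k' ≠ o)
    (hdis : ∀ x ∈ ({i', j', k'} : Finset ι), x ∉ ({i, j, k} : Finset ι)) (b : ι)
    (hnc : ¬ (((g : Matrix ι ι F) *ᵥ Pi.single b 1) i = ((g : Matrix ι ι F) *ᵥ Pi.single b 1) j ∧
      ((g : Matrix ι ι F) *ᵥ Pi.single b 1) j = ((g : Matrix ι ι F) *ᵥ Pi.single b 1) k)) :
    ((g : Matrix ι ι F) *ᵥ Pi.single b 1) i' = ((g : Matrix ι ι F) *ᵥ Pi.single b 1) j' := by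
  simp only [Finset.mem_insert, Finset.mem_singleton, forall_eq_or_imp, forall_eq, not_or] at hdis
  obtain ⟨⟨d1, d2, d3⟩, ⟨d4, d5, d6⟩, ⟨d7, d8, d9⟩⟩ := hdis
  set P : GL ι F := pm (cyc i j k) with hPd
  set P' : GL ι F := pm (cyc i' j' k') with hPd'
  set N : GL ι F := g⁻¹ * P * g with hNd
  set N' : GL ι F := g⁻¹ * P' * g with hNd'
  have hN : Mon N := frame_mon hK hg hu (hP _ (cyc_sign hij hjk)) (cyc_m hio.symm hjo.symm hko.symm)
  have hN' : Mon N' := frame_mon hK hg hu (hP _ (cyc_sign hij' hjk')) (cyc_m hio'.symm hjo'.symm hko'.symm)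
  have hgN : ∀ x : ι → F, (g : Matrix ι ι F) *ᵥ ((N : Matrix ι ι F) *ᵥ x) =
      (P : Matrix ι ι F) *ᵥ ((g : Matrix ι ι F) *ᵥ x) := by
    intro x
    rw [hNd, gl_mul_mulVec, gl_mul_mulVec, gl_mulVec_inv]
  have hgN' : ∀ x : ι → F, (g : Matrix ι ι F) *ᵥ ((N' : Matrix ι ι F) *ᵥ x) =
      (P' : Matrix ι ι F) *ᵥ ((g : Matrix ι ι F) *ᵥ x) := by
    intro x
    rw [hNd', gl_mul_mulVec, gl_mul_mulVec, gl_mulVec_inv]
  have hPi : ∀ x : ι → F, ((P : Matrix ι ι F) *ᵥ x) i = x k := fun x => P_i hij hik hjk x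
  have hPj : ∀ x : ι → F, ((P : Matrix ι ι F) *ᵥ x) j = x i := fun x => P_j hij hik hjk x
  have hPk : ∀ x : ι → F, ((P : Matrix ι ι F) *ᵥ x) k = x j := fun x => P_k hij hik hjk x
  have hPm : ∀ (x : ι → F) m, m ≠ i → m ≠ j → m ≠ k → ((P : Matrix ι ι F) *ᵥ x) m = x m := fun x m => P_m x
  have hPi' : ∀ x : ι → F, ((P' : Matrix ι ι F) *ᵥ x) i' = x k' := fun x => P_i hij' hik' hjk' x
  have hPj' : ∀ x : ι → F, ((P' : Matrix ι ι F) *ᵥ x) j' = x i' := fun x => P_j hij' hik' hjk' x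
  have hPm' : ∀ (x : ι → F) m, m ≠ i' → m ≠ j' → m ≠ k' → ((P' : Matrix ι ι F) *ᵥ x) m = x m := fun x m => P_m x
  set f : ι → F := (g : Matrix ι ι F) *ᵥ Pi.single b 1 with hf
  obtain ⟨m, hm, hfm⟩ := exists_nz hn hz ({i, j, k, i', j', k'} : Finset ι)
    (by have := Finset.card_le_six (a := i) (b := j) (c := k) (d := i') (e := j') (f := k'); omega) b
  simp only [Finset.mem_insert, Finset.mem_singleton, not_or] at hm
  obtain ⟨m1, m2, m3, m4, m5, m6⟩ := hm
  rw [← hf] at hfm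
  -- the action on b
  obtain ⟨b1, c₁, h1⟩ := hN b
  obtain ⟨b2, c₂, h2⟩ := hN b1
  obtain ⟨b3, c₃, h3⟩ := hN b2
  have hc1 := Mon.c_ne h1
  have hc2 := Mon.c_ne h2
  have hc3 := Mon.c_ne h3
  have hPf : (P : Matrix ι ι F) *ᵥ f = c₁ • ((g : Matrix ι ι F) *ᵥ Pi.single b1 1) := by
    rw [hf, ← hgN, h1, Matrix.mulVec_smul]
  have hPf1 : (P : Matrix ι ι F) *ᵥ ((g : Matrix ι ι F) *ᵥ Pi.single b1 1) =
      c₂ • ((g : Matrix ι ι F) *ᵥ Pi.single b2 1) := by
    rw [← hgN, h2, Matrix.mulVec_smul]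
  have hb1 : b1 ≠ b := by
    rintro rfl
    rw [← hf] at hPf
    have e0 := congrFun hPf m
    rw [hPm _ _ m1 m2 m3, Pi.smul_apply, smul_eq_mul] at e0
    have hc : c₁ = 1 := by
      have : (c₁ - 1) * f m = 0 := by linear_combination -e0
      exact sub_eq_zero.1 ((mul_eq_zero.1 this).resolve_right hfm)
    rw [hc, one_smul] at hPf
    apply hnc
    have e1 := congrFun hPf j
    have e2 := congrFun hPf k
    rw [hPj] at e1
    rw [hPk] at e2
    exact ⟨e1, e2⟩
  have hb21 : b2 ≠ b1 := by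
    rintro rfl
    have : (N : Matrix ι ι F) *ᵥ (c₁ • Pi.single b2 1) = (N : Matrix ι ι F) *ᵥ (c₂ • Pi.single b 1) := by
      rw [Matrix.mulVec_smul, Matrix.mulVec_smul, h2, h1, smul_smul, smul_smul, mul_comm]
    exact hb1 (smul_single_inj hc1 (gl_mulVec_injective N this))
  have hb2 : b2 ≠ b := by
    rintro rfl
    have e1 : (N : Matrix ι ι F) *ᵥ ((N : Matrix ι ι F) *ᵥ ((N : Matrix ι ι F) *ᵥ Pi.single b2 1)) = Pi.single b2 1 := by
      apply gl_mulVec_injective g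
      change (g : Matrix ι ι F) *ᵥ _ = (g : Matrix ι ι F) *ᵥ _
      rw [hgN, hgN, hgN]
      exact P_three hij hik hjk _
    rw [h1, Matrix.mulVec_smul, h2, smul_smul, Matrix.mulVec_smul, h1, smul_smul] at e1
    have := smul_single_inj (mul_ne_zero (mul_ne_zero hc1 hc2) hc1) (e1.trans (one_smul F _).symm)
    exact hb1 this
  obtain ⟨b', μ, h4⟩ := hN' b
  have hμ := Mon.c_ne h4
  have hPf' : (P' : Matrix ι ι F) *ᵥ f = μ • ((g : Matrix ι ι F) *ᵥ Pi.single b' 1) := by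
    rw [hf, ← hgN', h4, Matrix.mulVec_smul]
  by_cases hb' : b' = b
  · subst hb'
    rw [← hf] at hPf'
    have e0 := congrFun hPf' m
    rw [hPm' _ _ m4 m5 m6, Pi.smul_apply, smul_eq_mul] at e0
    have hc : μ = 1 := by
      have : (μ - 1) * f m = 0 := by linear_combination -e0
      exact sub_eq_zero.1 ((mul_eq_zero.1 this).resolve_right hfm)
    rw [hc, one_smul] at hPf'
    have e1 := congrFun hPf' j'
    rw [hPj'] at e1
    exact e1
  exfalso
  by_cases hb'1 : b' = b1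
  · subst hb'1
    have hPP : (P' : Matrix ι ι F) *ᵥ f = (μ * c₁⁻¹) • ((P : Matrix ι ι F) *ᵥ f) := by
      rw [hPf', hPf, smul_smul, mul_assoc, inv_mul_cancel₀ hc1, mul_one]
    have e0 := congrFun hPP m
    rw [hPm' _ _ m4 m5 m6, Pi.smul_apply, smul_eq_mul, hPm _ _ m1 m2 m3] at e0
    have hc : μ * c₁⁻¹ = 1 := by
      have : (μ * c₁⁻¹ - 1) * f m = 0 := by linear_combination -e0
      exact sub_eq_zero.1 ((mul_eq_zero.1 this).resolve_right hfm)
    rw [hc, one_smul] at hPP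
    have e1 := congrFun hPP j
    have e2 := congrFun hPP k
    rw [hPj, hPm' _ _ (Ne.symm d2) (Ne.symm d5) (Ne.symm d8)] at e1
    rw [hPk, hPm' _ _ (Ne.symm d3) (Ne.symm d6) (Ne.symm d9)] at e2
    exact hnc ⟨e1.symm, e2.symm⟩
  by_cases hb'2 : b' = b2
  · subst hb'2
    have hPP : (P' : Matrix ι ι F) *ᵥ f = (μ * c₂⁻¹ * c₁⁻¹) • ((P : Matrix ι ι F) *ᵥ ((P : Matrix ι ι F) *ᵥ f)) := by
      rw [hPf', hPf, Matrix.mulVec_smul, hPf1, smul_smul, smul_smul]
      congr 1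
      field_simp
    have e0 := congrFun hPP m
    rw [hPm' _ _ m4 m5 m6, Pi.smul_apply, smul_eq_mul, hPm _ _ m1 m2 m3, hPm _ _ m1 m2 m3] at e0
    have hc : μ * c₂⁻¹ * c₁⁻¹ = 1 := by
      have : (μ * c₂⁻¹ * c₁⁻¹ - 1) * f m = 0 := by linear_combination -e0
      exact sub_eq_zero.1 ((mul_eq_zero.1 this).resolve_right hfm)
    rw [hc, one_smul] at hPP
    have e1 := congrFun hPP i
    have e2 := congrFun hPP j
    rw [hPi, hPk, hPm' _ _ (Ne.symm d1) (Ne.symm d4) (Ne.symm d7)] at e1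
    rw [hPj, hPi, hPm' _ _ (Ne.symm d2) (Ne.symm d5) (Ne.symm d8)] at e2
    exact hnc ⟨e1, e2⟩
  · have h5 := twob hij hik hjk hN h1 h2 hb1 hb2 hb21 hb' hb'1 hb'2
    have hcomm : ∀ x : ι → F, (P : Matrix ι ι F) *ᵥ ((P' : Matrix ι ι F) *ᵥ x) =
        (P' : Matrix ι ι F) *ᵥ ((P : Matrix ι ι F) *ᵥ x) := by
      intro x
      ext s
      by_cases s1 : s = i
      · subst s1; rw [hPi, hPm' _ _ (Ne.symm d3) (Ne.symm d6) (Ne.symm d9), hPm' _ _ (Ne.symm d1) (Ne.symm d4) (Ne.symm d7), hPi]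
      by_cases s2 : s = j
      · subst s2; rw [hPj, hPm' _ _ (Ne.symm d1) (Ne.symm d4) (Ne.symm d7), hPm' _ _ (Ne.symm d2) (Ne.symm d5) (Ne.symm d8), hPj]
      by_cases s3 : s = k
      · subst s3; rw [hPk, hPm' _ _ (Ne.symm d2) (Ne.symm d5) (Ne.symm d8), hPm' _ _ (Ne.symm d3) (Ne.symm d6) (Ne.symm d9), hPk]
      rw [hPm _ _ s1 s2 s3]
      by_cases s4 : s = i'
      · subst s4; rw [hPi', hPi', hPm _ _ d7 d8 d9]
      by_cases s5 : s = j'
      · subst s5; rw [hPj', hPj', hPm _ _ d1 d2 d3]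
      by_cases s6 : s = k'
      · subst s6
        have : ∀ x : ι → F, ((P' : Matrix ι ι F) *ᵥ x) s = x j' := fun x => P_k hij' hik' hjk' x
        rw [this, this, hPm _ _ d4 d5 d6]
      · rw [hPm' _ _ s4 s5 s6, hPm' _ _ s4 s5 s6, hPm _ _ s1 s2 s3]
    have h6 : (N : Matrix ι ι F) *ᵥ ((N' : Matrix ι ι F) *ᵥ Pi.single b 1) =
        (N' : Matrix ι ι F) *ᵥ ((N : Matrix ι ι F) *ᵥ Pi.single b 1) := by
      apply gl_mulVec_injective g
      change (g : Matrix ι ι F) *ᵥ _ = (g : Matrix ι ι F) *ᵥ _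
      rw [hgN, hgN', hgN', hgN, hcomm]
    rw [h4, Matrix.mulVec_smul, h5, h1, ← h4, Matrix.mulVec_smul] at h6
    rw [← Matrix.mulVec_smul] at h6
    have h7 := gl_mulVec_injective N' h6
    have h8 := smul_single_inj one_ne_zero ((one_smul F _).trans h7)
    exact hb1 h8.symm

include hg hu hK hP hn hz in
lemma const_compl {i j k : ι} (hij : i ≠ j) (hik : i ≠ k) (hjk : j ≠ k)
    (hio : i ≠ o) (hjo : j ≠ o) (hko : k ≠ o) (b : ι)
    (hnc : ¬ (((g : Matrix ι ι F) *ᵥ Pi.single b 1) i = ((g : Matrix ι ι F) *ᵥ Pi.single b 1) j ∧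
      ((g : Matrix ι ι F) *ᵥ Pi.single b 1) j = ((g : Matrix ι ι F) *ᵥ Pi.single b 1) k)) (p q : ι)
    (hp : p ∉ ({i, j, k, o} : Finset ι)) (hq : q ∉ ({i, j, k, o} : Finset ι)) :
    ((g : Matrix ι ι F) *ᵥ Pi.single b 1) p = ((g : Matrix ι ι F) *ᵥ Pi.single b 1) q := by
  by_cases hpq : p = q
  · rw [hpq]
  obtain ⟨r, hr⟩ := exists_notMem ({i, j, k, o, p, q} : Finset ι) (lt_of_le_of_lt Finset.card_le_six (by omega))
  simp only [Finset.mem_insert, Finset.mem_singleton, not_or] at hp hq hr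
  refine twoc hP hK hn hg hu hz hij hik hjk hpq (Ne.symm hr.2.2.2.2.1) (Ne.symm hr.2.2.2.2.2) hio hjo hko
    hp.2.2.2 hq.2.2.2 hr.2.2.2.1 ?_ b hnc
  simp only [Finset.mem_insert, Finset.mem_singleton, forall_eq_or_imp, forall_eq, not_or]
  exact ⟨⟨hp.1, hp.2.1, hp.2.2.1⟩, ⟨hq.1, hq.2.1, hq.2.2.1⟩, ⟨hr.1, hr.2.1, hr.2.2.1⟩⟩

include hg hu hK hP hn hz in
lemma oneexc {i j k : ι} (hij : i ≠ j) (hik : i ≠ k) (hjk : j ≠ k)
    (hio : i ≠ o) (hjo : j ≠ o) (hko : k ≠ o) (b : ι)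
    (hnc : ¬ (((g : Matrix ι ι F) *ᵥ Pi.single b 1) i = ((g : Matrix ι ι F) *ᵥ Pi.single b 1) j ∧
      ((g : Matrix ι ι F) *ᵥ Pi.single b 1) j = ((g : Matrix ι ι F) *ᵥ Pi.single b 1) k)) :
    ∃ s, s ≠ o ∧ ∃ γ : F, ((g : Matrix ι ι F) *ᵥ Pi.single b 1) s ≠ γ ∧
      ∀ q, q ≠ s → q ≠ o → ((g : Matrix ι ι F) *ᵥ Pi.single b 1) q = γ := by
  set f := (g : Matrix ι ι F) *ᵥ Pi.single b 1 with hf
  obtain ⟨l, hl⟩ := exists_notMem ({i, j, k, o} : Finset ι) (lt_of_le_of_lt Finset.card_le_four (by omega))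
  obtain ⟨l2, hl2⟩ := exists_notMem ({i, j, k, o, l} : Finset ι) (lt_of_le_of_lt Finset.card_le_five (by omega))
  have hcc := const_compl hP hK hn hg hu hz hij hik hjk hio hjo hko b hnc
  rw [← hf] at hcc
  have hl' := hl
  simp only [Finset.mem_insert, Finset.mem_singleton, not_or] at hl hl2
  have hl2γ : f l2 = f l := hcc l2 l (by
    simp only [Finset.mem_insert, Finset.mem_singleton, not_or]
    exact ⟨hl2.1, hl2.2.1, hl2.2.2.1, hl2.2.2.2.1⟩) hl'
  have key : ∀ x y z : ι, x ≠ y → x ≠ z → y ≠ z → x ≠ o → y ≠ o → z ≠ o → l ≠ x → l ≠ y → l ≠ z →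
      l2 ≠ x → l2 ≠ y → f z = f l ∨ (f x = f l ∧ f y = f l) := by
    intro x y z hxy hxz hyz hxo hyo hzo hlx hly hlz hl2x hl2y
    by_cases h : f x = f y ∧ f y = f l
    · right; exact ⟨h.1.trans h.2, h.2⟩
    · left
      have := const_compl hP hK hn hg hu hz hxy (Ne.symm hlx) (Ne.symm hly) hxo hyo hl.2.2.2 b h z l2
        (by simp only [Finset.mem_insert, Finset.mem_singleton, not_or]
            exact ⟨Ne.symm hxz, Ne.symm hyz, Ne.symm hlz, hzo⟩)
        (by simp only [Finset.mem_insert, Finset.mem_singleton, not_or]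
            exact ⟨hl2x, hl2y, hl2.2.2.2.2, hl2.2.2.2.1⟩)
      rw [← hf] at this
      rw [this, hl2γ]
  have k1 := key i j k hij hik hjk hio hjo hko hl.1 hl.2.1 hl.2.2.1 hl2.1 hl2.2.1
  have k2 := key i k j hik hij hjk.symm hio hko hjo hl.1 hl.2.2.1 hl.2.1 hl2.1 hl2.2.2.1
  have k3 := key j k i hjk hij.symm hik.symm hjo hko hio hl.2.1 hl.2.2.1 hl.1 hl2.2.1 hl2.2.2.1
  have hother : ∀ q, q ≠ i → q ≠ j → q ≠ k → q ≠ o → f q = f l := by
    intro q h1 h2 h3 h4
    exact hcc q l (by simp [h1, h2, h3, h4]) hl'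
  by_cases hi : f i = f l
  · by_cases hj : f j = f l
    · have hk : f k ≠ f l := by
        intro hk
        exact hnc ⟨hi.trans hj.symm, hj.trans hk.symm⟩
      refine ⟨k, hko, f l, hk, ?_⟩
      intro q h1 h2
      by_cases hqi : q = i
      · rw [hqi, hi]
      by_cases hqj : q = j
      · rw [hqj, hj]
      exact hother q hqi hqj h1 h2
    · have hk : f k = f l := by
        rcases k2 with h | h
        · exact absurd h hj
        · exact h.2
      refine ⟨j, hjo, f l, hj, ?_⟩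
      intro q h1 h2
      by_cases hqi : q = i
      · rw [hqi, hi]
      by_cases hqk : q = k
      · rw [hqk, hk]
      exact hother q hqi h1 hqk h2
  · obtain ⟨hj, hk⟩ := k3.resolve_left hi
    refine ⟨i, hio, f l, hi, ?_⟩
    intro q h1 h2
    by_cases hqj : q = j
    · rw [hqj, hj]
    by_cases hqk : q = k
    · rw [hqk, hk]
    exact hother q h1 hqj hqk h2

lemma sum_single (y : ι → F) : ∑ b, y b • (Pi.single b (1 : F) : ι → F) = y := by
  ext k
  simp [Finset.sum_apply, Pi.single_apply]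

lemma mulVec_eq_sum' (g : GL ι F) (y : ι → F) :
    (g : Matrix ι ι F) *ᵥ y = ∑ b, y b • ((g : Matrix ι ι F) *ᵥ Pi.single b 1) := by
  conv_lhs => rw [← sum_single y]
  rw [Matrix.mulVec_sum]
  exact Finset.sum_congr rfl fun b _ => Matrix.mulVec_smul _ _ _

include hD hg hu hK hP hn hz in
/-- the test vectors -/
lemma frame_test : ∃ γ ρ X : F, ρ ≠ 0 ∧ X ≠ 0 ∧ ∀ a : ι → Fˣ, a o = 1 → ∏ s, a s = 1 →
    ∃ x ∈ M, ∀ l, l ≠ o → ((x : Matrix ι ι F) *ᵥ Pi.single o 1) l =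
      X * (γ * ∑ s, ((a s : F) - 1) + ρ * ((a l : F) - 1)) := by
  -- a non-constant column
  obtain ⟨i, hi⟩ := exists_notMem ({o} : Finset ι) (by rw [Finset.card_singleton]; omega)
  obtain ⟨j, hj⟩ := exists_notMem ({o, i} : Finset ι) (lt_of_le_of_lt Finset.card_le_two (by omega))
  obtain ⟨k, hk⟩ := exists_notMem ({o, i, j} : Finset ι) (lt_of_le_of_lt Finset.card_le_three (by omega))
  simp only [Finset.mem_insert, Finset.mem_singleton, not_or] at hi hj hk
  obtain ⟨b₀, hb₀⟩ : ∃ b, ((g : Matrix ι ι F) *ᵥ Pi.single b 1) i ≠ ((g : Matrix ι ι F) *ᵥ Pi.single b 1) j := by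
    by_contra hcon
    push Not at hcon
    have h1 : ∀ y : ι → F, ((g : Matrix ι ι F) *ᵥ y) i = ((g : Matrix ι ι F) *ᵥ y) j := by
      intro y
      rw [mulVec_eq_sum', Finset.sum_apply, Finset.sum_apply]
      exact Finset.sum_congr rfl fun b _ => by rw [Pi.smul_apply, Pi.smul_apply, hcon]
    have h2 := h1 (((g⁻¹ : GL ι F) : Matrix ι ι F) *ᵥ Pi.single i 1)
    rw [gl_mulVec_inv] at h2
    simp [hj.2] at h2
  obtain ⟨s₀, hs₀, γ, hfs, hfγ⟩ := oneexc hP hK hn hg hu hz (Ne.symm hj.2) (Ne.symm hk.2.1) (Ne.symm hk.2.2)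
    hi hj.1 hk.1 b₀ (fun h => hb₀ h.1)
  set f := (g : Matrix ι ι F) *ᵥ Pi.single b₀ 1 with hf
  set u := (g : Matrix ι ι F) *ᵥ Pi.single j₀ 1 with hud
  have hρ : f s₀ - γ ≠ 0 := sub_ne_zero.2 hfs
  let W : ι → (ι → F) := fun s => if s = o then u else fun q => if q = o then f o else if q = s then f s₀ else γ
  have hWo : W o = u := by simp [W]
  have hW : ∀ s, s ≠ o → W s = fun q => if q = o then f o else if q = s then f s₀ else γ := by
    intro s hs; simp [W, hs]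
  have hB : ∀ s, ∃ B : ι, ∃ μ : F, μ ≠ 0 ∧ W s = μ • ((g : Matrix ι ι F) *ᵥ Pi.single B 1) ∧ (s = o → B = j₀ ∧ μ = 1) := by
    intro s
    by_cases hs : s = o
    · refine ⟨j₀, 1, one_ne_zero, ?_, fun _ => ⟨rfl, rfl⟩⟩
      rw [hs, hWo, one_smul]
    · obtain ⟨σ, hσ, hσs, hσo⟩ : ∃ σ : Equiv.Perm ι, Equiv.Perm.sign σ = 1 ∧ σ s₀ = s ∧ σ o = o := by
        by_cases hss : s₀ = s
        · exact ⟨1, by simp, by simp [hss], rfl⟩
        · obtain ⟨q, hq⟩ := exists_notMem ({s₀, s, o} : Finset ι) (lt_of_le_of_lt Finset.card_le_three (by omega))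
          simp only [Finset.mem_insert, Finset.mem_singleton, not_or] at hq
          exact ⟨cyc s₀ s q, cyc_sign hss (Ne.symm hq.2.1), cyc_i hss (Ne.symm hq.1),
            cyc_m (Ne.symm hs₀) (Ne.symm hs) (Ne.symm hq.2.2)⟩
      obtain ⟨B, c, hBc⟩ := frame_mon hK hg hu (hP σ hσ) hσo b₀
      refine ⟨B, c, Mon.c_ne hBc, ?_, fun h => absurd h hs⟩
      rw [← Matrix.mulVec_smul, ← hBc, gl_mul_mulVec, gl_mul_mulVec, gl_mulVec_inv, ← hf, pm_mulVec, hW s hs]
      ext q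
      change _ = f (σ.symm q)
      by_cases hqo : q = o
      · subst hqo
        rw [(Equiv.symm_apply_eq _).2 hσo.symm]; simp
      · by_cases hqs : q = s
        · subst hqs
          rw [(Equiv.symm_apply_eq _).2 hσs.symm]; simp [hqo]
        · have e1 : σ.symm q ≠ s₀ := by
            intro h; apply hqs; rw [← hσs, ← h, Equiv.apply_symm_apply]
          have e2 : σ.symm q ≠ o := by
            intro h; apply hqo; rw [← hσo, ← h, Equiv.apply_symm_apply]
          rw [hfγ _ e1 e2]; simp [hqo, hqs]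
  choose B μ hμ hWB hBo using hB
  have hWinj : ∀ s s' : ι, s ≠ s' → ∀ c : F, W s ≠ c • W s' := by
    have main : ∀ s s' : ι, s ≠ s' → s ≠ o → ∀ c : F, W s ≠ c • W s' := by
      intro s s' hss hso c h
      obtain ⟨q, hq⟩ := exists_notMem ({s, s', o} : Finset ι) (lt_of_le_of_lt Finset.card_le_three (by omega))
      simp only [Finset.mem_insert, Finset.mem_singleton, not_or] at hq
      have e1 := congrFun h q
      have e2 := congrFun h s
      rw [hW s hso] at e1 e2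
      by_cases hs'o : s' = o
      · rw [hs'o, hWo] at e1 e2
        simp only [hq.2.2, hq.1, if_false, Pi.smul_apply, hso, if_true] at e1 e2
        rw [hu q hq.2.2] at e1
        rw [hu s hso] at e2
        exact hfs (e2.trans e1.symm)
      · rw [hW s' hs'o] at e1 e2
        simp only [hq.2.2, hq.1, hq.2.1, if_false, Pi.smul_apply, hso, if_true, hss] at e1 e2
        exact hfs (e2.trans e1.symm)
    intro s s' hss c h
    by_cases hso : s = o
    · have hc : c ≠ 0 := by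
        rintro rfl
        rw [zero_smul, hso, hWo] at h
        exact mulVec_single_ne g j₀ h
      refine main s' s (Ne.symm hss) (by rw [← hso]; exact Ne.symm hss) c⁻¹ ?_
      rw [h, smul_smul, inv_mul_cancel₀ hc, one_smul]
    · exact main s s' hss hso c h
  have hBinj : Function.Injective B := by
    intro s s' h
    by_contra hne
    apply hWinj s s' hne (μ s * (μ s')⁻¹)
    rw [hWB s, hWB s', h, smul_smul, mul_assoc, inv_mul_cancel₀ (hμ s'), mul_one]
  let eB : ι ≃ ι := Equiv.ofBijective B ⟨hBinj, Finite.surjective_of_injective hBinj⟩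
  -- coordinates of `e_o`
  let y : ι → F := ((g⁻¹ : GL ι F) : Matrix ι ι F) *ᵥ Pi.single o 1
  let X : ι → F := fun s => y (B s) * (μ s)⁻¹
  have hX : (Pi.single o 1 : ι → F) = ∑ s, X s • W s := by
    have e1 : (Pi.single o 1 : ι → F) = (g : Matrix ι ι F) *ᵥ y := by
      simp only [y]; rw [gl_mulVec_inv]
    rw [e1, mulVec_eq_sum', ← Equiv.sum_comp eB]
    refine Finset.sum_congr rfl fun s _ => ?_
    change y (B s) • ((g : Matrix ι ι F) *ᵥ Pi.single (B s) 1) = X s • W s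
    rw [hWB s, smul_smul]
    simp only [X]
    rw [mul_assoc, inv_mul_cancel₀ (hμ s), mul_one]
  -- coordinates of combinations of the W s
  have hcoord : ∀ (Z : ι → F) (l : ι), l ≠ o → (∑ s, Z s • W s) l =
      Z o + γ * ∑ s ∈ Finset.univ.erase o, Z s + (f s₀ - γ) * Z l := by
    intro Z l hl
    rw [Finset.sum_apply, ← Finset.add_sum_erase _ _ (Finset.mem_univ o)]
    have e1 : (Z o • W o) l = Z o := by
      rw [hWo, Pi.smul_apply, hu l hl, smul_eq_mul, mul_one]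
    have e2 : ∀ s ∈ Finset.univ.erase o, (Z s • W s) l = γ * Z s + (if s = l then (f s₀ - γ) * Z s else 0) := by
      intro s hs
      have hso := Finset.ne_of_mem_erase hs
      rw [hW s hso, Pi.smul_apply, smul_eq_mul]
      by_cases hsl : s = l
      · subst hsl; simp [hl]; ring
      · simp [hl, hsl, Ne.symm hsl]; ring
    rw [e1, Finset.sum_congr rfl e2, Finset.sum_add_distrib, ← Finset.mul_sum, Finset.sum_ite_eq' ,
      if_pos (Finset.mem_erase.2 ⟨hl, Finset.mem_univ l⟩)]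
    ring
  obtain ⟨l₀, hl₀⟩ := exists_notMem ({o} : Finset ι) (by rw [Finset.card_singleton]; omega)
  simp only [Finset.mem_singleton] at hl₀
  have hzero : ∀ l, l ≠ o → X o + γ * ∑ s ∈ Finset.univ.erase o, X s + (f s₀ - γ) * X l = 0 := by
    intro l hl
    rw [← hcoord X l hl, ← hX, Pi.single_eq_of_ne hl]
  have hXc : ∀ l, l ≠ o → X l = X l₀ := by
    intro l hl
    have e1 := hzero l hl
    have e2 := hzero l₀ hl₀
    have : (f s₀ - γ) * (X l - X l₀) = 0 := by linear_combination e1 - e2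
    exact sub_eq_zero.1 ((mul_eq_zero.1 this).resolve_left hρ)
  have hX0 : X l₀ ≠ 0 := by
    intro h0
    have hall : ∀ l, l ≠ o → X l = 0 := fun l hl => (hXc l hl).trans h0
    have hs : ∑ s ∈ Finset.univ.erase o, X s = 0 :=
      Finset.sum_eq_zero fun s hs => hall s (Finset.ne_of_mem_erase hs)
    have hXo : X o = 0 := by
      have := hzero l₀ hl₀
      rw [hs, h0] at this
      linear_combination this
    have : (Pi.single o 1 : ι → F) = 0 := by
      rw [hX]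
      refine Finset.sum_eq_zero fun s _ => ?_
      by_cases hso : s = o
      · rw [hso, hXo, zero_smul]
      · rw [hall s hso, zero_smul]
    exact single_ne o this
  refine ⟨γ, f s₀ - γ, X l₀, hρ, hX0, ?_⟩
  intro a hao haprod
  let d : ι → Fˣ := fun b => a (eB.symm b)
  have hd : ∏ b, d b = 1 := by
    rw [← haprod]
    exact Equiv.prod_comp eB.symm a
  refine ⟨g * dg d * g⁻¹, M.mul_mem (M.mul_mem hg (hD d hd)) (M.inv_mem hg), ?_⟩
  have hxW : ∀ s, ((g * dg d * g⁻¹ : GL ι F) : Matrix ι ι F) *ᵥ W s = (a s : F) • W s := by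
    intro s
    rw [hWB s, Matrix.mulVec_smul, gl_mul_mulVec, gl_inv_mulVec, gl_mul_mulVec, smul_comm]
    congr 1
    rw [← Matrix.mulVec_smul]
    congr 1
    rw [dg_mulVec]
    ext q
    by_cases hq : q = B s
    · subst hq
      have : eB.symm (B s) = s := (Equiv.symm_apply_eq _).2 rfl
      simp [d, this]
    · simp [hq]
  intro l hl
  have h1 : ((g * dg d * g⁻¹ : GL ι F) : Matrix ι ι F) *ᵥ Pi.single o 1 = ∑ s, (X s * a s) • W s := by
    rw [hX, Matrix.mulVec_sum]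
    refine Finset.sum_congr rfl fun s _ => ?_
    rw [Matrix.mulVec_smul, hxW, smul_smul]
  rw [h1, hcoord _ l hl]
  have h2 : ∑ s ∈ Finset.univ.erase o, X s * (a s : F) = X l₀ * ∑ s ∈ Finset.univ.erase o, (a s : F) := by
    rw [Finset.mul_sum]
    exact Finset.sum_congr rfl fun s hs => by rw [hXc s (Finset.ne_of_mem_erase hs)]
  have h3 : ∑ s ∈ Finset.univ.erase o, X s = X l₀ * ∑ s ∈ Finset.univ.erase o, (1 : F) := by
    rw [Finset.mul_sum]
    exact Finset.sum_congr rfl fun s hs => by rw [hXc s (Finset.ne_of_mem_erase hs), mul_one]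
  have h4 : ∑ s, ((a s : F) - 1) = ∑ s ∈ Finset.univ.erase o, (a s : F) - ∑ s ∈ Finset.univ.erase o, (1 : F) := by
    rw [← Finset.add_sum_erase _ _ (Finset.mem_univ o), hao, ← Finset.sum_sub_distrib]
    simp
  have h5 := hzero l hl
  rw [h3, hXc l hl] at h5
  rw [h2, h4, hao, hXc l hl, Units.val_one]
  linear_combination h5

end frame

end partA

end Cfsg.Agent.SmallDim.Mono
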