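import Cfsg.Agent.H98.SpM

set_option autoImplicit false
set_option linter.unusedSectionVars false
set_option linter.style.haveILetI false
set_option linter.unusedSimpArgs false

/-!
The extension field subgroup `SL₂(8).3` of `Sp₆(2)`.
-/

namespace Cfsg.Agent.SmallDim.SpExt8

open Module Cfsg.Agent.H98.Ext Cfsg.Agent.H98.Sp
open Cfsg.Agent.H98.Or (fin_F fin_dim tr_nd tr_ext mu)

section field8

variable {K : Type*} [Field K]

/-- trace polynomial -/
def T (x : K) : K := x + x ^ 2 + x ^ 4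

lemma T_add (h2 : (2 : K) = 0) (x y : K) : T (x + y) = T x + T y := by
  unfold T
  linear_combination (x * y + 2 * x ^ 3 * y + 3 * x ^ 2 * y ^ 2 + 2 * x * y ^ 3) * h2

lemma T_cases (h2 : (2 : K) = 0) (h8 : ∀ x : K, x ^ 8 = x) (x : K) : T x = 0 ∨ T x = 1 := by
  have h : T x * (T x - 1) = 0 := by
    unfold T
    linear_combination h8 x + (x ^ 3 + x ^ 5 + x ^ 6) * h2
  rcases mul_eq_zero.1 h with h1 | h1
  · exact Or.inl h1
  · exact Or.inr (sub_eq_zero.1 h1)

lemma T_zero : T (0 : K) = 0 := by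
  unfold T; ring

lemma T_one (h2 : (2 : K) = 0) : T (1 : K) = 1 := by
  unfold T; linear_combination h2

lemma T_sq (h8 : ∀ x : K, x ^ 8 = x) (x : K) : T (x ^ 2) = T x := by
  unfold T; linear_combination h8 x

lemma cube_of_T {c : K} (h2 : (2 : K) = 0) (hc : T c = 0) (hc0 : c ≠ 0) : c ^ 3 = c + 1 := by
  unfold T at hc
  have h : c * (c ^ 3 - (c + 1)) = 0 := by linear_combination hc - (c + c ^ 2) * h2
  exact sub_eq_zero.1 ((mul_eq_zero.1 h).resolve_left hc0)

/-- elements of trace zero -/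
lemma T_zero_cases {c β : K} (h2 : (2 : K) = 0) (hc : T c = 0) (hc0 : c ≠ 0) (hβ : T β = 0) :
    β = 0 ∨ β = c ∨ β = c ^ 2 ∨ β = c + c ^ 2 := by
  have h3 := cube_of_T h2 hc hc0
  unfold T at hβ
  have h : β * ((β - c) * ((β - c ^ 2) * (β - (c + c ^ 2)))) = 0 := by
    linear_combination hβ + (β ^ 2 * (3 + c) - β * (c + c ^ 2 + 1)) * h3 +
      (-(c + c ^ 2) * β ^ 3 + β ^ 2 * (c ^ 2 + 2 * c + 1) - β * (c ^ 2 + c + 1)) * h2
  rcases mul_eq_zero.1 h with h1 | h1
  · exact Or.inl h1
  rcases mul_eq_zero.1 h1 with h4 | h4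
  · exact Or.inr (Or.inl (sub_eq_zero.1 h4))
  rcases mul_eq_zero.1 h4 with h5 | h5
  · exact Or.inr (Or.inr (Or.inl (sub_eq_zero.1 h5)))
  · exact Or.inr (Or.inr (Or.inr (sub_eq_zero.1 h5)))

/-- the key identity: `c⁻¹ β = Tr(c β) c + s` with `s ∈ {0, 1}` for `β` of trace zero -/
lemma key_id {c β : K} (h2 : (2 : K) = 0) (h8 : ∀ x : K, x ^ 8 = x) (hc : T c = 0) (hc0 : c ≠ 0) (hβ : T β = 0) :
    ∃ s : K, (s = 0 ∨ s = 1) ∧ c⁻¹ * β = T (c * β) * c + s := by
  have h3 := cube_of_T h2 hc hc0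
  have e2 : T (c ^ 2) = 0 := by rw [T_sq h8, hc]
  have e3 : T (c ^ 3) = 1 := by rw [h3, T_add h2, hc, T_one h2, zero_add]
  rcases T_zero_cases h2 hc hc0 hβ with rfl | rfl | rfl | rfl
  · exact ⟨0, Or.inl rfl, by rw [mul_zero, mul_zero, T_zero]; ring⟩
  · refine ⟨1, Or.inr rfl, ?_⟩
    rw [inv_mul_cancel₀ hc0, ← pow_two, e2]; ring
  · refine ⟨0, Or.inl rfl, ?_⟩
    have : c * c ^ 2 = c ^ 3 := by ring
    rw [this, e3]; field_simp; ring
  · refine ⟨1, Or.inr rfl, ?_⟩
    have : c * (c + c ^ 2) = c ^ 2 + c ^ 3 := by ring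
    rw [this, T_add h2, e2, e3]; field_simp; ring

lemma exists_T_zero (h2 : (2 : K) = 0) (h8 : ∀ x : K, x ^ 8 = x) {d : K} (hd0 : d ≠ 0) (hd1 : d ≠ 1) :
    ∃ c : K, (c = d ∨ c = d + 1) ∧ T c = 0 ∧ c ≠ 0 ∧ c ≠ 1 := by
  rcases T_cases h2 h8 d with h | h
  · exact ⟨d, Or.inl rfl, h, hd0, hd1⟩
  · refine ⟨d + 1, Or.inr rfl, by rw [T_add h2, h, T_one h2]; linear_combination h2, ?_, ?_⟩
    · intro h0
      apply hd1
      linear_combination h0 - h2
    · intro h0
      apply hd0
      linear_combination h0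

end field8

section ext

variable {F K V : Type*} [Field F] [Field K] [Algebra F K] [AddCommGroup V] [Module F V] [Module K V]
  [IsScalarTower F K V] {B : Sy K V} {H : Subgroup (V ≃ₗ[F] V)} [Finite K]

section fld
variable (F K) in
/-- `F` has two elements, `K` has eight -/
structure Fld : Prop where
  card : Nat.card F = 2
  fr : finrank F K = 3

lemma Fld.F01 (h : Fld F K) (a : F) : a = 0 ∨ a = 1 := by
  have := fin_F F K
  have hfF := Fintype.ofFinite F
  have h1 := FiniteField.pow_card a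
  rw [← Nat.card_eq_fintype_card, h.card] at h1
  have h2 : a * (a - 1) = 0 := by linear_combination h1
  rcases mul_eq_zero.1 h2 with h3 | h3
  · exact Or.inl h3
  · exact Or.inr (sub_eq_zero.1 h3)

lemma Fld.twoF (h : Fld F K) : (2 : F) = 0 := by
  rcases h.F01 2 with h1 | h1
  · exact h1
  · exfalso
    have : (1 : F) = 0 := by linear_combination h1
    exact one_ne_zero this

lemma Fld.two (h : Fld F K) : (2 : K) = 0 := by
  have := congrArg (algebraMap F K) h.twoF
  rwa [map_ofNat, map_zero] at this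

lemma Fld.h8 (h : Fld F K) (x : K) : x ^ 8 = x := by
  have := fin_dim F K
  have hfK := Fintype.ofFinite K
  have h1 := FiniteField.pow_card x
  have h2 := Module.natCard_eq_pow_finrank (K := F) (V := K)
  rw [h.card, h.fr, Nat.card_eq_fintype_card] at h2
  rw [h2] at h1
  exact h1

lemma Fld.tr (h : Fld F K) (x : K) : algebraMap F K (Algebra.trace F K x) = T x := by
  rw [FiniteField.algebraMap_trace_eq_sum_pow, h.card, h.fr]
  unfold T
  simp [Finset.sum_range_succ]

lemma Fld.not_range (h : Fld F K) {c : K} : c ∉ Set.range (algebraMap F K) ↔ c ≠ 0 ∧ c ≠ 1 := by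
  constructor
  · intro hc
    refine ⟨?_, ?_⟩
    · rintro rfl; exact hc ⟨0, map_zero _⟩
    · rintro rfl; exact hc ⟨1, map_one _⟩
  · rintro ⟨h0, h1⟩ ⟨a, rfl⟩
    rcases h.F01 a with rfl | rfl
    · exact h0 (map_zero _)
    · exact h1 (map_one _)

lemma Fld.exists_c (h : Fld F K) : ∃ c : K, T c = 0 ∧ c ≠ 0 ∧ c ≠ 1 := by
  have := fin_dim F K
  obtain ⟨d, hd⟩ := exists_notF (F := F) (K := K) (by rw [h.fr]; exact Nat.prime_three)
  rw [h.not_range] at hd
  obtain ⟨c, -, hc⟩ := exists_T_zero h.two h.h8 hd.1 hd.2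
  exact ⟨c, hc⟩

lemma Fld.T_alg (h : Fld F K) (x : K) : ∃ t : F, algebraMap F K t = T x ∧ t = Algebra.trace F K x :=
  ⟨_, h.tr x, rfl⟩

/-- linearised polynomials -/
lemma Fld.poly (h : Fld F K) (S : K →ₗ[F] K) : ∃ a b c : K, ∀ x, S x = a * x + b * x ^ 2 + c * x ^ 4 := by
  classical
  have := fin_dim F K
  have := fin_F F K
  have hfF := Fintype.ofFinite F
  obtain ⟨a, ha⟩ := exists_coef S
  have hτ : ∀ τ : K ≃ₐ[F] K, (∀ x, τ x = x) ∨ (∀ x, τ x = x ^ 2) ∨ (∀ x, τ x = x ^ 4) := by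
    intro τ
    obtain ⟨⟨n, hn⟩, hnτ⟩ := (FiniteField.bijective_frobeniusAlgEquivOfAlgebraic_pow F K).2 τ
    have h1 : ∀ x, τ x = x ^ (2 ^ n) := by
      intro x
      rw [← hnτ]
      change (FiniteField.frobeniusAlgEquivOfAlgebraic F K ^ n) x = _
      rw [AlgEquiv.coe_pow, FiniteField.coe_frobeniusAlgEquivOfAlgebraic_iterate, ← Nat.card_eq_fintype_card, h.card]
    rw [h.fr] at hn
    interval_cases n
    · left; intro x; rw [h1]; simp
    · right; left; intro x; rw [h1]; simp
    · right; right; intro x; rw [h1]; norm_num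
  have key : ∀ s : Finset (K ≃ₐ[F] K), ∃ a' b c : K, ∀ x, ∑ τ ∈ s, a τ * τ x = a' * x + b * x ^ 2 + c * x ^ 4 := by
    intro s
    induction s using Finset.induction_on with
    | empty => exact ⟨0, 0, 0, fun x => by simp⟩
    | insert τ s hτs ih =>
      obtain ⟨a', b, c, hs⟩ := ih
      rcases hτ τ with h1 | h1 | h1
      · exact ⟨a' + a τ, b, c, fun x => by rw [Finset.sum_insert hτs, hs, h1]; ring⟩
      · exact ⟨a', b + a τ, c, fun x => by rw [Finset.sum_insert hτs, hs, h1]; ring⟩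
      · exact ⟨a', b, c + a τ, fun x => by rw [Finset.sum_insert hτs, hs, h1]; ring⟩
  obtain ⟨a', b, c, hs⟩ := key Finset.univ
  exact ⟨a', b, c, fun x => by rw [ha, hs]⟩

end fld

lemma ZS_cases (hf : Fld F K) [Nontrivial V] (hy : HypS B H) :
    (∀ c, S1 K c ∈ ZS B H) ∨ ∀ S ∈ ZS B H, ∀ k, S k = S 1 * k := by
  have := fin_dim F K
  by_cases hall : ∀ S ∈ ZS B H, ∀ k, S k = S 1 * k
  · exact Or.inr hall
  left
  push Not at hall
  obtain ⟨S, hS, k₀, hk₀⟩ := hall
  obtain ⟨a, b, c, hp⟩ := hf.poly S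
  have h2 := hf.two
  have h8 := hf.h8
  have hsm := Sm_of_ZS hy hS
  have hTalg : ∀ x y : K, Algebra.trace F K x = Algebra.trace F K y → T x = T y := by
    intro x y hxy
    rw [← hf.tr, ← hf.tr, hxy]
  -- symmetry
  have hcb : c = b ^ 4 := by
    have h1 : ∀ k l : K, T (k * (c * l ^ 4) + k * (b * l ^ 2)) = T (l * (c * k ^ 4) + l * (b * k ^ 2)) := by
      intro k l
      have h3 := hTalg _ _ (hsm k l)
      rw [hp, hp] at h3
      have e1 : k * (a * l + b * l ^ 2 + c * l ^ 4) = (k * (c * l ^ 4) + k * (b * l ^ 2)) + k * (a * l) := by ring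
      have e2 : l * (a * k + b * k ^ 2 + c * k ^ 4) = (l * (c * k ^ 4) + l * (b * k ^ 2)) + k * (a * l) := by ring
      rw [e1, e2, T_add h2 _ (k * (a * l)), T_add h2 (l * (c * k ^ 4) + l * (b * k ^ 2)) (k * (a * l))] at h3
      exact add_right_cancel h3
    -- transpose
    have h3 : ∀ k l : K, T (l * (c ^ 2 * k ^ 2 + b ^ 4 * k ^ 4 - (c * k ^ 4 + b * k ^ 2))) = 0 := by
      intro k l
      have e1 : T (k * (c * l ^ 4)) = T (l * (c ^ 2 * k ^ 2)) := by
        rw [← T_sq h8 (k * (c * l ^ 4))]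
        congr 1
        linear_combination (c ^ 2 * k ^ 2) * h8 l
      have e2 : T (k * (b * l ^ 2)) = T (l * (b ^ 4 * k ^ 4)) := by
        rw [← T_sq h8 (k * (b * l ^ 2)), ← T_sq h8 ((k * (b * l ^ 2)) ^ 2)]
        congr 1
        linear_combination (b ^ 4 * k ^ 4) * h8 l
      have h4 := h1 k l
      rw [T_add h2, e1, e2] at h4
      have e3 : l * (c ^ 2 * k ^ 2 + b ^ 4 * k ^ 4 - (c * k ^ 4 + b * k ^ 2)) =
          (l * (c ^ 2 * k ^ 2) + l * (b ^ 4 * k ^ 4)) + (l * (c * k ^ 4) + l * (b * k ^ 2)) := by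
        linear_combination (-(l * (c * k ^ 4 + b * k ^ 2))) * h2
      rw [e3, T_add h2, T_add h2 (l * (c ^ 2 * k ^ 2)), h4]
      linear_combination (T (l * (c * k ^ 4) + l * (b * k ^ 2))) * h2
    have h4 : ∀ k : K, c ^ 2 * k ^ 2 + b ^ 4 * k ^ 4 - (c * k ^ 4 + b * k ^ 2) = 0 := by
      intro k
      apply tr_nd F
      intro l
      have h5 := h3 k l
      rw [← hf.tr, mul_comm] at h5
      exact (map_eq_zero _).1 h5
    obtain ⟨d, -, hd0, hd1⟩ := hf.exists_c
    have h5 := h4 1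
    have h6 := h4 d
    have h7 : (b ^ 4 - c) * (d ^ 2 * (d - 1) ^ 2) = 0 := by
      linear_combination h6 - d ^ 2 * h5 + (b ^ 4 - c) * (d ^ 2 - d ^ 3) * h2
    have h9 : d ^ 2 * (d - 1) ^ 2 ≠ 0 := mul_ne_zero (pow_ne_zero _ hd0) (pow_ne_zero _ (sub_ne_zero.2 hd1))
    exact (sub_eq_zero.1 ((mul_eq_zero.1 h7).resolve_right h9)).symm
  have hb0 : b ≠ 0 := by
    rintro rfl
    apply hk₀
    rw [hp, hp, hcb]; ring
  have hb7 : b ^ 7 = 1 := by
    have : b * (b ^ 7 - 1) = 0 := by linear_combination h8 b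
    exact sub_eq_zero.1 ((mul_eq_zero.1 this).resolve_left hb0)
  have h1 : S1 K (1 : F) ∈ ZS B H := by
    have h3 := (ZS B H).add_mem (smul_ZS (b ^ 2) hS) (hy.mu_mem (1 - a * b ^ 4))
    convert h3 using 1
    apply LinearMap.ext
    intro x
    rw [S1_apply, one_mul, ← Algebra.algebraMap_eq_smul_one, hf.tr, LinearMap.add_apply, LinearMap.comp_apply,
      LinearMap.comp_apply, LinearMap.mulLeft_apply, LinearMap.mulLeft_apply, LinearMap.mulLeft_apply, hp, hcb]
    unfold T
    linear_combination (-x ^ 2 - x ^ 4 * (b ^ 7 + 1)) * hb7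
  intro c'
  rcases hf.F01 c' with rfl | rfl
  · have : S1 K (0 : F) = 0 := by
      apply LinearMap.ext
      intro x
      rw [S1_apply]; simp
    rw [this]; exact (ZS B H).zero_mem
  · exact h1

/-- the formula for an element of the unipotent radical of the stabiliser of `e` -/
def Rf (B : Sy K V) (e : V) (D : V ≃ₗ[F] V) (u : V) (s : F) : Prop :=
  ∀ x, D x = x + tf F B x u • e + tf F B x e • u + (s * tf F B x e) • e

lemma Rf_conj {e : V} {D : V ≃ₗ[F] V} {u : V} {s : F} (h : Rf B e D u s) {n : V ≃ₗ[F] V} (hn : n ∈ iso F B)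
    (hne : n e = e) : Rf B e (n * D * n⁻¹) (n u) s := by
  intro x
  have h1 : tf F B (n⁻¹ x) u = tf F B x (n u) := by
    have := (mem_iso.1 hn) (n⁻¹ x) u
    rw [app_inv] at this
    exact this.symm
  have h2 : tf F B (n⁻¹ x) e = tf F B x e := by
    have := (mem_iso.1 hn) (n⁻¹ x) e
    rw [app_inv, hne] at this
    exact this.symm
  rw [LinearEquiv.mul_apply, LinearEquiv.mul_apply, h (n⁻¹ x), h1, h2]
  simp only [map_add, map_smul, app_inv, hne]

lemma Rf_mul {e : V} {D D' : V ≃ₗ[F] V} {u u' : V} {s s' : F} (h : Rf B e D u s) (h' : Rf B e D' u' s')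
    (hu : tf F B u e = 0) (hu' : tf F B u' e = 0) : Rf B e (D * D') (u + u') (s + s' + tf F B u' u) := by
  intro x
  have heu : tf F B e u = 0 := by rw [tf_skew, hu, neg_zero]
  rw [LinearEquiv.mul_apply, h (D' x)]
  have h1 : tf F B (D' x) e = tf F B x e := by
    rw [h' x]
    simp only [tf_add_left, tf_smul_left, tf_self, hu', mul_zero, add_zero]
  have h2 : tf F B (D' x) u = tf F B x u + tf F B x e * tf F B u' u := by
    rw [h' x]
    simp only [tf_add_left, tf_smul_left, heu, mul_zero, add_zero]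
  rw [h1, h2, h' x, tf_add_right]
  module

lemma exists_Rf {e : V} (he : e ≠ 0) {D : V ≃ₗ[F] V} (hD : D ∈ iso F B) (hDe : D e = e)
    (hx : ∀ x, tf F B x e = 0 → ∃ t : F, D x = x + t • e) : ∃ u s, tf F B u e = 0 ∧ Rf B e D u s := by
  obtain ⟨y, hy⟩ : ∃ y, tf F B y e = 1 := by
    have : ∃ w, tf F B e w ≠ 0 := by
      by_contra hcon
      push Not at hcon
      exact he (tf_nd hcon)
    obtain ⟨w, hw⟩ := this
    have hw' : tf F B w e ≠ 0 := by rw [tf_skew]; exact neg_ne_zero.2 hw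
    exact ⟨(tf F B w e)⁻¹ • w, by rw [tf_smul_left, inv_mul_cancel₀ hw']⟩
  obtain ⟨u, hu⟩ : ∃ u, D y = y + u := ⟨D y - y, by abel⟩
  have hue : tf F B u e = 0 := by
    have h1 := (mem_iso.1 hD) y e
    rw [hDe, hu, tf_add_left] at h1
    exact add_eq_left.1 h1
  have heu : tf F B e u = 0 := by rw [tf_skew, hue, neg_zero]
  have hperp : ∀ x, tf F B x e = 0 → D x = x + tf F B x u • e := by
    intro x hxe
    obtain ⟨t, ht⟩ := hx x hxe
    have h1 := (mem_iso.1 hD) x y
    rw [ht, hu, tf_add_left, tf_add_right, tf_smul_left, tf_add_right, tf_skew e y, hy, heu] at h1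
    have h2 : t = tf F B x u := by linear_combination -h1
    rw [ht, h2]
  refine ⟨u, -(tf F B y u), hue, fun x => ?_⟩
  have h1 : tf F B (x - tf F B x e • y) e = 0 := by
    rw [sub_eq_add_neg, ← neg_smul, tf_add_left, tf_smul_left, hy]; ring
  have h2 := hperp _ h1
  have h3 : x = (x - tf F B x e • y) + tf F B x e • y := by abel
  have h4 : tf F B (x - tf F B x e • y) u = tf F B x u - tf F B x e * tf F B y u := by
    rw [sub_eq_add_neg, ← neg_smul, tf_add_left, tf_smul_left]; ring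
  conv_lhs => rw [h3]
  rw [map_add, map_smul, h2, hu, h4]
  module

section step
variable (hf : Fld F K) (hy : HypS B H) (hZ : ∀ S ∈ ZS B H, ∀ k, S k = S 1 * k)
include hf hy hZ

/-- case A, first part -/
lemma step1 {e : V} (he : e ≠ 0) {D : V ≃ₗ[F] V} (hD : D ∈ H) {a : K} {s : F} (h : Rf B e D (a • e) s) :
    D = 1 ∧ (a = 0 ∨ a = 1) := by
  have := fin_dim F K
  have h2 := hf.two
  have h8 := hf.h8
  let S : K →ₗ[F] K :=
    { toFun := fun k => algebraMap F K (Algebra.trace F K (a * k)) + algebraMap F K (Algebra.trace F K k) * a +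
        algebraMap F K (s * Algebra.trace F K k)
      map_add' := by intro k l; simp only [mul_add, map_add, add_mul]; ring
      map_smul' := by
        intro c k
        simp only [mul_smul_comm, map_smul, smul_eq_mul, RingHom.map_mul, RingHom.id_apply]
        rw [Algebra.smul_def]
        ring }
  have hS : ∀ k, S k = T (a * k) + T k * a + algebraMap F K s * T k := by
    intro k
    change algebraMap F K (Algebra.trace F K (a * k)) + algebraMap F K (Algebra.trace F K k) * a +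
        algebraMap F K (s * Algebra.trace F K k) = _
    rw [(algebraMap F K).map_mul, hf.tr, hf.tr]
  have hDS : D = LL B e S := by
    apply LinearEquiv.ext
    intro x
    rw [h x, LL_apply]
    change _ = x + (algebraMap F K (Algebra.trace F K (a * B.b x e)) + algebraMap F K (Algebra.trace F K (B.b x e)) * a +
        algebraMap F K (s * Algebra.trace F K (B.b x e))) • e
    unfold tf
    have e1 : ∀ t : F, (algebraMap F K t * a) • e = t • a • e := fun t => by rw [mul_smul, algebraMap_smul]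
    rw [map_smul, smul_eq_mul, add_smul, add_smul, algebraMap_smul, algebraMap_smul, e1]
    abel
  rw [hDS] at hD
  have hSZ := hZ S (hy.mem_ZS he hD)
  obtain ⟨c, hc, hc0, hc1⟩ := hf.exists_c
  -- `S 1 = 0`
  have hS1 : S 1 = 0 := by
    by_contra hne
    have h3 : ∀ k, T k = 0 → k ≠ 0 → S 1 * k = 1 := by
      intro k hk hk0
      have h4 := hSZ k
      rw [hS, hk] at h4
      rcases T_cases h2 h8 (a * k) with h5 | h5
      · rw [h5] at h4
        exfalso
        exact mul_ne_zero hne hk0 (by rw [← h4]; ring)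
      · rw [← h4, h5]; ring
    have h4 := h3 c hc hc0
    have h5 := h3 (c ^ 2) (by rw [T_sq h8, hc]) (pow_ne_zero _ hc0)
    apply hc1
    have h6 : S 1 * c * (c - 1) = 0 := by linear_combination h5 - h4
    rcases mul_eq_zero.1 h6 with h7 | h7
    · exact absurd h7 (mul_ne_zero hne hc0)
    · exact sub_eq_zero.1 h7
  have hS0 : S = 0 := by
    apply LinearMap.ext
    intro k
    rw [hSZ, hS1, zero_mul, LinearMap.zero_apply]
  constructor
  · rw [hDS, hS0, LL_zero]
  · have h3 := hS 1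
    rw [hS1, T_one h2, mul_one, one_mul, mul_one] at h3
    have h4 : a = -(T a + algebraMap F K s) := by linear_combination -h3
    rcases T_cases h2 h8 a with h5 | h5
    · rcases hf.F01 s with rfl | rfl
      · left; rw [h4, h5, map_zero]; ring
      · right; rw [h4, h5, map_one]; linear_combination -h2
    · rcases hf.F01 s with rfl | rfl
      · right; rw [h4, h5, map_zero]; linear_combination -h2
      · left; rw [h4, h5, map_one]; linear_combination -h2

/-- case A -/
lemma step2 [Finite V] (hd : finrank K V = 2) {e : V} (he : e ≠ 0) {D : V ≃ₗ[F] V} (hD : D ∈ H) {u : V} {s : F}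
    (hu : tf F B u e = 0) (h : Rf B e D u s) : D = 1 := by
  have h2 := hf.two
  by_cases hb : B.b u e = 0
  · have hb' : B.b e u = 0 := by rw [skew, hb, neg_zero]
    obtain ⟨a, rfl⟩ := perp_line (B := B) hd he hb'
    exact (step1 hf hy hZ he hD h).1
  · exfalso
    obtain ⟨c, hc, hc0, hc1⟩ := hf.exists_c
    let t : V ≃ₗ[F] V := LL B e (mu F (c / B.b u e))
    have htH : t ∈ H := hy.mu_mem _ e
    have hte : t e = e := by
      change LL B e (mu F (c / B.b u e)) e = e
      rw [LL_apply, B.alt, map_zero, zero_smul, add_zero]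
    have htu : t u = u + c • e := by
      change LL B e (mu F (c / B.b u e)) u = _
      rw [LL_apply, LinearMap.mulLeft_apply, div_mul_cancel₀ _ hb]
    have h3 := Rf_conj h (hy.le htH) hte
    have htu0 : tf F B (t u) e = 0 := by
      have := (mem_iso.1 (hy.le htH)) u e
      rw [hte, hu] at this
      exact this
    have h4 := Rf_mul h3 h htu0 hu
    have e1 : t u + u = c • e := by
      rw [htu]
      have : u + c • e + u = (2 : K) • u + c • e := by module
      rw [this, h2, zero_smul, zero_add]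
    rw [e1] at h4
    have h5 := (step1 hf hy hZ he (H.mul_mem (H.mul_mem (H.mul_mem htH hD) (H.inv_mem htH)) hD) h4).2
    rcases h5 with h5 | h5
    · exact hc0 h5
    · exact hc1 h5

/-- the action of a `K`-transvection on `e^⊥` -/
lemma mform {e : V} {c : K} (hc : T c = 0) (hc0 : c ≠ 0) {x : V} (hx : tf F B x e = 0) :
    ∃ s : F, LL B e (mu F c⁻¹) x = x + tf F B x (c • e) • c • e + s • e := by
  have := fin_dim F K
  have hβ : T (B.b x e) = 0 := by
    rw [← hf.tr]
    change algebraMap F K (tf F B x e) = 0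
    rw [hx, map_zero]
  obtain ⟨s, hs, hk⟩ := key_id hf.two hf.h8 hc hc0 hβ
  have h1 : algebraMap F K (tf F B x (c • e)) = T (c * B.b x e) := by
    unfold tf
    rw [hf.tr, map_smul, smul_eq_mul]
  have h2 : ∀ s' : F, algebraMap F K s' = s → LL B e (mu F c⁻¹) x = x + tf F B x (c • e) • c • e + s' • e := by
    intro s' hs'
    rw [LL_apply, LinearMap.mulLeft_apply, hk, ← h1, ← hs', add_smul, mul_smul, algebraMap_smul, algebraMap_smul,
      add_assoc]
  rcases hs with rfl | rfl
  · exact ⟨0, h2 0 (map_zero _)⟩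
  · exact ⟨1, h2 1 (map_one _)⟩

omit hy hZ in
lemma m_inv {e : V} (k : K) : (LL B e (mu F k))⁻¹ = LL B e (mu F k) := by
  rw [← LL_neg]
  congr 1
  apply LinearMap.ext
  intro x
  rw [LinearMap.neg_apply, LinearMap.mulLeft_apply]
  linear_combination (-(k * x)) * hf.two

/-- an element fixing `e` and a point of `K e / F e` preserves `K e` -/
lemma star [Finite V] (hd : finrank K V = 2) {e : V} (he : e ≠ 0) {n : V ≃ₗ[F] V} (hn : n ∈ H) (hne : n e = e)
    {c : K} (hc0 : c ≠ 0) (hc1 : c ≠ 1) {t : F} (hnc : n (c • e) = c • e + t • e) (l : K) :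
    ∃ l' : K, n (l • e) = l' • e := by
  have h2 := hf.two
  have h2F := hf.twoF
  -- we may assume that the trace of `c` is zero
  obtain ⟨c', hcc, hc, hc0', hc1'⟩ := exists_T_zero h2 hf.h8 hc0 hc1
  have hnc' : n (c' • e) = c' • e + t • e := by
    rcases hcc with rfl | rfl
    · exact hnc
    · rw [add_smul, one_smul, map_add, hnc, hne]; abel
  clear hnc hcc hc0 hc1
  obtain ⟨m, hm⟩ : ∃ m : V ≃ₗ[F] V, m = LL B e (mu F c'⁻¹) := ⟨_, rfl⟩
  have hmH : m ∈ H := by rw [hm]; exact hy.mu_mem _ e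
  have hme : m e = e := by
    rw [hm, LL_apply, B.alt, map_zero, zero_smul, add_zero]
  have hmi : m⁻¹ = m := by rw [hm]; exact m_inv hf c'⁻¹
  have hni : n⁻¹ e = e := by
    conv_lhs => rw [← hne]
    exact inv_app n e
  have hfe : ∀ a : K, tf F B (a • e) e = 0 := by
    intro a
    unfold tf
    rw [map_smul, LinearMap.smul_apply, B.alt, smul_zero, map_zero]
  have hfe' : ∀ a : K, tf F B e (a • e) = 0 := by
    intro a
    rw [tf_skew, hfe, neg_zero]
  have hfee : ∀ a b : K, tf F B (a • e) (b • e) = 0 := by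
    intro a b
    unfold tf
    rw [map_smul B.b, LinearMap.smul_apply, map_smul (B.b e), B.alt, smul_zero, smul_zero, map_zero]
  have hDH : n * m * n⁻¹ * m⁻¹ ∈ H := H.mul_mem (H.mul_mem (H.mul_mem hn hmH) (H.inv_mem hn)) (H.inv_mem hmH)
  have hDe : (n * m * n⁻¹ * m⁻¹) e = e := by
    rw [hmi, LinearEquiv.mul_apply, LinearEquiv.mul_apply, LinearEquiv.mul_apply, hme, hni, hme, hne]
  obtain ⟨u, s, hu, hR⟩ := exists_Rf (B := B) he (hy.le hDH) hDe (by
    intro x hx
    obtain ⟨s', hs'⟩ := mform hf hy hZ hc hc0' (B := B) (e := e) hx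
    rw [← hm] at hs'
    obtain ⟨y, hy'⟩ : ∃ y, y = x + tf F B x (c' • e) • c' • e + s' • e := ⟨_, rfl⟩
    rw [← hy'] at hs'
    have hye : tf F B y e = 0 := by
      rw [hy', tf_add_left, tf_add_left, tf_smul_left, tf_smul_left, hx, hfe, tf_self]; ring
    have hny : tf F B (n⁻¹ y) e = 0 := by
      have := iso_inv (hy.le (H.inv_mem hn)) y e
      rw [inv_inv, hne, hye] at this
      exact this
    obtain ⟨s'', hs''⟩ := mform hf hy hZ hc hc0' (B := B) (e := e) hny
    rw [← hm] at hs''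
    have h3 : tf F B (n⁻¹ y) (c' • e) = tf F B x (c' • e) := by
      have := iso_inv (hy.le (H.inv_mem hn)) y (c' • e)
      rw [inv_inv, hnc', tf_add_right, tf_smul_right, hye, mul_zero, add_zero] at this
      rw [this, hy', tf_add_left, tf_add_left, tf_smul_left, tf_smul_left, hfee, hfe']; ring
    refine ⟨s' + s'' + tf F B x (c' • e) * t, ?_⟩
    have hns : ∀ (t : F) (x : V), n (t • x) = t • n x := fun t x => map_smul n t x
    rw [hmi, LinearEquiv.mul_apply, LinearEquiv.mul_apply, LinearEquiv.mul_apply, hs', hs'', h3, map_add, map_add,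
      hns, hns, app_inv, hnc', hne, hy']
    generalize c' • e = z
    linear_combination (norm := module) h2F • (tf F B x z • z))
  have hD1 := step2 hf hy hZ hd he hDH hu hR
  have hcomm : ∀ x, n (m x) = m (n x) := by
    intro x
    have h3 : n * m = m * n := by
      have : n * m * n⁻¹ * m⁻¹ * (m * n) = m * n := by rw [hD1, one_mul]
      rw [← this]; group
    exact congrArg (fun g : V ≃ₗ[F] V => g x) h3
  obtain ⟨y, hy1⟩ := exists_dual (B := B) he
  have hx : m ((-(l * c')) • y) - (-(l * c')) • y = l • e := by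
    rw [hm, LL_apply, LinearMap.mulLeft_apply, map_smul, LinearMap.smul_apply, skew y e, hy1, add_sub_cancel_left,
      smul_eq_mul]
    congr 1
    field_simp
  refine ⟨c'⁻¹ * B.b (n ((-(l * c')) • y)) e, ?_⟩
  rw [← hx, map_sub, hcomm, hm, LL_apply, LinearMap.mulLeft_apply, add_sub_cancel_left]

/-- the stabiliser of `e` preserves `K e` -/
lemma stay [Finite V] (hd : finrank K V = 2) {e : V} (he : e ≠ 0) {g : V ≃ₗ[F] V} (hg : g ∈ H) (hge : g e = e)
    {c : K} (hc : T c = 0) (hc0 : c ≠ 0) : ∃ k : K, g (c • e) = k • e := by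
  have h2 := hf.two
  have h2F := hf.twoF
  have hc3 := cube_of_T h2 hc hc0
  have hc1 : c ≠ 1 := by
    rintro rfl
    rw [T_one h2] at hc
    exact one_ne_zero hc
  obtain ⟨w, hw⟩ : ∃ w, w = g (c • e) := ⟨_, rfl⟩
  obtain ⟨m, hm⟩ : ∃ m : V ≃ₗ[F] V, m = LL B e (mu F c⁻¹) := ⟨_, rfl⟩
  have hmH : m ∈ H := by rw [hm]; exact hy.mu_mem _ e
  have hme : m e = e := by
    rw [hm, LL_apply, B.alt, map_zero, zero_smul, add_zero]
  have hgi : g⁻¹ e = e := by
    conv_lhs => rw [← hge]
    exact inv_app g e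
  have hfe : ∀ a : K, tf F B (a • e) e = 0 := by
    intro a
    unfold tf
    rw [map_smul, LinearMap.smul_apply, B.alt, smul_zero, map_zero]
  have hwe : tf F B w e = 0 := by
    have := (mem_iso.1 (hy.le hg)) (c • e) e
    rw [hge, hfe] at this
    rw [hw]; exact this
  have hnH : g * m * g⁻¹ ∈ H := H.mul_mem (H.mul_mem hg hmH) (H.inv_mem hg)
  have hne : (g * m * g⁻¹) e = e := by
    rw [LinearEquiv.mul_apply, LinearEquiv.mul_apply, hgi, hme, hge]
  have hnx : ∀ x, tf F B x e = 0 → ∃ s : F, (g * m * g⁻¹) x = x + tf F B x w • w + s • e := by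
    intro x hx
    have hgx : tf F B (g⁻¹ x) e = 0 := by
      have := iso_inv (hy.le (H.inv_mem hg)) x e
      rw [inv_inv, hge, hx] at this
      exact this
    obtain ⟨s, hs⟩ := mform hf hy hZ hc hc0 (B := B) (e := e) hgx
    rw [← hm] at hs
    refine ⟨s, ?_⟩
    have h3 : tf F B (g⁻¹ x) (c • e) = tf F B x w := by
      have := iso_inv (hy.le (H.inv_mem hg)) x (c • e)
      rw [inv_inv, ← hw] at this
      exact this
    have hgs : ∀ (t : F) (x : V), g (t • x) = t • g x := fun t x => map_smul g t x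
    rw [LinearEquiv.mul_apply, LinearEquiv.mul_apply, hs, h3, map_add, map_add, hgs, hgs, app_inv, ← hw, hge]
  -- a point of `K e / F e` fixed by the conjugate
  obtain ⟨a, ha0, ha1, haw⟩ : ∃ a : K, a ≠ 0 ∧ a ≠ 1 ∧ tf F B (a • e) w = 0 := by
    rcases hf.F01 (tf F B (c • e) w) with h3 | h3
    · exact ⟨c, hc0, hc1, h3⟩
    rcases hf.F01 (tf F B (c ^ 2 • e) w) with h4 | h4
    · refine ⟨c ^ 2, pow_ne_zero _ hc0, ?_, h4⟩
      intro h5
      apply one_ne_zero (α := K)
      linear_combination c * h5 - hc3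
    · refine ⟨c + c ^ 2, ?_, ?_, ?_⟩
      · intro h5
        have h6 : c * (c + 1) = 0 := by linear_combination h5
        rcases mul_eq_zero.1 h6 with h7 | h7
        · exact hc0 h7
        · exact hc1 (by linear_combination h7 - h2)
      · intro h5
        have h6 : T (c + c ^ 2) = 0 := by rw [T_add h2, T_sq hf.h8, hc, add_zero]
        rw [h5, T_one h2] at h6
        exact one_ne_zero h6
      · rw [add_smul, tf_add_left, h3, h4]
        linear_combination h2F
  obtain ⟨s, hs⟩ := hnx (a • e) (hfe a)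
  rw [haw, zero_smul, add_zero] at hs
  have hst := star hf hy hZ hd he hnH hne ha0 ha1 hs
  rw [← hw]
  by_cases hall : ∀ l : K, tf F B (l • e) w = 0
  · exact perp_line (B := B) hd he (b_of_tf hall)
  push Not at hall
  obtain ⟨l, hl⟩ := hall
  obtain ⟨s', hs'⟩ := hnx (l • e) (hfe l)
  obtain ⟨l', hl'⟩ := hst l
  rw [hl'] at hs'
  have h5 : tf F B (l • e) w = 1 := (hf.F01 _).resolve_left hl
  rw [h5, one_smul] at hs'
  refine ⟨l' - l - algebraMap F K s', ?_⟩
  rw [sub_smul, sub_smul, hs', algebraMap_smul]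
  abel

end step

/-- **Main theorem**, `|F| = 2`, `[K : F] = 3`, `dim_K V = 2` -/
theorem main8 [Finite V] (hf : Fld F K) (hy : HypS B H) (hd : finrank K V = 2) :
    (∀ g ∈ H, Semi K g) ∨ ∀ c, S1 K c ∈ ZS B H := by
  have hnt : Nontrivial V := Module.nontrivial_of_finrank_pos (R := K) (by omega)
  rcases ZS_cases hf hy with h | hZ
  · exact Or.inr h
  left
  obtain ⟨e, he⟩ := exists_ne (0 : V)
  obtain ⟨c, hc, hc0, hc1⟩ := hf.exists_c
  exact semi_of_stay' hy (by rw [hf.fr]; exact Nat.prime_three) (by omega) he (hf.not_range.2 ⟨hc0, hc1⟩)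
    (fun g hg hge => stay hf hy hZ hd he hg hge hc hc0)

end ext

end Cfsg.Agent.SmallDim.SpExt8
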