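import Cfsg.Agent.GeoMax.SpGLMain

/-!
Maximality of `GL_m(q).2` in `Sp_2m(q)`, `q` odd, `m ≥ 3`.
-/

set_option autoImplicit false
set_option linter.unusedSectionVars false

namespace Cfsg.Agent.SmallDim.SpPair

open Matrix
open scoped MatrixGroups
open Cfsg.Geo Cfsg.Agent.GeoMax Cfsg.Agent.GeoMax.Symp

variable {ι : Type} [Fintype ι] [DecidableEq ι] {F : Type*} [Field F]
variable {f : (ι → F) → (ι → F) → F}

section
variable {hf : IsSymplecticForm f} {M : Subgroup (GL ι F)} {X X' A B : Submodule F (ι → F)}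

/-- no transvection of `M` has its centre in `X` -/
def NoTr (hf : IsSymplecticForm f) (M : Subgroup (GL ι F)) (X : Submodule F (ι → F)) : Prop :=
  ∀ v ∈ X, v ≠ 0 → ∀ d, d ≠ 0 → tr hf v d ∉ M

lemma mem_of_hyp (hX : GoodPair hf M X X') {v : ι → F} (hvX : v ∈ X) (hv0 : v ≠ 0) {a : ι → F}
    (ha : ∀ u ∈ X', f u v = 0 → f u a = 0) : ∃ c : F, a - c • v ∈ X' := by
  obtain ⟨-, z, hz⟩ := hf.nondegenerate v hv0
  obtain ⟨x, hx, y, hy, rfl⟩ := hX.exists_add z
  rw [add_right hf, hX.ts v hvX x hx, zero_add] at hz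
  have hz' : f y v ≠ 0 := by rw [skew hf]; exact neg_ne_zero.2 hz
  refine ⟨f y a / f y v, ?_⟩
  apply hX.symm.mem_of_perp
  intro u hu
  rw [f_symm0 hf]
  have h1 := ha (u - (f u v / f y v) • y) (X'.sub_mem hu (X'.smul_mem _ hy)) (by
    rw [sub_left hf, smul_left hf, div_mul_cancel₀ _ hz', sub_self])
  rw [sub_left hf, smul_left hf] at h1
  rw [sub_right hf, smul_right hf]
  field_simp at h1 ⊢
  linear_combination h1

lemma mem_of_rho (h2 : (2 : F) ≠ 0) (hX : GoodPair hf M X X') (hno : NoTr hf M X)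
    {v w : ι → F} (hv : v ∈ X) (hv0 : v ≠ 0) (hwv : f w v = 0) {c : F} (hr : rho hf v w c ∈ M) :
    ∃ k : F, w - k • v ∈ X' := by
  refine mem_of_hyp hX hv hv0 fun u hu huv => ?_
  by_contra hne
  obtain ⟨d, hd, hdM⟩ := exists_tr_of_rho hf h2 hwv huv hr (hX.mem v hv u hu (f_symm0 hf huv)) (fun h => hne (f_symm0 hf h))
  exact hno v hv hv0 d hd hdM

lemma dich' (h2 : (2 : F) ≠ 0) (hA : GoodPair hf M A B) (hMI : M ≤ isoGL f) (hX : GoodPair hf M X X')
    (hno : NoTr hf M X) {v : ι → F} (hvX : v ∈ X) (hv0 : v ≠ 0)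
    {a b : ι → F} (ha : a ∈ A) (hb : b ∈ B) (hab : f a b = 0) (hav : f a v = 0) (hbv : f b v = 0) :
    (∃ c : F, a - c • v ∈ X') ∨ (∃ c : F, b - c • v ∈ X') := by
  rcases hA.dich h2 hMI hX hno hvX hv0 ha hb hab hav hbv with h | h
  · exact Or.inl (mem_of_hyp hX hvX hv0 h)
  · exact Or.inr (mem_of_hyp hX hvX hv0 h)

lemma eq_zero_of_both (hA : GoodPair hf M A B) {x : ι → F} (h1 : x ∈ A) (h2 : x ∈ B) : x = 0 := by
  have : x ∈ A ⊓ B := ⟨h1, h2⟩
  rwa [hA.inf, Submodule.mem_bot] at this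

/-- a vector of `A ∩ X'` orthogonal to `v` -/
lemma claim_a (h2 : (2 : F) ≠ 0) (hA : GoodPair hf M A B) (hX : GoodPair hf M X X') (hnoA : NoTr hf M A)
    {α β : ι → F} (hα : α ∈ A) (hβ : β ∈ B) (hv : α + β ∈ X) {w : ι → F} (hw : w ∈ A) (hwv : f w (α + β) = 0)
    (hw' : w ∈ X') (hw0 : w ≠ 0) : ∃ k : F, α = k • w := by
  have h1 := hX.symm.mem w hw' (α + β) hv hwv
  obtain ⟨k, hk⟩ := mem_of_rho h2 hA hnoA hw hw0 (f_symm0 hf hwv) h1
  refine ⟨k, ?_⟩
  have h3 : α - k • w ∈ B := by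
    have := B.sub_mem hk hβ
    have e : α + β - k • w - β = α - k • w := by abel
    rwa [e] at this
  have h4 : α - k • w = 0 := eq_zero_of_both hA (A.sub_mem hα (A.smul_mem _ hw)) h3
  exact sub_eq_zero.1 h4

lemma two_a (h2 : (2 : F) ≠ 0) (hA : GoodPair hf M A B) (hX : GoodPair hf M X X') (hnoA : NoTr hf M A)
    {α β : ι → F} (hα : α ∈ A) (hβ : β ∈ B) (hv : α + β ∈ X) (hq : f α β ≠ 0) {a a' : ι → F} (ha : a ∈ A) (ha' : a' ∈ A)
    (hav : f a (α + β) = 0) (hav' : f a' (α + β) = 0) (hind : ∀ c c' : F, c' • a = c • a' → c = 0 ∧ c' = 0)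
    (h : ∃ c : F, a - c • (α + β) ∈ X') (h' : ∃ c : F, a' - c • (α + β) ∈ X') : False := by
  obtain ⟨c, hc⟩ := h
  obtain ⟨c', hc'⟩ := h'
  have key : ∀ w ∈ A, f w (α + β) = 0 → w ∈ X' → w = 0 := by
    intro w hw hwv hw'
    by_contra hw0
    obtain ⟨k, hk⟩ := claim_a h2 hA hX hnoA hα hβ hv hw hwv hw' hw0
    apply hq
    rw [hk, smul_left hf]
    rw [add_right hf, hA.ts w hw α hα, zero_add] at hwv
    rw [hwv, mul_zero]
  have h3 : c' • a - c • a' = 0 := by
    apply key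
    · exact A.sub_mem (A.smul_mem _ ha) (A.smul_mem _ ha')
    · rw [sub_left hf, smul_left hf, smul_left hf, hav, hav']; ring
    · have h4 := X'.sub_mem (X'.smul_mem c' hc) (X'.smul_mem c hc')
      have e : c' • (a - c • (α + β)) - c • (a' - c' • (α + β)) = c' • a - c • a' := by module
      rwa [e] at h4
  obtain ⟨hc0, hc0'⟩ := hind c c' (sub_eq_zero.1 h3)
  rw [hc0, zero_smul, sub_zero] at hc
  have h5 := key a ha hav hc
  have := hind 0 1 (by rw [h5, smul_zero, zero_smul])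
  exact one_ne_zero this.2

/-- the quadratic form attached to `A, B` vanishes on `X` -/
lemma q_zero (h2 : (2 : F) ≠ 0) (hA : GoodPair hf M A B) (hMI : M ≤ isoGL f) (hX : GoodPair hf M X X')
    (hno : NoTr hf M X) (hnoA : NoTr hf M A) (hnoB : NoTr hf M B) (hdA : 3 ≤ Module.finrank F A)
    {α β : ι → F} (hα : α ∈ A) (hβ : β ∈ B) (hv : α + β ∈ X) : f α β = 0 := by
  by_contra hq
  have hα0 : α ≠ 0 := by rintro rfl; exact hq (zero_left hf _)
  have hv0 : α + β ≠ 0 := by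
    intro h
    have h1 : f (α + β) β = 0 := by rw [h, zero_left hf]
    rw [add_left hf, self hf, add_zero] at h1
    exact hq h1
  -- the vectors
  obtain ⟨a₁, ha₁, ha₁0, ha₁v⟩ := exists_perp_two hf (Y := A) [β] (by simp; omega)
  obtain ⟨z, hz⟩ := exists_ne_zero hf ha₁0
  obtain ⟨a₂, ha₂, ha₂0, ha₂v⟩ := exists_perp_two hf (Y := A) [β, z] (by simp; omega)
  have h1β : f a₁ β = 0 := ha₁v β (by simp)
  have h2β : f a₂ β = 0 := ha₂v β (by simp)
  have h2z : f a₂ z = 0 := ha₂v z (by simp)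
  -- independence
  have hn1 : a₁ ∉ Submodule.span F ({a₂, α} : Set (ι → F)) := by
    intro hm
    obtain ⟨s, t, hst⟩ := Submodule.mem_span_pair.1 hm
    have e1 : f a₁ β = s * f a₂ β + t * f α β := by rw [← hst, add_left hf, smul_left hf, smul_left hf]
    rw [h1β, h2β, mul_zero, zero_add] at e1
    have ht : t = 0 := by
      rcases mul_eq_zero.1 e1.symm with h | h
      · exact h
      · exact absurd h hq
    have e2 : f a₁ z = s * f a₂ z + t * f α z := by rw [← hst, add_left hf, smul_left hf, smul_left hf]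
    rw [h2z, ht, mul_zero, zero_mul, add_zero] at e2
    exact hz e2
  have hn2 : a₂ ∉ Submodule.span F ({a₁, α} : Set (ι → F)) := by
    intro hm
    obtain ⟨s, t, hst⟩ := Submodule.mem_span_pair.1 hm
    have e1 : f a₂ β = s * f a₁ β + t * f α β := by rw [← hst, add_left hf, smul_left hf, smul_left hf]
    rw [h1β, h2β, mul_zero, zero_add] at e1
    have ht : t = 0 := by
      rcases mul_eq_zero.1 e1.symm with h | h
      · exact h
      · exact absurd h hq
    have e2 : f a₂ z = s * f a₁ z + t * f α z := by rw [← hst, add_left hf, smul_left hf, smul_left hf]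
    rw [h2z, ht, zero_mul, add_zero] at e2
    rcases mul_eq_zero.1 e2.symm with h | h
    · rw [h, ht, zero_smul, zero_smul, add_zero] at hst
      exact ha₂0 hst.symm
    · exact hz h
  -- dual vectors
  have hdual : ∀ (x y : ι → F), x ∈ A → y ∈ A → x ∉ Submodule.span F ({y, α} : Set (ι → F)) →
      ∃ b ∈ B, f x b = 1 ∧ f y b = 0 ∧ f α b = 0 := by
    intro x y hx hy hxy
    obtain ⟨z, hz, hxz⟩ := exists_perp_ne hf hxy
    have hzy := hz y (Submodule.subset_span (by simp))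
    have hzα := hz α (Submodule.subset_span (by simp))
    obtain ⟨a, ha, b, hb, rfl⟩ := hA.exists_add z
    rw [add_right hf, hA.ts x hx a ha, zero_add] at hxz
    rw [add_right hf, hA.ts y hy a ha, zero_add] at hzy
    rw [add_right hf, hA.ts α hα a ha, zero_add] at hzα
    refine ⟨(f x b)⁻¹ • b, B.smul_mem _ hb, ?_, ?_, ?_⟩
    · rw [smul_right hf, inv_mul_cancel₀ hxz]
    · rw [smul_right hf, hzy, mul_zero]
    · rw [smul_right hf, hzα, mul_zero]
  obtain ⟨b₁, hb₁, e11, e21, eα1⟩ := hdual a₁ a₂ ha₁ ha₂ hn1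
  obtain ⟨b₂, hb₂, e22, e12, eα2⟩ := hdual a₂ a₁ ha₂ ha₁ hn2
  have hav : ∀ a ∈ A, f a β = 0 → f a (α + β) = 0 := by
    intro a ha h
    rw [add_right hf, hA.ts a ha α hα, h, add_zero]
  have hbv : ∀ b ∈ B, f α b = 0 → f b (α + β) = 0 := by
    intro b hb h
    rw [add_right hf, hA.ts' b hb β hβ, f_symm0 hf h, add_zero]
  have hbv' : ∀ b ∈ B, f α b = 0 → f b (β + α) = 0 := by
    intro b hb h
    rw [add_comm]; exact hbv b hb h
  have hv' : β + α ∈ X := by rw [add_comm]; exact hv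
  have hq' : f β α ≠ 0 := fun h => hq (f_symm0 hf h)
  have A1 := hav a₁ ha₁ h1β
  have A2 := hav a₂ ha₂ h2β
  have A3 := hav (a₁ + a₂) (A.add_mem ha₁ ha₂) (by rw [add_left hf, h1β, h2β, add_zero])
  have B1 := hbv b₁ hb₁ eα1
  have B2 := hbv b₂ hb₂ eα2
  have B3 := hbv (b₁ - b₂) (B.sub_mem hb₁ hb₂) (by rw [sub_right hf, eα1, eα2, sub_zero])
  have D1 := dich' h2 hA hMI hX hno hv hv0 ha₁ hb₂ e12 A1 B2
  have D2 := dich' h2 hA hMI hX hno hv hv0 ha₂ hb₁ e21 A2 B1
  have D3 := dich' h2 hA hMI hX hno hv hv0 (A.add_mem ha₁ ha₂) (B.sub_mem hb₁ hb₂)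
    (by rw [add_left hf, sub_right hf, sub_right hf, e11, e12, e21, e22]; ring) A3 B3
  have TA : ∀ a a' : ι → F, a ∈ A → a' ∈ A → f a (α + β) = 0 → f a' (α + β) = 0 →
      (∀ c c' : F, c' • a = c • a' → c = 0 ∧ c' = 0) → (∃ c : F, a - c • (α + β) ∈ X') →
      (∃ c : F, a' - c • (α + β) ∈ X') → False := fun a a' h1 h3 h4 h5 h6 h7 h8 =>
    two_a h2 hA hX hnoA hα hβ hv hq h1 h3 h4 h5 h6 h7 h8
  have TB : ∀ b b' : ι → F, b ∈ B → b' ∈ B → f b (α + β) = 0 → f b' (α + β) = 0 →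
      (∀ c c' : F, c' • b = c • b' → c = 0 ∧ c' = 0) → (∃ c : F, b - c • (α + β) ∈ X') →
      (∃ c : F, b' - c • (α + β) ∈ X') → False := by
    intro b b' h1 h3 h4 h5 h6 h7 h8
    rw [add_comm α β] at h4 h5 h7 h8
    exact two_a h2 hA.symm hX hnoB hβ hα hv' hq' h1 h3 h4 h5 h6 h7 h8
  -- independence from the pairing
  have ind : ∀ (x y z z' : ι → F) (p r s t : F), f x z = p → f y z = r → f x z' = s → f y z' = t → p * t - r * s ≠ 0 →
      ∀ c c' : F, c' • x = c • y → c = 0 ∧ c' = 0 := by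
    intro x y z z' p r s t h1 h3 h4 h5 h6 c c' h
    have e1 := congrArg (fun w => f w z) h
    have e3 := congrArg (fun w => f w z') h
    simp only [smul_left hf, h1, h3, h4, h5] at e1 e3
    constructor
    · have : c * (p * t - r * s) = 0 := by linear_combination p * e3.symm - s * e1.symm
      exact (mul_eq_zero.1 this).resolve_right h6
    · have : c' * (p * t - r * s) = 0 := by linear_combination t * e1 - r * e3
      exact (mul_eq_zero.1 this).resolve_right h6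
  have h10 : f b₁ a₁ = -1 := by rw [skew hf, e11]
  have h11 : f b₁ a₂ = 0 := f_symm0 hf e21
  have h12 : f b₂ a₁ = 0 := f_symm0 hf e12
  have h13 : f b₂ a₂ = -1 := by rw [skew hf, e22]
  rcases D1 with d1 | d1 <;> rcases D2 with d2 | d2 <;> rcases D3 with d3 | d3
  · exact TA a₁ a₂ ha₁ ha₂ A1 A2 (ind a₁ a₂ b₁ b₂ 1 0 0 1 e11 e21 e12 e22 (by simp)) d1 d2
  · exact TA a₁ a₂ ha₁ ha₂ A1 A2 (ind a₁ a₂ b₁ b₂ 1 0 0 1 e11 e21 e12 e22 (by simp)) d1 d2
  · exact TA a₁ (a₁ + a₂) ha₁ (A.add_mem ha₁ ha₂) A1 A3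
      (ind a₁ (a₁ + a₂) b₁ b₂ 1 1 0 1 e11 (by rw [add_left hf, e11, e21, add_zero]) e12
        (by rw [add_left hf, e12, e22, zero_add]) (by simp)) d1 d3
  · exact TB b₁ (b₁ - b₂) hb₁ (B.sub_mem hb₁ hb₂) B1 B3
      (ind b₁ (b₁ - b₂) a₁ a₂ (-1) (-1) 0 1 h10 (by rw [sub_left hf, h10, h12, sub_zero]) h11
        (by rw [sub_left hf, h11, h13]; ring) (by simp)) d2 d3
  · exact TA a₂ (a₁ + a₂) ha₂ (A.add_mem ha₁ ha₂) A2 A3
      (ind a₂ (a₁ + a₂) b₁ b₂ 0 1 1 1 e21 (by rw [add_left hf, e11, e21, add_zero]) e22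
        (by rw [add_left hf, e12, e22, zero_add]) (by simp)) d2 d3
  · exact TB b₂ (b₁ - b₂) hb₂ (B.sub_mem hb₁ hb₂) B2 B3
      (ind b₂ (b₁ - b₂) a₁ a₂ 0 (-1) (-1) 1 h12 (by rw [sub_left hf, h10, h12, sub_zero]) h13
        (by rw [sub_left hf, h11, h13]; ring) (by simp)) d1 d3
  · exact TB b₂ b₁ hb₂ hb₁ B2 B1
      (ind b₂ b₁ a₁ a₂ 0 (-1) (-1) 0 h12 h10 h13 h11 (by simp)) d1 d2
  · exact TB b₂ b₁ hb₂ hb₁ B2 B1
      (ind b₂ b₁ a₁ a₂ 0 (-1) (-1) 0 h12 h10 h13 h11 (by simp)) d1 d2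

/-- `X` is the sum of its intersections with `A` and `B` -/
lemma split_mem (h2 : (2 : F) ≠ 0) (hA : GoodPair hf M A B) (hMI : M ≤ isoGL f) (hX : GoodPair hf M X X')
    (hno : NoTr hf M X) (hnoA : NoTr hf M A) (hnoB : NoTr hf M B) (hdA : 3 ≤ Module.finrank F A)
    {α β : ι → F} (hα : α ∈ A) (hβ : β ∈ B) (hv : α + β ∈ X) : α ∈ X ∧ β ∈ X := by
  have h1 : α ∈ X := by
    apply hX.mem_of_perp
    intro y hy
    obtain ⟨α', hα', β', hβ', rfl⟩ := hA.exists_add y
    have e1 := q_zero h2 hA hMI hX hno hnoA hnoB hdA hα hβ hv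
    have e2 := q_zero h2 hA hMI hX hno hnoA hnoB hdA hα' hβ' hy
    have e3 := q_zero h2 hA hMI hX hno hnoA hnoB hdA (A.add_mem hα hα') (B.add_mem hβ hβ') (by
      have := X.add_mem hv hy
      have e : α + β + (α' + β') = (α + α') + (β + β') := by abel
      rwa [e] at this)
    have e4 := hX.ts _ hv _ hy
    rw [add_left hf, add_right hf, add_right hf, e1, e2, zero_add, add_zero] at e3
    rw [add_left hf, add_right hf, add_right hf, hA.ts α hα α' hα', hA.ts' β hβ β' hβ', zero_add, add_zero,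
      skew hf β α'] at e4
    have e5 : (2 : F) * f α β' = 0 := by linear_combination e3 + e4
    rw [add_right hf, hA.ts α hα α' hα', zero_add]
    exact (mul_eq_zero.1 e5).resolve_left h2
  refine ⟨h1, ?_⟩
  have := X.sub_mem hv h1
  rwa [add_sub_cancel_left] at this

/-- In the absence of transvections, every good pair is the standard one. -/
lemma eq_of_no_tr3 (h2 : (2 : F) ≠ 0) (hA : GoodPair hf M A B) (hMI : M ≤ isoGL f)
    (hdA : 3 ≤ Module.finrank F A) (hdB : 3 ≤ Module.finrank F B)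
    (hX : GoodPair hf M X X')
    (hno : NoTr hf M X) (hno' : NoTr hf M X') (hnoA : NoTr hf M A) (hnoB : NoTr hf M B) : X ≤ A ∨ X ≤ B := by
  by_contra hcon
  push Not at hcon
  obtain ⟨v, hvX, hvA, hvB⟩ := exists_notMem_notMem hcon.1 hcon.2
  obtain ⟨α, hα, β, hβ, rfl⟩ := hA.exists_add v
  have hα0 : α ≠ 0 := by rintro rfl; exact hvB (by rwa [zero_add])
  have hβ0 : β ≠ 0 := by rintro rfl; exact hvA (by rwa [add_zero])
  have hv0 : α + β ≠ 0 := by intro h; rw [h] at hvA; exact hvA A.zero_mem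
  obtain ⟨hαX, hβX⟩ := split_mem h2 hA hMI hX hno hnoA hnoB hdA hα hβ hvX
  obtain ⟨a, ha, ha0, hav⟩ := exists_perp_two hf (Y := A) [α + β] (by simp; omega)
  obtain ⟨b, hb, hb0, hbv⟩ := exists_perp_two hf (Y := B) [α + β, a] (by simp; omega)
  have hav' := hav _ (List.mem_singleton_self _)
  have hbv' := hbv (α + β) (by simp)
  have hba := hbv a (by simp)
  -- the final contradiction
  have fin : ∀ (A B : Submodule F (ι → F)) (α β : ι → F), GoodPair hf M A B → NoTr hf M A → NoTr hf M B →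
      3 ≤ Module.finrank F A → α ∈ A → β ∈ B → α ∈ X → β ∈ X → α ≠ 0 → β ≠ 0 →
      ∀ a ∈ A, a ≠ 0 → f a (α + β) = 0 → ∀ c : F, a - c • (α + β) ∈ X' → False := by
    intro A B α β hA hnoA hnoB hdA hα hβ hαX hβX hα0 hβ0 a ha ha0 hav c hc
    by_cases hc0 : c = 0
    · rw [hc0, zero_smul, sub_zero] at hc
      obtain ⟨k, hk⟩ := claim_a h2 hA hX hnoA hα hβ (X.add_mem hαX hβX) ha hav hc ha0
      apply hα0
      apply eq_zero_of_both hX hαX
      rw [hk]; exact X'.smul_mem _ hc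
    · have e : a - c • (α + β) = (a - c • α) + (-c) • β := by module
      rw [e] at hc
      have h3 := (split_mem h2 hA hMI hX.symm hno' hnoA hnoB hdA (A.sub_mem ha (A.smul_mem _ hα)) (B.smul_mem _ hβ) hc).2
      have h4 := X'.smul_mem (-c)⁻¹ h3
      rw [smul_smul, inv_mul_cancel₀ (neg_ne_zero.2 hc0), one_smul] at h4
      exact hβ0 (eq_zero_of_both hX hβX h4)
  rcases dich' h2 hA hMI hX hno hvX hv0 ha hb (f_symm0 hf hba) hav' hbv' with ⟨c, hc⟩ | ⟨c, hc⟩
  · exact fin A B α β hA hnoA hnoB hdA hα hβ hαX hβX hα0 hβ0 a ha ha0 hav' c hc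
  · rw [add_comm α β] at hbv' hc
    exact fin B A β α hA.symm hnoB hnoA hdB hβ hα hβX hαX hβ0 hα0 b hb hb0 hbv' c hc

end

/-- **Maximality of `GL_m(q).2` in `Sp_2m(q)`**, `q` odd. -/
theorem glPair_maximal3 (hf : IsSymplecticForm f) (h2 : (2 : F) ≠ 0) {m : ℕ} (hm : 3 ≤ m)
    (D : Fin 2 → Submodule F (ι → F)) (hD : IsMDecomposition m D) (hts : ∀ i, IsTotallySingularFor f (D i)) :
    IsMaximalIn (isoGL f) (decompositionStabilizer D ⊓ isoGL f) := by
  have hd0 := hD.finrank_eq 0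
  have hd1 := hD.finrank_eq 1
  have hcompl : IsCompl (D 0) (D 1) := by
    constructor
    · exact hD.indep.pairwiseDisjoint (by decide)
    · rw [codisjoint_iff, ← hD.iSup_eq_top]
      apply le_antisymm
      · exact sup_le (le_iSup D 0) (le_iSup D 1)
      · refine iSup_le fun i => ?_
        fin_cases i
        · exact le_sup_left
        · exact le_sup_right
  -- description of the stabiliser
  have hmemH : ∀ g : GL ι F, ((∀ x ∈ D 0, (g : Matrix ι ι F) *ᵥ x ∈ D 0) ∧ (∀ x ∈ D 1, (g : Matrix ι ι F) *ᵥ x ∈ D 1)) ∨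
      ((∀ x ∈ D 0, (g : Matrix ι ι F) *ᵥ x ∈ D 1) ∧ (∀ x ∈ D 1, (g : Matrix ι ι F) *ᵥ x ∈ D 0)) →
      g ∈ decompositionStabilizer D := by
    intro g hg
    have hfm : ∀ W : Submodule F (ι → F), Module.finrank F (W.map (Matrix.toLin' (g : Matrix ι ι F))) = Module.finrank F W := by
      intro W
      refine (Submodule.equivMapOfInjective _ ?_ W).finrank_eq.symm
      intro x y hxy
      rw [Matrix.toLin'_apply, Matrix.toLin'_apply] at hxy
      exact gl_mulVec_injective g hxy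
    have hmap : ∀ i j, (∀ x ∈ D i, (g : Matrix ι ι F) *ᵥ x ∈ D j) → (D i).map (Matrix.toLin' (g : Matrix ι ι F)) = D j := by
      intro i j h
      refine Submodule.eq_of_le_of_finrank_eq ?_ ?_
      · rintro _ ⟨x, hx, rfl⟩
        rw [Matrix.toLin'_apply]; exact h x hx
      · rw [hfm, hD.finrank_eq, hD.finrank_eq]
    rcases hg with ⟨h1, h3⟩ | ⟨h1, h3⟩
    · refine ⟨1, fun i => ?_⟩
      rw [Equiv.Perm.one_apply]
      fin_cases i
      · exact hmap 0 0 h1
      · exact hmap 1 1 h3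
    · refine ⟨Equiv.swap 0 1, fun i => ?_⟩
      fin_cases i
      · exact (hmap 0 1 h1).trans (by simp)
      · exact (hmap 1 0 h3).trans (by simp)
  constructor
  · refine lt_of_le_of_ne inf_le_right ?_
    intro heq
    -- vectors
    obtain ⟨b, hb, hb0⟩ := Submodule.exists_mem_ne_zero_of_ne_bot (p := D 1) (by
      intro h; rw [h, finrank_bot] at hd1; omega)
    obtain ⟨z, hz⟩ := exists_ne_zero hf hb0
    have hzt : z ∈ D 0 ⊔ D 1 := by rw [hcompl.sup_eq_top]; trivial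
    obtain ⟨a, ha, b', hb', rfl⟩ := Submodule.mem_sup.1 hzt
    rw [add_right hf, hts 1 b hb b' hb', add_zero] at hz
    have ha0 : a ≠ 0 := by rintro rfl; exact hz (zero_right hf b)
    have hab : f a b ≠ 0 := by rw [skew hf]; exact neg_ne_zero.2 hz
    obtain ⟨x, hx, hx0, hxb⟩ := exists_perp_two hf (Y := D 0) [b] (by simp; omega)
    have hxb' := hxb b (by simp)
    have hmem : tr hf (a + b) 1 ∈ decompositionStabilizer D ⊓ isoGL f := by rw [heq]; exact tr_mem_iso hf _ 1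
    obtain ⟨⟨σ, hσ⟩, -⟩ := hmem
    have h1 := hσ 0
    have hxm : (tr hf (a + b) 1 : Matrix ι ι F) *ᵥ x ∈ D (σ 0) := by
      rw [← h1]; exact ⟨x, hx, by rw [Matrix.toLin'_apply]⟩
    rw [tr_mulVec, add_right hf, hts 0 x hx a ha, hxb'] at hxm
    have ham : (tr hf (a + b) 1 : Matrix ι ι F) *ᵥ a ∈ D (σ 0) := by
      rw [← h1]; exact ⟨a, ha, by rw [Matrix.toLin'_apply]⟩
    rw [tr_mulVec, add_right hf, self hf, zero_add, one_mul] at ham
    rcases (show σ 0 = 0 ∨ σ 0 = 1 by omega) with h | h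
    · rw [h] at ham
      have h3 := (D 0).sub_mem ((D 0).sub_mem ham ha) ((D 0).smul_mem (f a b) ha)
      have e : a + f a b • (a + b) - a - f a b • a = f a b • b := by module
      rw [e] at h3
      have h4 := (D 0).smul_mem (f a b)⁻¹ h3
      rw [smul_smul, inv_mul_cancel₀ hab, one_smul] at h4
      exact hb0 ((Submodule.disjoint_def.1 hcompl.disjoint) b h4 hb)
    · rw [h] at hxm
      rw [add_zero, mul_zero, zero_smul, add_zero] at hxm
      exact hx0 ((Submodule.disjoint_def.1 hcompl.disjoint) x hx hxm)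
  · intro M hHM hMI
    by_cases hMH : M = decompositionStabilizer D ⊓ isoGL f
    · exact Or.inl hMH
    right
    refine le_antisymm hMI ?_
    have hgood : GoodPair hf M (D 0) (D 1) := by
      refine ⟨hts 0, hts 1, hcompl.sup_eq_top, fun x hx x' hx' h0 => hHM ⟨hmemH _ (Or.inl ⟨?_, ?_⟩), rho_mem_iso hf _ _ _⟩⟩
      · intro y hy
        rw [rho_mulVec hf (f_symm0 hf h0), hts 0 y hy x hx, zero_smul, add_zero, mul_zero, zero_smul, add_zero]
        exact (D 0).add_mem hy ((D 0).smul_mem _ hx)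
      · intro y hy
        rw [rho_mulVec hf (f_symm0 hf h0), hts 1 y hy x' hx', zero_smul, add_zero, zero_mul, zero_smul, add_zero]
        exact (D 1).add_mem hy ((D 1).smul_mem _ hx')
    obtain ⟨s, hsI, hs0, hs1⟩ := exists_swap_ts hf (hts 0) (hts 1) hcompl (by omega)
    have hsM : s ∈ M := hHM ⟨hmemH s (Or.inr ⟨hs0, hs1⟩), hsI⟩
    -- transvections with centre in `D 0` suffice
    have hfin : (∃ a ∈ D 0, a ≠ 0 ∧ ∃ d, d ≠ 0 ∧ tr hf a d ∈ M) → isoGL f ≤ M := by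
      rintro ⟨a, ha, ha0, d, hd, hm⟩
      have h0 := hgood.TS_of_tr h2 hMI (by omega) ha ha0 hd hm
      refine hgood.iso_le h0 fun x hx => ?_
      have h3 : (s : Matrix ι ι F) *ᵥ (((s⁻¹ : GL ι F) : Matrix ι ι F) *ᵥ x) = x := gl_mulVec_inv s x
      rw [← h3]
      refine (h0 _ ?_).conj hsI hsM
      -- `s⁻¹ x ∈ D 0`
      have hfm : (D 0).map (Matrix.mulVecLin (s : Matrix ι ι F)) = D 1 := by
        refine Submodule.eq_of_le_of_finrank_eq ?_ ?_
        · rintro _ ⟨y, hy, rfl⟩; exact hs0 y hy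
        · rw [(Submodule.equivMapOfInjective _ (gl_mulVec_injective s) (D 0)).finrank_eq.symm, hd0, hd1]
      rw [← hfm] at hx
      obtain ⟨y, hy, rfl⟩ := hx
      have : ((s⁻¹ : GL ι F) : Matrix ι ι F) *ᵥ (Matrix.mulVecLin (s : Matrix ι ι F) y) = y := gl_inv_mulVec s y
      rw [this]; exact hy
    by_contra hcon
    have hno0 : ∀ v ∈ D 0, v ≠ 0 → ∀ d, d ≠ 0 → tr hf v d ∉ M := fun v hv hv0 d hd hm =>
      hcon (hfin ⟨v, hv, hv0, d, hd, hm⟩)
    have hno1 : ∀ v ∈ D 1, v ≠ 0 → ∀ d, d ≠ 0 → tr hf v d ∉ M := by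
      intro v hv hv0 d hd hm
      refine hno0 _ (hs1 v hv) (fun h => hv0 (gl_mulVec_injective s (by simpa using h))) d hd ?_
      rw [← tr_conj hf hsI]
      exact M.mul_mem (M.mul_mem hsM hm) (M.inv_mem hsM)
    have hnomap : ∀ g ∈ M, ∀ W : Submodule F (ι → F), (∀ v ∈ W, v ≠ 0 → ∀ d, d ≠ 0 → tr hf v d ∉ M) →
        ∀ v ∈ W.map (Matrix.mulVecLin (g : Matrix ι ι F)), v ≠ 0 → ∀ d, d ≠ 0 → tr hf v d ∉ M := by
      rintro g hg W hW _ ⟨x, hx, rfl⟩ hv0 d hd hm
      refine hW x hx (by rintro rfl; exact hv0 (by simp)) d hd ?_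
      have h3 := M.mul_mem (M.mul_mem (M.inv_mem hg) hm) (M.inv_mem (M.inv_mem hg))
      rw [tr_conj hf ((isoGL f).inv_mem (hMI hg))] at h3
      have : ((g⁻¹ : GL ι F) : Matrix ι ι F) *ᵥ (Matrix.mulVecLin (g : Matrix ι ι F) x) = x := gl_inv_mulVec g x
      rwa [this] at h3
    apply hMH
    refine le_antisymm (fun g hg => ⟨hmemH g ?_, hMI hg⟩) hHM
    have hX := hgood.map (hMI hg) hg
    have e0 := eq_of_no_tr3 h2 hgood hMI (by omega) (by omega) hX (hnomap g hg _ hno0) (hnomap g hg _ hno1) hno0 hno1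
    have e1 := eq_of_no_tr3 h2 hgood hMI (by omega) (by omega) hX.symm (hnomap g hg _ hno1) (hnomap g hg _ hno0) hno0 hno1
    have hinj : Function.Injective (Matrix.mulVecLin (g : Matrix ι ι F)) := gl_mulVec_injective g
    have hdm : ∀ i, Module.finrank F ((D i).map (Matrix.mulVecLin (g : Matrix ι ι F))) = m := fun i => by
      rw [(Submodule.equivMapOfInjective _ hinj (D i)).finrank_eq.symm, hD.finrank_eq]
    have hdisj : ∀ j, ¬ ((D 0).map (Matrix.mulVecLin (g : Matrix ι ι F)) ≤ D j ∧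
        (D 1).map (Matrix.mulVecLin (g : Matrix ι ι F)) ≤ D j) := by
      rintro j ⟨h3, h4⟩
      have h5 := Submodule.eq_of_le_of_finrank_eq h3 (by rw [hdm, hD.finrank_eq])
      have h6 := Submodule.eq_of_le_of_finrank_eq h4 (by rw [hdm, hD.finrank_eq])
      have h7 : (D 0).map (Matrix.mulVecLin (g : Matrix ι ι F)) = (D 1).map (Matrix.mulVecLin (g : Matrix ι ι F)) := by
        rw [h5, h6]
      have h8 := Submodule.map_injective_of_injective hinj h7
      have h9 := hcompl.inf_eq_bot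
      rw [h8, inf_idem] at h9
      rw [h9, finrank_bot] at hd1
      omega
    have hto : ∀ i j, (D i).map (Matrix.mulVecLin (g : Matrix ι ι F)) ≤ D j → ∀ x ∈ D i, (g : Matrix ι ι F) *ᵥ x ∈ D j :=
      fun i j h x hx => h ⟨x, hx, rfl⟩
    rcases e0 with e0 | e0 <;> rcases e1 with e1 | e1
    · exact absurd ⟨e0, e1⟩ (hdisj 0)
    · exact Or.inl ⟨hto 0 0 e0, hto 1 1 e1⟩
    · exact Or.inr ⟨hto 0 1 e0, hto 1 0 e1⟩
    · exact absurd ⟨e0, e1⟩ (hdisj 1)

end Cfsg.Agent.SmallDim.SpPair
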