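import Cfsg.Agent.GeoMax.SpUFin

/-!
`GU_m(q)` in `Sp_2m(q)`, `q` odd, `m ≥ 3`.
-/

set_option autoImplicit false
set_option linter.unusedSectionVars false

namespace Cfsg.Agent.SmallDim.SpU6

open Matrix
open scoped MatrixGroups
open Cfsg.Geo Cfsg.Agent.GeoMax Cfsg.Agent.GeoMax.Symp Cfsg.Agent.GeoMax.Symp.Cx

section quad
open QuadraticMap Module Cfsg.Agent.Orth Cfsg.Agent.GeoMax.Ort
variable {F V : Type*} [Field F] [AddCommGroup V] [Module F V]

/-- A small functional is represented by a vector of arbitrary norm. -/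
theorem rep2 [Finite F] [FiniteDimensional F V] {Q : QuadraticForm F V} (hQ : (polarBilin Q).Nondegenerate)
    (X : Submodule F V) (hX : 2 * finrank F X + 2 ≤ finrank F V) (y : V) (c : F) :
    ∃ x, Q x = c ∧ ∀ w ∈ X, polar Q x w = polar Q y w := by
  have hP := Cfsg.Agent.Orth.finrank_perp hQ X
  set P := Cfsg.Agent.Orth.perp Q X with hPdef
  obtain ⟨C, hC⟩ := Submodule.exists_isCompl (X.comap P.subtype)
  set U : Submodule F V := C.map P.subtype with hU
  have hfU : finrank F U = finrank F C :=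
    ((Submodule.equivMapOfInjective P.subtype P.injective_subtype C).finrank_eq).symm
  have hfC : finrank F (X.comap P.subtype) + finrank F C = finrank F P := Submodule.finrank_add_eq_of_isCompl hC
  have hfX : finrank F (X.comap P.subtype) ≤ finrank F X := by
    have h1 := (Submodule.equivMapOfInjective P.subtype P.injective_subtype (X.comap P.subtype)).finrank_eq
    rw [h1]
    apply Submodule.finrank_mono
    rintro _ ⟨x, hx, rfl⟩
    exact hx
  have hUP : ∀ u ∈ U, u ∈ P := by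
    rintro _ ⟨x, -, rfl⟩
    exact x.2
  have hUnd : U ⊓ Cfsg.Agent.Orth.perp Q U = ⊥ := by
    rw [eq_bot_iff]
    rintro x ⟨hxU, hxU'⟩
    rw [Submodule.mem_bot]
    have hxP := hUP x hxU
    -- orthogonal to `P`
    have h1 : ∀ p ∈ P, polar Q p x = 0 := by
      intro p hp
      have h2 : (⟨p, hp⟩ : P) ∈ (X.comap P.subtype) ⊔ C := by rw [hC.sup_eq_top]; trivial
      obtain ⟨a, ha, b, hb, hab⟩ := Submodule.mem_sup.1 h2
      have h3 : p = (a : V) + (b : V) := (congrArg Subtype.val hab).symm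
      rw [h3, pal]
      have h4 : polar Q (a : V) x = 0 := hxP _ ha
      have h5 : polar Q (b : V) x = 0 := hxU' _ ⟨b, hb, rfl⟩
      rw [h4, h5, add_zero]
    have h2 : x ∈ Cfsg.Agent.Orth.perp Q P := h1
    rw [hPdef, Cfsg.Agent.Orth.perp_perp hQ] at h2
    obtain ⟨x', hx', rfl⟩ := hxU
    have h3 : x' ∈ X.comap P.subtype := h2
    have h4 := hC.disjoint
    rw [Submodule.disjoint_def] at h4
    rw [h4 x' h3 hx']; rfl
  have hnd := nondegenerate_restrict hUnd
  obtain ⟨p, hp⟩ := exists_polar_eq hnd (((polarBilin Q) y).comp U.subtype)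
  obtain ⟨z, hz⟩ := exists_q_eq hnd (by omega) (c - Q (y - p))
  rw [restrict_apply'] at hz
  have hp' : ∀ u ∈ U, polar Q (p : V) u = polar Q y u := by
    intro u hu
    have := hp ⟨u, hu⟩
    exact this
  refine ⟨(y - p) + z, ?_, ?_⟩
  · rw [qadd, hz, sub_eq_add_neg y, pal, QuadraticMap.polar_neg_left, hp' _ z.2]; ring
  · intro w hw
    have h1 : polar Q (p : V) w = 0 := by rw [pc]; exact hUP _ p.2 w hw
    have h2 : polar Q (z : V) w = 0 := by rw [pc]; exact hUP _ z.2 w hw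
    rw [pal, h2, sub_eq_add_neg, pal, QuadraticMap.polar_neg_left, h1]; ring

end quad

variable {ι : Type} [Fintype ι] [DecidableEq ι] {F : Type*} [Field F]
variable {f : (ι → F) → (ι → F) → F}
variable {θ : (ι → F) →ₗ[F] (ι → F)} {δ : F}

/-- existence of vectors with prescribed pairings and norm -/
lemma exists_vec2 [Finite F] (hf : IsSymplecticForm f) (h2 : (2 : F) ≠ 0) (h : Cx f θ δ) (l : List (ι → F))
    (hl : 2 * l.length + 2 ≤ Fintype.card ι) (y : ι → F) (c : F) :
    ∃ x, f x (θ x) = c ∧ ∀ w ∈ l, f x w = f y w := by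
  have h3 := finrank_span_list_le (K := F) (l.map fun w => δ⁻¹ • θ w)
  rw [List.length_map] at h3
  obtain ⟨x, hx, hxl⟩ := rep2 (qf_nondeg hf h2 h) (Submodule.span F {x | x ∈ l.map fun w => δ⁻¹ • θ w})
    (by rw [Module.finrank_fintype_fun_eq_card]; omega) y c
  refine ⟨x, hx, fun w hw => ?_⟩
  have h3 := hxl _ (Submodule.subset_span (List.mem_map.2 ⟨w, hw, rfl⟩))
  rw [polar_qf hf h, polar_qf hf h, map_smul, h.sq, smul_smul, inv_mul_cancel₀ h.ne0, one_smul] at h3
  exact mul_left_cancel₀ h2 h3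

/-- transitivity on vectors of the same norm -/
lemma exists_move6 [Finite F] (hf : IsSymplecticForm f) (h2 : (2 : F) ≠ 0) (h : Cx f θ δ) (hι : 6 ≤ Fintype.card ι)
    {x x' : ι → F} (hq : f x (θ x) = f x' (θ x')) (hx : x ≠ 0) (hx' : x' ≠ 0) :
    ∃ g ∈ isoGL f, (∀ x, (g : Matrix ι ι F) *ᵥ (θ x) = θ ((g : Matrix ι ι F) *ᵥ x)) ∧ (g : Matrix ι ι F) *ᵥ x = x' := by
  obtain ⟨z, hz, hz'⟩ := exists_common hf hx hx'
  obtain ⟨y, hy, hyl⟩ := exists_vec2 hf h2 h [x, x'] (by simpa using hι) z (f x (θ x))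
  have h3 : f x y ≠ 0 := by
    rw [Symp.skew hf, hyl x (by simp), ← Symp.skew hf]; exact hz
  have h4 : f y x' ≠ 0 := by
    rw [hyl x' (by simp), Symp.skew hf]; exact neg_ne_zero.2 hz'
  obtain ⟨g, hg, hgθ, hgx⟩ := h.exists_move hf hy.symm h3
  obtain ⟨g', hg', hgθ', hgx'⟩ := h.exists_move hf (hy.trans hq) h4
  refine ⟨g' * g, (isoGL f).mul_mem hg' hg, fun v => ?_, ?_⟩
  · rw [gl_mul_mulVec, gl_mul_mulVec, hgθ, hgθ']
  · rw [gl_mul_mulVec, hgx, hgx']

/-- an element fixing `v` and moving `u` by a vector orthogonal to `u` and `v` -/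
lemma exists_g6 (hf : IsSymplecticForm f) (h2 : (2 : F) ≠ 0) (h : Cx f θ δ)
    (hι : 6 ≤ Fintype.card ι) {v u : ι → F} (hD : f v u ≠ 0) (hv : u ∉ line θ v) :
    ∃ g ∈ isoGL f, (∀ x, (g : Matrix ι ι F) *ᵥ (θ x) = θ ((g : Matrix ι ι F) *ᵥ x)) ∧ ∃ z, z ≠ 0 ∧
      (g : Matrix ι ι F) *ᵥ v = v ∧ (g : Matrix ι ι F) *ᵥ u = u + z ∧ f v z = 0 ∧ f u z = 0 := by
  set l : List (ι → F) := [v, θ v, u] with hl
  set Z := Symp.perp hf (Submodule.span F {x | x ∈ l}) with hZ
  have hfr : Module.finrank F (Submodule.span F {x | x ∈ l}) ≤ 3 := finrank_span_list_le (K := F) l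
  have hfZ := Symp.finrank_perp hf (Submodule.span F {x | x ∈ l})
  have hZl : ∀ z ∈ Z, ∀ w ∈ l, f z w = 0 := fun z hz w hw => Symp.mem_perp'.1 hz w (Submodule.subset_span hw)
  -- `λ` is not zero on `Z`
  have hθinj : Function.Injective θ := by
    rw [injective_iff_map_eq_zero]
    intro x hx
    have h3 := h.sq x
    rw [hx, map_zero] at h3
    exact (smul_eq_zero.1 h3.symm).resolve_left h.ne0
  obtain ⟨z₁, hz₁, hm1⟩ : ∃ z ∈ Z, f u (θ z) ≠ 0 := by
    by_contra hcon
    push Not at hcon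
    have h3 : θ u ∈ Submodule.span F {x | x ∈ l} := by
      rw [← Symp.perp_perp hf (Submodule.span F {x | x ∈ l}), Symp.mem_perp']
      intro z hz
      rw [h.skew, hcon z hz, neg_zero]
    have e : ({x | x ∈ l} : Set (ι → F)) = {v, θ v, u} := by ext x; simp [hl]
    rw [e, Submodule.mem_span_triple] at h3
    obtain ⟨a, b, c, habc⟩ := h3
    apply hv
    have hx : θ u - c • u ∈ line θ v := by
      rw [mem_line]
      exact ⟨a, b, by rw [← habc]; abel⟩
    have hx2 := h.theta_mem hx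
    rw [map_sub, map_smul, h.sq] at hx2
    have hne : δ - c * c ≠ 0 := fun h0 => h.ns c (by linear_combination -h0)
    have h4 : (δ - c * c) • u ∈ line θ v := by
      have : (δ - c * c) • u = (δ • u - c • θ u) + c • (θ u - c • u) := by module
      rw [this]
      exact Submodule.add_mem _ hx2 (Submodule.smul_mem _ _ hx)
    have h5 := Submodule.smul_mem _ (δ - c * c)⁻¹ h4
    rwa [smul_smul, inv_mul_cancel₀ hne, one_smul] at h5
  obtain ⟨z₀, hz₀, hq₀, hm0⟩ : ∃ z ∈ Z, f z (θ z) ≠ 0 ∧ f u (θ z) ≠ 0 := by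
    by_contra hcon
    push Not at hcon
    have hq1 : f z₁ (θ z₁) = 0 := by
      by_contra hne
      exact hm1 (hcon z₁ hz₁ hne)
    have hker : ∀ z ∈ Z, f u (θ z) = 0 → f z₁ (θ z) = 0 ∧ f z (θ z) = 0 := by
      intro z hz hlz
      have key : ∀ t : F, t * (2 * f z₁ (θ z)) + t * t * f z (θ z) = 0 := by
        intro t
        have h3 : f u (θ (z₁ + t • z)) ≠ 0 := by
          rw [map_add, map_smul, Symp.add_right hf, Symp.smul_right hf, hlz, mul_zero, add_zero]; exact hm1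
        have h4 : f (z₁ + t • z) (θ (z₁ + t • z)) = 0 := by
          by_contra hne
          exact h3 (hcon _ (Z.add_mem hz₁ (Z.smul_mem t hz)) hne)
        rw [map_add, map_smul, Symp.add_left hf, Symp.add_right hf, Symp.add_right hf, Symp.smul_left hf,
          Symp.smul_left hf, Symp.smul_right hf, Symp.smul_right hf, hq1, h.f_theta_symm hf z z₁] at h4
        linear_combination h4
      have k1 := key 1
      have k2 := key (-1)
      have k3 : (2 * 2) * f z₁ (θ z) = 0 := by linear_combination k1 - k2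
      have k4 : 2 * f z (θ z) = 0 := by linear_combination k1 + k2
      exact ⟨(mul_eq_zero.1 k3).resolve_left (mul_ne_zero h2 h2), (mul_eq_zero.1 k4).resolve_left h2⟩
    -- every vector of `Z` is a multiple of `z₁` plus a vector of the kernel
    have hdec : ∀ z ∈ Z, ∃ t : F, ∃ k ∈ Z, f u (θ k) = 0 ∧ z = t • z₁ + k := by
      intro z hz
      refine ⟨f u (θ z) / f u (θ z₁), z - (f u (θ z) / f u (θ z₁)) • z₁, Z.sub_mem hz (Z.smul_mem _ hz₁), ?_, by abel⟩
      rw [map_sub, map_smul, Symp.sub_right hf, Symp.smul_right hf, div_mul_cancel₀ _ hm1, sub_self]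
    have hker2 : ∀ k ∈ Z, ∀ k' ∈ Z, f u (θ k) = 0 → f u (θ k') = 0 → f k (θ k') = 0 := by
      intro k hk k' hk' h3 h4
      have h5 := (hker k hk h3).2
      have h6 := (hker k' hk' h4).2
      have h7 := (hker (k + k') (Z.add_mem hk hk') (by rw [map_add, Symp.add_right hf, h3, h4, add_zero])).2
      rw [map_add, Symp.add_left hf, Symp.add_right hf, Symp.add_right hf, h5, h6, h.f_theta_symm hf k' k] at h7
      have h8 : 2 * f k (θ k') = 0 := by linear_combination h7
      exact (mul_eq_zero.1 h8).resolve_left h2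
    have hall : ∀ z ∈ Z, ∀ z' ∈ Z, f z (θ z') = 0 := by
      intro z hz z' hz'
      obtain ⟨t, k, hk, hk0, rfl⟩ := hdec z hz
      obtain ⟨t', k', hk', hk'0, rfl⟩ := hdec z' hz'
      rw [map_add, map_smul, Symp.add_left hf, Symp.add_right hf, Symp.add_right hf, Symp.smul_left hf,
        Symp.smul_left hf, Symp.smul_right hf, Symp.smul_right hf, hq1, (hker k' hk' hk'0).1, h.f_theta_symm hf k z₁,
        (hker k hk hk0).1, hker2 k hk k' hk' hk0 hk'0]
      ring
    -- hence `θ Z = Z^⊥`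
    have hle : Z.map θ ≤ Submodule.span F {x | x ∈ l} := by
      rintro _ ⟨z, hz, rfl⟩
      rw [← Symp.perp_perp hf (Submodule.span F {x | x ∈ l}), Symp.mem_perp']
      intro w hw
      rw [h.skew, hall z hz w hw, neg_zero]
    have heq : Z.map θ = Submodule.span F {x | x ∈ l} := by
      apply Submodule.eq_of_le_of_finrank_le hle
      rw [← (Submodule.equivMapOfInjective θ hθinj Z).finrank_eq, hfZ]
      omega
    have hvm : θ v ∈ Z.map θ := by rw [heq]; exact Submodule.subset_span (by simp [hl])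
    obtain ⟨z, hz, hzv⟩ := hvm
    rw [hθinj hzv] at hz
    exact hD (hZl v hz u (by simp [hl]))
  set t := -2 * f u (θ z₀) / f z₀ (θ z₀) with ht
  have ht0 : t ≠ 0 := div_ne_zero (mul_ne_zero (neg_ne_zero.2 h2) hm0) hq₀
  have hz₀0 : z₀ ≠ 0 := by rintro rfl; rw [zero_left hf] at hq₀; exact hq₀ rfl
  set z := t • z₀ with hz
  have hzZ : z ∈ Z := Z.smul_mem _ hz₀
  have e1 : f z v = 0 := hZl z hzZ v (by simp [hl])
  have e2 : f z (θ v) = 0 := hZl z hzZ _ (by simp [hl])
  have e3 : f z u = 0 := hZl z hzZ _ (by simp [hl])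
  have e4 : f v z = 0 := by rw [Symp.skew hf, e1, neg_zero]
  have e5 : f u z = 0 := by rw [Symp.skew hf, e3, neg_zero]
  have e6 : f v (θ z) = 0 := by rw [h.f_theta_symm hf]; exact e2
  have e7 : f z (θ z) = -2 * f u (θ z) := by
    rw [hz, map_smul, Symp.smul_left hf, Symp.smul_right hf, Symp.smul_right hf, ht]
    field_simp
  have e8 : f u (θ z) ≠ 0 := by
    rw [hz, map_smul, Symp.smul_right hf]; exact mul_ne_zero ht0 hm0
  set L := f u (θ z) with hL
  obtain ⟨g, hg, hgθ, hgm⟩ := h.exists_qr hf z (-1 / L) 0 (by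
    rw [e7]; field_simp; ring)
  refine ⟨g, hg, hgθ, z, smul_ne_zero ht0 hz₀0, ?_, ?_, e4, e5⟩
  · rw [hgm, e6, e4]; simp
  · rw [hgm, ← hL, e5]
    have : -1 / L * L = -1 := by field_simp
    rw [this]; simp

/-- **key step**: a transvection in a group containing the centralisers of `θ` and `θ'` -/
theorem exists_tr6 (hf : IsSymplecticForm f) (h2 : (2 : F) ≠ 0) (h : Cx f θ δ) {θ' : (ι → F) →ₗ[F] (ι → F)}
    (h' : Cx f θ' δ) (hι : 6 ≤ Fintype.card ι) {M : Subgroup (GL ι F)}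
    (hM : ∀ g ∈ isoGL f, (∀ x, (g : Matrix ι ι F) *ᵥ (θ x) = θ ((g : Matrix ι ι F) *ᵥ x)) → g ∈ M)
    (hM' : ∀ g ∈ isoGL f, (∀ x, (g : Matrix ι ι F) *ᵥ (θ' x) = θ' ((g : Matrix ι ι F) *ᵥ x)) → g ∈ M)
    {v : ι → F} (hD : f v (θ' v) ≠ 0) (hv : θ' v ∉ line θ v) : ∃ z d, z ≠ 0 ∧ d ≠ 0 ∧ tr hf z d ∈ M := by
  set u := θ' v with hu
  obtain ⟨g, hg, hgθ, z, hz0, hgv, hgu, hvz, huz⟩ := exists_g6 hf h2 h hι hD hv
  have hgM := hM g hg hgθ
  -- the torus element
  have hδ1 : (1 : F) - δ ≠ 0 := fun h0 => h.ns 1 (by linear_combination h0)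
  have hδ := h.ne0
  obtain ⟨a, b, hab, hb⟩ : ∃ a b : F, a * a - δ * (b * b) = 1 ∧ b ≠ 0 :=
    ⟨(1 + δ) / (1 - δ), 2 / (1 - δ), by field_simp; ring, div_ne_zero h2 hδ1⟩
  have ha : a - 1 ≠ 0 := by
    intro h0
    have : a = 1 := by linear_combination h0
    rw [this] at hab
    have h3 : δ * (b * b) = 0 := by linear_combination -hab
    exact mul_ne_zero hδ (mul_ne_zero hb hb) h3
  set D := f v u with hDdef
  obtain ⟨t, ht, htθ, htm⟩ := h'.exists_qr hf v (-((a - 1) / D)) (-(b / D)) (by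
    rw [← hu, ← hDdef]
    field_simp
    linear_combination (-1 : F) * hab)
  have htM := hM' t ht htθ
  have htm' : ∀ x, (t : Matrix ι ι F) *ᵥ x = x + D⁻¹ • (f x u • ((a - 1) • v + b • u) - f x v • ((a - 1) • u + (b * δ) • v)) := by
    intro x
    rw [htm, ← hu]
    module
  have htz : (t : Matrix ι ι F) *ᵥ z = z := by
    rw [htm', f_symm0 hf huz, f_symm0 hf hvz]; simp
  have huv : f u v = -D := by rw [hDdef, Symp.skew hf]
  set w := D⁻¹ • (b • u - (a - 1) • v) with hw
  have htw : (t : Matrix ι ι F) *ᵥ w = D⁻¹ • ((a - 1) • v + b • u) := by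
    have e1 : f w u = -(a - 1) := by
      rw [hw, smul_left hf, sub_left hf, smul_left hf, smul_left hf, self hf, ← hDdef]; field_simp; ring
    have e2 : f w v = -b := by
      rw [hw, smul_left hf, sub_left hf, smul_left hf, smul_left hf, self hf, huv]; field_simp; ring
    rw [htm', e1, e2, hw]
    have e3 : D⁻¹ • (b • u - (a - 1) • v) + D⁻¹ • (-(a - 1) • ((a - 1) • v + b • u) - -b • ((a - 1) • u + (b * δ) • v)) =
        D⁻¹ • ((-(a - 1) - (a - 1) * (a - 1) + δ * (b * b)) • v + b • u) := by module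
    rw [e3]
    congr 3
    linear_combination (-1 : F) * hab
  have hwz : f w z = 0 := by
    rw [hw, smul_left hf, sub_left hf, smul_left hf, smul_left hf, huz, hvz]; ring
  clear_value w D
  -- `g t g⁻¹ = t * rho z w (b / D)`
  have hrho : rho hf z w (D⁻¹ * b) = t⁻¹ * (g * t * g⁻¹) := by
    rw [eq_inv_mul_iff_mul_eq]
    apply gl_ext
    intro x
    have k1 : ∀ y, f (((g⁻¹ : GL ι F) : Matrix ι ι F) *ᵥ x) y = f x ((g : Matrix ι ι F) *ᵥ y) := by
      intro y
      have := mem_isoGL.1 hg (((g⁻¹ : GL ι F) : Matrix ι ι F) *ᵥ x) y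
      rw [gl_mulVec_inv] at this
      exact this.symm
    rw [gl_mul_mulVec, gl_mul_mulVec, gl_mul_mulVec, rho_mulVec hf hwz, htm' (((g⁻¹ : GL ι F) : Matrix ι ι F) *ᵥ x),
      Matrix.mulVec_add, Matrix.mulVec_add, Matrix.mulVec_add, Matrix.mulVec_smul, Matrix.mulVec_smul, Matrix.mulVec_smul,
      htz, htw, htm' x, Matrix.mulVec_add, gl_mulVec_inv, Matrix.mulVec_smul, Matrix.mulVec_sub, Matrix.mulVec_smul,
      Matrix.mulVec_smul, Matrix.mulVec_add, Matrix.mulVec_add, Matrix.mulVec_smul, Matrix.mulVec_smul,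
      Matrix.mulVec_smul, Matrix.mulVec_smul, k1, k1, hgv, hgu, add_right hf]
    have e1 : f x w = D⁻¹ * (b * f x u - (a - 1) * f x v) := by
      rw [hw, smul_right hf, sub_right hf, smul_right hf, smul_right hf]
    rw [e1]
    module
  have hm1 : rho hf z w (D⁻¹ * b) ∈ M := by
    rw [hrho]
    exact M.mul_mem (M.inv_mem htM) (M.mul_mem (M.mul_mem hgM htM) (M.inv_mem hgM))
  have hm2 := rho_conj_mem hf ht htM hm1
  rw [htz] at hm2
  have hwz' : f ((t : Matrix ι ι F) *ᵥ w) z = 0 := by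
    rw [htw, smul_left hf, add_left hf, smul_left hf, smul_left hf, huz, hvz]; ring
  obtain ⟨d, hd, hdM⟩ := exists_tr_of_rho hf h2 hwz hwz' hm1 hm2 (by
    rw [htw, hw, smul_left hf, smul_right hf, sub_left hf, smul_left hf, smul_left hf, add_right hf, add_right hf,
      smul_right hf, smul_right hf, smul_right hf, smul_right hf, self hf, self hf, huv, ← hDdef]
    have : D⁻¹ * (D⁻¹ * (b * ((a - 1) * -D + b * 0) - (a - 1) * ((a - 1) * 0 + b * D))) = -(2 * (b * (a - 1)) * D⁻¹) := by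
      field_simp; ring
    rw [this]
    exact neg_ne_zero.2 (mul_ne_zero (mul_ne_zero h2 (mul_ne_zero hb ha)) (inv_ne_zero hD)))
  exact ⟨z, d, hz0, hd, hdM⟩

/-- **Main theorem** -/
theorem iso_le_of_two6 [Finite F] (hf : IsSymplecticForm f) (h2 : (2 : F) ≠ 0) (h : Cx f θ δ)
    {θ' : (ι → F) →ₗ[F] (ι → F)}
    (h' : Cx f θ' δ) (hι : 6 ≤ Fintype.card ι) {M : Subgroup (GL ι F)} (hMI : M ≤ isoGL f)
    (hM : ∀ g ∈ isoGL f, (∀ x, (g : Matrix ι ι F) *ᵥ (θ x) = θ ((g : Matrix ι ι F) *ᵥ x)) → g ∈ M)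
    (hM' : ∀ g ∈ isoGL f, (∀ x, (g : Matrix ι ι F) *ᵥ (θ' x) = θ' ((g : Matrix ι ι F) *ᵥ x)) → g ∈ M)
    (hN : ∃ v, ¬ NN θ θ' v) : isoGL f ≤ M := by
  obtain ⟨v, hv, hvN⟩ := exists_good_vec hf h2 h h' (by omega) hN
  obtain ⟨z, d, hz0, hd, hm⟩ := exists_tr6 hf h2 h h' hι hM hM' hv hvN
  have h1 : ∀ x, x ≠ 0 → f x (θ x) = f z (θ z) → tr hf x d ∈ M := by
    intro x hx hq
    obtain ⟨g, hg, hgθ, hgz⟩ := exists_move6 hf h2 h (by omega) hq.symm hz0 hx
    have := M.mul_mem (M.mul_mem (hM g hg hgθ) hm) (M.inv_mem (hM g hg hgθ))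
    rwa [tr_conj hf hg, hgz] at this
  have hall : ∀ y, y ≠ 0 → tr hf y d ∈ M := by
    intro y hy
    have hi1 : θ y ∉ Submodule.span F {y} := by
      intro h0
      obtain ⟨c, hc⟩ := Submodule.mem_span_singleton.1 h0
      have := (h.indep hy (s := c) (t := -1) (by rw [hc]; module)).2
      exact (neg_ne_zero.2 one_ne_zero) this
    have hi2 : y ∉ Submodule.span F {θ y} := by
      intro h0
      obtain ⟨c, hc⟩ := Submodule.mem_span_singleton.1 h0
      have := (h.indep hy (s := -1) (t := c) (by rw [hc]; module)).1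
      exact (neg_ne_zero.2 one_ne_zero) this
    obtain ⟨y₀, hy1, hy2⟩ := exists_two_values hf hi1 hi2 (-1)
      ((f y (θ y) + d * d * f z (θ z) - f z (θ z)) / (2 * d))
    obtain ⟨x', hx', hx'l⟩ := exists_vec2 hf h2 h [y, θ y] (by simp; omega) y₀ (f z (θ z))
    have e1 : f x' y = -1 := by rw [hx'l y (by simp), hy1]
    have e2 : f x' (θ y) = (f y (θ y) + d * d * f z (θ z) - f z (θ z)) / (2 * d) := by
      rw [hx'l _ (by simp), hy2]
    have e3 : f y x' = 1 := by rw [Symp.skew hf, e1, neg_neg]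
    have e4 : f y (θ x') = (f y (θ y) + d * d * f z (θ z) - f z (θ z)) / (2 * d) := by
      rw [h.f_theta_symm hf, e2]
    have hx'0 : x' ≠ 0 := by
      rintro rfl
      rw [zero_left hf] at e1
      exact (neg_ne_zero.2 one_ne_zero) e1.symm
    have hx0 : y - d • x' ≠ 0 := by
      intro h0
      have : f (y - d • x') x' = 0 := by rw [h0, zero_left hf]
      rw [sub_left hf, smul_left hf, self hf, e3] at this
      simp at this
    have hxq : f (y - d • x') (θ (y - d • x')) = f z (θ z) := by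
      rw [map_sub, map_smul, sub_left hf, sub_right hf, sub_right hf, smul_left hf, smul_left hf, smul_right hf,
        smul_right hf, e4, e2, hx']
      field_simp
      ring
    have m1 := h1 _ hx0 hxq
    have m2 := h1 _ hx'0 hx'
    have m3 := M.mul_mem (M.mul_mem m2 m1) (M.inv_mem m2)
    rw [tr_conj hf (tr_mem_iso hf _ _), tr_mulVec, sub_left hf, smul_left hf, self hf, e3, mul_zero, sub_zero, mul_one,
      sub_add_cancel] at m3
    exact m3
  refine iso_le_of_TS hf M fun x => ?_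
  by_cases hx : x = 0
  · rw [hx]; exact TS.zero hf M
  refine TS_of_sq hf h2 hd fun e => ?_
  by_cases he : e = 0
  · rw [he, zero_mul, zero_mul]
    have : tr hf x 0 = 1 := gl_ext fun z => by rw [tr_mulVec]; simp
    rw [this]; exact M.one_mem
  · rw [← tr_smul hf]
    exact hall _ (smul_ne_zero he hx)

/-- **Maximality of `GU_m(q)` type subgroups of `Sp_2m(q)`**, `q` odd. -/
theorem unitary_maximal6 [Finite F] (hf : IsSymplecticForm f) (h2 : (2 : F) ≠ 0) (hι : 6 ≤ Fintype.card ι)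
    (K : Subalgebra F (Matrix ι ι F)) (hK : IsFieldSubalgebra 2 K) (hac : IsAdjointClosedFor f K)
    (hnsa : ¬ IsSelfAdjointFor f K) : IsMaximalIn (isoGL f) (subalgebraNormalizer K ⊓ isoGL f) := by
  obtain ⟨Θ, δ, hΘ, h, hsp⟩ := exists_theta hf h2 hK hac hnsa
  have hex : ∀ v : ι → F, ∃ w, w ∉ Cx.line (Matrix.mulVecLin Θ) v := by
    intro v
    by_contra hcon
    push Not at hcon
    have h3 : Cx.line (Matrix.mulVecLin Θ) v = ⊤ := by
      rw [eq_top_iff]; intro w _; exact hcon w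
    have h4 : Module.finrank F (Cx.line (Matrix.mulVecLin Θ) v) ≤ 2 := by
      have := finrank_span_list_le (K := F) [v, Matrix.mulVecLin Θ v]
      have e : ({x | x ∈ [v, Matrix.mulVecLin Θ v]} : Set (ι → F)) = {v, Matrix.mulVecLin Θ v} := by
        ext x; simp
      rw [e] at this
      exact this
    rw [h3, finrank_top, Module.finrank_fintype_fun_eq_card] at h4
    omega
  constructor
  · refine lt_of_le_of_ne inf_le_right ?_
    intro heq
    -- a transvection normalising `K`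
    obtain ⟨v, hv0⟩ : ∃ v : ι → F, v ≠ 0 := by
      obtain ⟨w, hw⟩ := hex 0
      exact ⟨w, by rintro rfl; exact hw (Submodule.zero_mem _)⟩
    have ht : tr hf v 1 ∈ subalgebraNormalizer K ⊓ isoGL f := by rw [heq]; exact tr_mem_iso hf _ 1
    obtain ⟨a, b, hab⟩ := hsp _ ((ht.1 Θ).1 hΘ)
    -- the action on vectors
    have hact : ∀ x, a • ((tr hf v 1 : Matrix ι ι F) *ᵥ x) + b • (Θ *ᵥ ((tr hf v 1 : Matrix ι ι F) *ᵥ x)) =
        (tr hf v 1 : Matrix ι ι F) *ᵥ (Θ *ᵥ x) := by
      intro x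
      have h3 := congrArg (fun A : Matrix ι ι F => A *ᵥ ((tr hf v 1 : Matrix ι ι F) *ᵥ x)) hab
      rw [Matrix.add_mulVec, Matrix.smul_mulVec, Matrix.smul_mulVec, Matrix.one_mulVec, ← Matrix.mulVec_mulVec,
        ← Matrix.mulVec_mulVec, gl_inv_mulVec] at h3
      exact h3.symm
    simp only [tr_mulVec, one_mul, Matrix.mulVec_add, Matrix.mulVec_smul] at hact
    obtain ⟨x, -, hx0, hxl⟩ := exists_perp_two hf (Y := ⊤) [v, Θ *ᵥ v] (by
      rw [finrank_top, Module.finrank_fintype_fun_eq_card]; simp; omega)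
    have hx1 : f x v = 0 := hxl v (by simp)
    have hx2 : f (Θ *ᵥ x) v = 0 := by
      have := h.skew x v
      rw [Matrix.mulVecLin_apply, Matrix.mulVecLin_apply] at this
      rw [this, hxl _ (by simp), neg_zero]
    have h3 := hact x
    simp only [hx1, hx2, zero_smul, add_zero] at h3
    have h4 := h.indep hx0 (s := a) (t := b - 1) (by rw [Matrix.mulVecLin_apply, sub_smul, ← add_sub_assoc, h3]; simp)
    obtain ⟨z, hz⟩ := exists_ne_zero hf hv0
    have hz' : f z v ≠ 0 := by rw [Symp.skew hf]; exact neg_ne_zero.2 hz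
    have h5 := hact z
    have hb1 : b = 1 := by linear_combination h4.2
    rw [h4.1, hb1, zero_smul, zero_add, one_smul] at h5
    have h6 := h.indep hv0 (s := - f (Θ *ᵥ z) v) (t := f z v) (by
      rw [Matrix.mulVecLin_apply]
      have : f z v • Θ *ᵥ v = f (Θ *ᵥ z) v • v := add_left_cancel h5
      rw [this]; module)
    exact hz' h6.2
  · intro M hHM hMI
    by_cases hMH : M = subalgebraNormalizer K ⊓ isoGL f
    · exact Or.inl hMH
    right
    refine le_antisymm hMI ?_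
    have hM : ∀ g ∈ isoGL f, (∀ x, (g : Matrix ι ι F) *ᵥ (Matrix.mulVecLin Θ x) =
        Matrix.mulVecLin Θ ((g : Matrix ι ι F) *ᵥ x)) → g ∈ M := by
      intro g hg hc
      refine hHM ⟨mem_norm_of_comm hsp ?_, hg⟩
      apply Matrix.ext_of_mulVec_single
      intro i
      rw [← Matrix.mulVec_mulVec, ← Matrix.mulVec_mulVec]
      exact hc _
    obtain ⟨g, hgM, hg⟩ : ∃ g ∈ M, g ∉ subalgebraNormalizer K := by
      by_contra hcon
      push Not at hcon
      exact hMH (le_antisymm (fun g hg => ⟨hcon g hg, hMI hg⟩) hHM)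
    have hgI := hMI hgM
    -- the conjugate structure
    let Θ' : Matrix ι ι F := (g : Matrix ι ι F) * Θ * ((g⁻¹ : GL ι F) : Matrix ι ι F)
    have hΘ' : ∀ x, Θ' *ᵥ x = (g : Matrix ι ι F) *ᵥ (Θ *ᵥ (((g⁻¹ : GL ι F) : Matrix ι ι F) *ᵥ x)) := by
      intro x
      rw [Matrix.mulVec_mulVec, Matrix.mulVec_mulVec]
    have hginv : ∀ x y, f (((g⁻¹ : GL ι F) : Matrix ι ι F) *ᵥ x) y = f x ((g : Matrix ι ι F) *ᵥ y) := by
      intro x y
      have := mem_isoGL.1 hgI (((g⁻¹ : GL ι F) : Matrix ι ι F) *ᵥ x) y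
      rw [gl_mulVec_inv] at this
      exact this.symm
    have hginv' : ∀ x y, f x (((g⁻¹ : GL ι F) : Matrix ι ι F) *ᵥ y) = f ((g : Matrix ι ι F) *ᵥ x) y := by
      intro x y
      rw [Symp.skew hf, hginv, ← Symp.skew hf]
    have h' : Cx f (Matrix.mulVecLin Θ') δ := by
      refine ⟨fun x y => ?_, fun x => ?_, h.ns⟩
      · rw [Matrix.mulVecLin_apply, Matrix.mulVecLin_apply, hΘ', hΘ', ← hginv]
        have h3 := h.skew (((g⁻¹ : GL ι F) : Matrix ι ι F) *ᵥ x) (((g⁻¹ : GL ι F) : Matrix ι ι F) *ᵥ y)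
        rw [Matrix.mulVecLin_apply, Matrix.mulVecLin_apply] at h3
        rw [← h3, hginv']
      · rw [Matrix.mulVecLin_apply, Matrix.mulVecLin_apply, hΘ', hΘ', gl_inv_mulVec]
        have h3 := h.sq (((g⁻¹ : GL ι F) : Matrix ι ι F) *ᵥ x)
        rw [Matrix.mulVecLin_apply, Matrix.mulVecLin_apply] at h3
        rw [h3, Matrix.mulVec_smul, gl_mulVec_inv]
    refine iso_le_of_two6 hf h2 h h' hι hMI hM ?_ ?_
    · intro k hk hkc
      -- conjugate back
      have h3 : g⁻¹ * k * g ∈ M := by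
        refine hM _ ((isoGL f).mul_mem ((isoGL f).mul_mem ((isoGL f).inv_mem hgI) hk) hgI) fun x => ?_
        have h4 := hkc ((g : Matrix ι ι F) *ᵥ x)
        rw [Matrix.mulVecLin_apply, Matrix.mulVecLin_apply, hΘ', hΘ', gl_inv_mulVec] at h4
        rw [gl_mul_mulVec, gl_mul_mulVec, gl_mul_mulVec, gl_mul_mulVec, Matrix.mulVecLin_apply, Matrix.mulVecLin_apply,
          h4, gl_inv_mulVec]
      have h4 := M.mul_mem (M.mul_mem hgM h3) (M.inv_mem hgM)
      have h5 : g * (g⁻¹ * k * g) * g⁻¹ = k := by group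
      rwa [h5] at h4
    · by_contra hcon
      push Not at hcon
      obtain ⟨a, b, hab⟩ := Cx.exists_eq_of_NN h hex hcon
      obtain ⟨v, hv0⟩ : ∃ v : ι → F, v ≠ 0 := by
        obtain ⟨w, hw⟩ := hex 0
        exact ⟨w, by rintro rfl; exact hw (Submodule.zero_mem _)⟩
      have hb : b ≠ 0 := by
        rintro rfl
        have h3 := h'.sq v
        rw [hab v, zero_smul, add_zero, map_smul, hab v, zero_smul, add_zero, smul_smul] at h3
        have h4 : (a * a - δ) • v = 0 := by rw [sub_smul, h3, sub_self]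
        rcases smul_eq_zero.1 h4 with h5 | h5
        · exact h.ns a (by linear_combination h5)
        · exact hv0 h5
      apply hg
      refine mem_norm_of_conj hΘ hsp (a := a) (b := b) hb ?_
      apply Matrix.ext_of_mulVec_single
      intro i
      have h3 := hab (Pi.single i 1)
      rw [Matrix.mulVecLin_apply, Matrix.mulVecLin_apply] at h3
      rw [Matrix.add_mulVec, Matrix.smul_mulVec, Matrix.smul_mulVec, Matrix.one_mulVec]
      exact h3

end Cfsg.Agent.SmallDim.SpU6
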