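import Cfsg.Agent.SmallDim.SubSpEven

/-!
Subfield subgroups of symplectic groups in characteristic two, dimension at least 4.
-/

set_option autoImplicit false
set_option linter.unusedSectionVars false

namespace Cfsg.Agent.SmallDim.SubSp4

open Matrix
open scoped MatrixGroups
open Cfsg.Geo Cfsg.Agent.GeoMax Cfsg.Agent.GeoMax.Symp Cfsg.Agent.SmallDim.SubSpEven

variable {ι : Type} [Fintype ι] [DecidableEq ι] {F : Type*} [Field F]
variable {f : (ι → F) → (ι → F) → F} {F₀ : Subfield F}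

/-- a property of orthogonal independent pairs which is preserved by transvections holds for all such pairs if it
holds for one -/
lemma pair_trans (hf : IsSymplecticForm f) {P : (ι → F) → (ι → F) → Prop}
    (hP : ∀ v w a c, P v w → P ((tr hf a c : Matrix ι ι F) *ᵥ v) ((tr hf a c : Matrix ι ι F) *ᵥ w))
    {v₀ w₀ : ι → F} (hv₀ : v₀ ≠ 0) (hw₀ : w₀ ∉ Submodule.span F {v₀}) (h0 : f w₀ v₀ = 0) (hP0 : P v₀ w₀)
    {v w : ι → F} (hv : v ≠ 0) (hw : w ∉ Submodule.span F {v}) (hwv : f w v = 0) : P v w := by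
  have h1 : ∃ w₁, w₁ ∉ Submodule.span F {v} ∧ f w₁ v = 0 ∧ P v w₁ := by
    refine vec_induction hf (P := fun v => ∃ w₁, w₁ ∉ Submodule.span F {v} ∧ f w₁ v = 0 ∧ P v w₁) hv₀
      ⟨w₀, hw₀, h0, hP0⟩ ?_ v hv
    rintro v a c ⟨w₁, h1, h2, h3⟩
    refine ⟨(tr hf a c : Matrix ι ι F) *ᵥ w₁, ?_, ?_, hP _ _ _ _ h3⟩
    · intro hmem
      apply h1
      obtain ⟨l, hl⟩ := Submodule.mem_span_singleton.1 hmem
      rw [← Matrix.mulVec_smul] at hl
      rw [Submodule.mem_span_singleton]
      exact ⟨l, gl_mulVec_injective _ hl⟩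
    · rw [mem_isoGL.1 (tr_mem_iso hf a c), h2]
  obtain ⟨w₁, hw₁, hw₁v, hPw⟩ := h1
  have hstep : ∀ x y : ι → F, f x v = 0 → f y v = 0 → f x y ≠ 0 → P v x → P v y := by
    intro x y hx hy hxy h
    have h1 := hP v x (y - x) (f x y)⁻¹ h
    rw [tr_move hf hxy, tr_mulVec, sub_right hf, skew hf v y, skew hf v x, hx, hy] at h1
    simpa using h1
  by_cases hne : f w₁ w = 0
  swap
  · exact hstep _ _ hw₁v hwv hne hPw
  have hnot : ∀ y : ι → F, y ∉ Submodule.span F {v} →
      ¬ perp hf (Submodule.span F {v}) ≤ perp hf (Submodule.span F {y}) := by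
    intro y hy hle
    apply hy
    rw [← perp_perp hf (Submodule.span F {v})]
    rw [mem_perp']
    intro x hx
    have := mem_perp'.1 (hle hx) y (Submodule.mem_span_singleton_self y)
    rw [skew hf, this, neg_zero]
  obtain ⟨z, hz, hz1, hz2⟩ := exists_notMem_notMem (hnot w₁ hw₁) (hnot w hw)
  have hzv := mem_perp'.1 hz v (Submodule.mem_span_singleton_self v)
  have hmem : ∀ y : ι → F, f z y = 0 → z ∈ perp hf (Submodule.span F {y}) := by
    intro y hy
    rw [mem_perp']
    intro x hx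
    obtain ⟨l, rfl⟩ := Submodule.mem_span_singleton.1 hx
    rw [smul_right hf, hy, mul_zero]
  have h1 : f w₁ z ≠ 0 := by
    intro h
    exact hz1 (hmem _ (by rw [skew hf, h, neg_zero]))
  have h2 : f z w ≠ 0 := fun h => hz2 (hmem _ h)
  exact hstep _ _ hzv hwv h2 (hstep _ _ hw₁v hzv h1 hPw)

lemma emb_tr (hf : IsSymplecticForm f) (hF : Rational F₀ f) (a v : ι → F₀) (c : F₀) :
    emb F₀ ((tr (f0_symp hf hF) a c : Matrix ι ι F₀) *ᵥ v) = (tr hf (emb F₀ a) (c : F) : Matrix ι ι F) *ᵥ emb F₀ v := by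
  rw [tr_mulVec, tr_mulVec, emb_add, emb_smul]
  rfl

/-- orthogonal independent rational pairs -/
def OP (f : (ι → F) → (ι → F) → F) (F₀ : Subfield F) (v w : ι → F₀) : Prop :=
  v ≠ 0 ∧ w ∉ Submodule.span F₀ {v} ∧ f (emb F₀ w) (emb F₀ v) = 0

lemma OP.symm (hf : IsSymplecticForm f) {v w : ι → F₀} (h : OP f F₀ v w) : OP f F₀ w v := by
  obtain ⟨h1, h2, h3⟩ := h
  refine ⟨?_, ?_, f_symm_zero hf h3⟩
  · rintro rfl; exact h2 (Submodule.zero_mem _)
  · intro hmem
    obtain ⟨l, hl⟩ := Submodule.mem_span_singleton.1 hmem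
    have hl0 : l ≠ 0 := by rintro rfl; rw [zero_smul] at hl; exact h1 hl.symm
    apply h2
    rw [Submodule.mem_span_singleton]
    exact ⟨l⁻¹, by rw [← hl, smul_smul, inv_mul_cancel₀ hl0, one_smul]⟩

lemma OP.add_left (hf : IsSymplecticForm f) {v w : ι → F₀} (h : OP f F₀ v w) : OP f F₀ (v + w) w := by
  apply OP.symm hf
  have h' := h.symm hf
  refine ⟨h'.1, ?_, ?_⟩
  · intro hmem
    exact h'.2.1 (by simpa using Submodule.sub_mem _ hmem (Submodule.mem_span_singleton_self w))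
  · rw [emb_add, Symp.add_left hf, h'.2.2, self hf, add_zero]

lemma OP.smul_right (hf : IsSymplecticForm f) {v w : ι → F₀} (h : OP f F₀ v w) {l : F₀} (hl : l ≠ 0) :
    OP f F₀ v (l • w) := by
  refine ⟨h.1, ?_, ?_⟩
  · intro hmem
    apply h.2.1
    have := Submodule.smul_mem _ l⁻¹ hmem
    rwa [smul_smul, inv_mul_cancel₀ hl, one_smul] at this
  · rw [emb_smul, Symp.smul_left hf, h.2.2, mul_zero]

/-- the elements `β (v w) + γ v²` for all pairs -/
def AllR (hf : IsSymplecticForm f) (F₀ : Subfield F) (M : Subgroup (GL ι F)) (β γ : F) : Prop :=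
  ∀ v w : ι → F₀, OP f F₀ v w → rho hf (emb F₀ v) (β • emb F₀ w) γ ∈ M

variable {hf : IsSymplecticForm f} {M : Subgroup (GL ι F)}

lemma allR_of_one (hF : Rational F₀ f) (hR : RatTr hf F₀ M) {β γ : F} {v w : ι → F₀}
    (h : OP f F₀ v w) (h1 : rho hf (emb F₀ v) (β • emb F₀ w) γ ∈ M) : AllR hf F₀ M β γ := by
  intro v' w' h'
  refine pair_trans (f0_symp hf hF) (P := fun v w => rho hf (emb F₀ v) (β • emb F₀ w) γ ∈ M) ?_ h.1 h.2.1
    (f0_eq_zero.2 h.2.2) h1 h'.1 h'.2.1 (f0_eq_zero.2 h'.2.2)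
  intro x y a c hxy
  rw [emb_tr hf, emb_tr hf, ← Matrix.mulVec_smul, ← rho_conj hf (tr_mem_iso hf _ _)]
  exact M.mul_mem (M.mul_mem (hR a c) hxy) (M.inv_mem (hR a c))

lemma tr_of_one (hF : Rational F₀ f) (hR : RatTr hf F₀ M) {c : F} {v : ι → F₀}
    (h : v ≠ 0) (h1 : tr hf (emb F₀ v) c ∈ M) (w : ι → F₀) : tr hf (emb F₀ w) c ∈ M := by
  by_cases hw : w = 0
  · rw [hw, emb_zero]; exact TS.zero hf M c
  refine vec_induction (f0_symp hf hF) (P := fun w => tr hf (emb F₀ w) c ∈ M) h h1 ?_ w hw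
  intro x a d hx
  rw [emb_tr hf, ← tr_conj hf (tr_mem_iso hf _ _)]
  exact M.mul_mem (M.mul_mem (hR a d) hx) (M.inv_mem (hR a d))

lemma rho_zero_left (y : ι → F) (c : F) : rho hf 0 y c = 1 := by
  apply gl_ext
  intro x
  rw [rho_mulVec hf (zero_right hf y), zero_right hf]
  simp

lemma mem_D_iff (h2 : (2 : F) = 0) {β : F} : β ∈ Dset hf F₀ M ↔ AllR hf F₀ M β 0 := by
  constructor
  · intro h v w hvw
    exact h v w hvw.2.2
  · intro h v w hvw
    by_cases hv : v = 0
    · rw [hv, emb_zero, rho_zero_left]; exact M.one_mem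
    by_cases hw : w ∈ Submodule.span F₀ {v}
    · obtain ⟨l, rfl⟩ := Submodule.mem_span_singleton.1 hw
      have : rho hf (emb F₀ v) (β • emb F₀ (l • v)) 0 = 1 := by
        apply gl_ext
        intro x
        rw [rho_mulVec hf (by rw [smul_left hf, hvw, mul_zero]), emb_smul, smul_right hf, smul_right hf,
          Units.val_one, Matrix.one_mulVec]
        have e : x + f x (emb F₀ v) • β • (l : F) • emb F₀ v + (β * ((l : F) * f x (emb F₀ v))) • emb F₀ v +
          (0 * f x (emb F₀ v)) • emb F₀ v = x + (2 : F) • ((β * ((l : F) * f x (emb F₀ v))) • emb F₀ v) := by module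
        rw [e, h2, zero_smul, add_zero]
      rw [this]; exact M.one_mem
    · exact h v w ⟨hv, hw, hvw⟩

lemma allR_add {β γ β' γ' : F} (h : AllR hf F₀ M β γ) (h' : AllR hf F₀ M β' γ') : AllR hf F₀ M (β + β') (γ + γ') := by
  intro v w hvw
  have h1 := M.mul_mem (h v w hvw) (h' v w hvw)
  rw [rho_mul hf (by rw [smul_left hf, hvw.2.2, mul_zero]) (by rw [smul_left hf, hvw.2.2, mul_zero]),
    smul_left hf, smul_right hf, self hf, mul_zero, mul_zero, add_zero, ← add_smul] at h1
  exact h1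

lemma allR_smul {β γ : F} (h : AllR hf F₀ M β γ) {l : F₀} (hl : l ≠ 0) : AllR hf F₀ M (β * l) γ := by
  intro v w hvw
  have h1 := h v (l • w) (hvw.smul_right hf hl)
  rwa [emb_smul, smul_smul] at h1

lemma swap_eq (h2 : (2 : F) = 0) {v w : ι → F} (h : f w v = 0) (β γ : F) :
    rho hf (v + w) (β • w) γ * rho hf v (β • w) γ = rho hf w (γ • v) γ := by
  have h' : f v w = 0 := by rw [skew hf, h, neg_zero]
  have h3 : f (β • w) v = 0 := by rw [smul_left hf, h, mul_zero]
  have h4 : f (β • w) (v + w) = 0 := by rw [smul_left hf, add_right hf, h, self hf, add_zero, mul_zero]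
  have h5 : f (γ • v) w = 0 := by rw [smul_left hf, h', mul_zero]
  apply gl_ext
  intro x
  rw [gl_mul_mulVec, rho_mulVec hf h3, rho_mulVec hf h4, rho_mulVec hf h5]
  simp only [Symp.add_left hf, add_right hf, smul_left hf, Symp.smul_right hf, self hf, h, h']
  linear_combination (norm := module) h2 • ((β * f x v) • w + (β * f x w) • w + (β * f x w) • v + (γ * f x v) • v)

lemma allR_swap (h2 : (2 : F) = 0) {β γ : F} (h : AllR hf F₀ M β γ) : AllR hf F₀ M γ γ := by
  intro v w hvw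
  have hwv := hvw.symm hf
  have h1 := h (w + v) v (hwv.add_left hf)
  have h3 := h w v hwv
  rw [emb_add] at h1
  rw [← swap_eq h2 hwv.2.2 β γ]
  exact M.mul_mem h1 h3

lemma allR_sum_mem_D (h2 : (2 : F) = 0) {β γ : F} (h : AllR hf F₀ M β γ) : β + γ ∈ Dset hf F₀ M := by
  rw [mem_D_iff h2]
  have h1 := allR_add h (allR_swap h2 h)
  have h3 : γ + γ = 0 := by linear_combination γ * h2
  rwa [h3] at h1

/-- coefficients of transvections -/
def Tset (hf : IsSymplecticForm f) (F₀ : Subfield F) (M : Subgroup (GL ι F)) : Set F :=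
  {c | ∀ v : ι → F₀, tr hf (emb F₀ v) c ∈ M}

lemma T_le_D (h2 : (2 : F) = 0) {c : F} (hc : c ∈ Tset hf F₀ M) : c ∈ Dset hf F₀ M := by
  rw [mem_D_iff h2]
  intro v w hvw
  have h := hvw.2.2
  have h' : f (emb F₀ v) (emb F₀ w) = 0 := f_symm_zero hf h
  have e : rho hf (emb F₀ v) (c • emb F₀ w) 0 =
      tr hf (emb F₀ (v + w)) c * (tr hf (emb F₀ v) c)⁻¹ * (tr hf (emb F₀ w) c)⁻¹ := by
    apply gl_ext
    intro x
    rw [gl_mul_mulVec, gl_mul_mulVec, tr_inv, tr_inv, tr_mulVec, tr_mulVec, tr_mulVec, emb_add,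
      rho_mulVec hf (by rw [smul_left hf, h, mul_zero])]
    simp only [Symp.add_left hf, add_right hf, smul_left hf, Symp.smul_right hf, self hf, h, h']
    module
  rw [e]
  exact M.mul_mem (M.mul_mem (hc _) (M.inv_mem (hc _))) (M.inv_mem (hc _))

lemma sq_mem_T (hF : Rational F₀ f) (hι : 2 < Fintype.card ι) (hM : M ≤ isoGL f) (hR : RatTr hf F₀ M)
    {d : F} (hD : d ∈ Dset hf F₀ M) : d * d ∈ Tset hf F₀ M := by
  intro v
  by_cases hv : v = 0
  · rw [hv, emb_zero]; exact TS.zero hf M _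
  obtain ⟨w, w', hww, hw, hw'⟩ := exists_hyp_rat hf hF [v] (by simp; omega)
  have hvw := hw v (by simp)
  have hvw' := hw' v (by simp)
  have hB : rho hf (emb F₀ v) (d • emb F₀ w') 0 ∈ M := hD v w' (f_symm_zero hf hvw')
  have h1 := M.mul_mem (M.mul_mem hB (hR w 1)) (M.inv_mem hB)
  rw [tr_conj hf (hM hB), rho_mulVec hf (by rw [smul_left hf, f_symm_zero hf hvw', mul_zero]), Symp.smul_right hf,
    f_symm_zero hf hvw, hww] at h1
  have h2 := hD w v hvw
  have h3 := hR w (0 - 1)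
  have h4 := M.mul_mem (M.mul_mem h2 (M.inv_mem h3)) (M.inv_mem h1)
  have e : rho hf (emb F₀ w) (d • emb F₀ v) 0 * (tr hf (emb F₀ w) ((0 - 1 : F₀) : F))⁻¹ *
      (tr hf (emb F₀ w + (0 : F) • d • emb F₀ w' + (d * 1) • emb F₀ v + (0 * 0 : F) • emb F₀ v) ((1 : F₀) : F))⁻¹
      = tr hf (d • emb F₀ v) (-1) := by
    unfold rho
    have e1 : emb F₀ w + (0 : F) • d • emb F₀ w' + (d * 1) • emb F₀ v + (0 * 0 : F) • emb F₀ v =
      emb F₀ w + d • emb F₀ v := by module
    rw [e1]
    push_cast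
    group
  rw [e] at h4
  have h5 := M.inv_mem h4
  rw [tr_inv, tr_smul, neg_neg, mul_one] at h5
  exact h5

lemma D_eq_T [Finite F] (hF : Rational F₀ f) (h2 : (2 : F) = 0) (hι : 2 < Fintype.card ι) (hM : M ≤ isoGL f)
    (hR : RatTr hf F₀ M) : Tset hf F₀ M = Dset hf F₀ M := by
  have hinj : Function.Injective (fun d : F => d * d) := by
    intro a b hab
    have h1 : (a - b) * (a - b) = 0 := by
      have : a * a = b * b := hab
      linear_combination this + (b * b - a * b) * h2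
    exact sub_eq_zero.1 (mul_self_eq_zero.1 h1)
  refine Set.eq_of_subset_of_ncard_le (fun c hc => T_le_D h2 hc) ?_ (Set.toFinite _)
  rw [← Set.ncard_image_of_injective _ hinj]
  refine Set.ncard_le_ncard ?_ (Set.toFinite _)
  rintro _ ⟨d, hd, rfl⟩
  exact sq_mem_T hF hι hM hR hd

/-- the commutator of a long root element and a short root element -/
lemma allR_of_T_D (hF : Rational F₀ f) (hM : M ≤ isoGL f) {t u : F} (ht : t ∈ Tset hf F₀ M)
    (hu : u ∈ Dset hf F₀ M) : AllR hf F₀ M (t * u) (t * u * u) := by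
  intro v w hvw
  obtain ⟨w', hw', hww'⟩ := exists_sep_rat hf hF hvw.2.1
  have h1 := hw' v (Submodule.mem_span_singleton_self v)
  have h1' := f_symm_zero hf h1
  have h := hvw.2.2
  have h' : f (emb F₀ v) (emb F₀ w) = 0 := f_symm_zero hf h
  have hX := hu v w' h1'
  have h3 := M.mul_mem (M.mul_mem hX (ht w)) (M.inv_mem hX)
  rw [tr_conj hf (hM hX), rho_mulVec hf (by rw [smul_left hf, h1', mul_zero]), h, Symp.smul_right hf, hww'] at h3
  have e : emb F₀ w + (0 : F) • u • emb F₀ w' + (u * 1) • emb F₀ v + (0 * 0 : F) • emb F₀ v =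
    emb F₀ w + u • emb F₀ v := by module
  rw [e] at h3
  have h4 := M.mul_mem h3 (M.inv_mem (ht w))
  have e2 : tr hf (emb F₀ w + u • emb F₀ v) t * (tr hf (emb F₀ w) t)⁻¹ =
      rho hf (emb F₀ v) ((t * u) • emb F₀ w) (t * u * u) := by
    apply gl_ext
    intro x
    rw [gl_mul_mulVec, tr_inv, tr_mulVec, tr_mulVec, rho_mulVec hf (by rw [smul_left hf, h, mul_zero])]
    simp only [Symp.add_left hf, add_right hf, smul_left hf, Symp.smul_right hf, self hf, h]
    module
  rwa [e2] at h4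

lemma D_smul {d : F} (hd : d ∈ Dset hf F₀ M) (l : F₀) : (l : F) * d ∈ Dset hf F₀ M := by
  intro v w hvw
  have h1 := hd v (l • w) (by rw [emb_smul, smul_left hf, hvw, mul_zero])
  rwa [emb_smul, smul_smul, mul_comm] at h1

/-- the multiplier ring of `D` -/
def Ralg (hf : IsSymplecticForm f) (F₀ : Subfield F) (M : Subgroup (GL ι F)) : Subalgebra F₀ F where
  carrier := {x | ∀ d ∈ Dset hf F₀ M, x * d ∈ Dset hf F₀ M}
  mul_mem' := fun ha hb d hd => by rw [mul_assoc]; exact ha _ (hb _ hd)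
  add_mem' := fun ha hb d hd => by rw [add_mul]; exact D_add (ha _ hd) (hb _ hd)
  algebraMap_mem' := fun c d hd => D_smul hd c

lemma mem_Ralg {x : F} : x ∈ Ralg hf F₀ M ↔ ∀ d ∈ Dset hf F₀ M, x * d ∈ Dset hf F₀ M := Iff.rfl

theorem D_cases4 [Fintype F] (hF : Rational F₀ f) (h2 : (2 : F) = 0) (hι : 2 < Fintype.card ι) (hM : M ≤ isoGL f)
    (hR : RatTr hf F₀ M) {r : ℕ} (hr : r.Prime) (hfin : Module.finrank F₀ F = r) :
    (∀ c, c ∈ Dset hf F₀ M) ∨ (∀ c ∈ Dset hf F₀ M, c ∈ F₀) := by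
  have hTD := D_eq_T hF h2 hι hM hR
  have hs := Subalgebra.isSimpleOrder_of_finrank_prime F₀ F (by rw [hfin]; exact hr)
  have h1D : (1 : F) ∈ Dset hf F₀ M := by simpa using D_rat hR 1
  have hkey : ∀ u ∈ Dset hf F₀ M, u + u * u ∈ Ralg hf F₀ M := by
    intro u hu t ht
    have h1 := allR_sum_mem_D h2 (allR_of_T_D hF hM (by rw [hTD]; exact ht) hu)
    have e : (u + u * u) * t = t * u + t * u * u := by ring
    rwa [e]
  rcases eq_bot_or_eq_top (Ralg hf F₀ M) with h | h
  · by_cases hall : ∀ c ∈ Dset hf F₀ M, c ∈ F₀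
    · exact Or.inr hall
    left
    push Not at hall
    obtain ⟨u, huD, hu⟩ := hall
    have hs1 := hkey u huD
    rw [h, Algebra.mem_bot] at hs1
    obtain ⟨s, hs2⟩ := hs1
    have hs3 : u + u * u = (s : F) := hs2.symm
    have huu : u * u = (s : F) + u := by linear_combination hs3 - u * h2
    let S : Subalgebra F₀ F :=
      { carrier := {x | ∃ a b : F₀, x = (a : F) + (b : F) * u}
        mul_mem' := by
          rintro _ _ ⟨a, b, rfl⟩ ⟨c, d, rfl⟩
          refine ⟨a * c + b * d * s, a * d + b * c + b * d, ?_⟩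
          push_cast
          linear_combination ((b : F) * d) * huu
        add_mem' := by
          rintro _ _ ⟨a, b, rfl⟩ ⟨c, d, rfl⟩
          exact ⟨a + c, b + d, by push_cast; ring⟩
        algebraMap_mem' := fun c => ⟨c, 0, by
          change (c : F) = _
          push_cast; ring⟩ }
    have hS : S = ⊤ := by
      rcases eq_bot_or_eq_top S with h1 | h1
      · exfalso
        have hmem : u ∈ S := ⟨0, 1, by push_cast; ring⟩
        rw [h1, Algebra.mem_bot] at hmem
        obtain ⟨a, ha⟩ := hmem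
        apply hu
        rw [← ha]; exact a.2
      · exact h1
    intro c
    have hc : c ∈ S := by rw [hS]; trivial
    obtain ⟨a, b, rfl⟩ := hc
    exact D_add (D_rat hR a) (D_smul huD b)
  · left
    intro c
    have hc : c ∈ Ralg hf F₀ M := by rw [h]; trivial
    simpa using hc 1 h1D

lemma allR_rat (hR : RatTr hf F₀ M) (β γ : F₀) : AllR hf F₀ M β γ := by
  intro v w _
  have := hR.rho v (β • w) γ
  rwa [emb_smul] at this

lemma comm_eq (h2 : (2 : F) = 0) {v w : ι → F} (h : f w v = 0) (c : F) :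
    rho hf (w + c • v) (c • v) c * (rho hf w (c • v) c)⁻¹ = rho hf v ((c * c) • w) (c * c * c) := by
  have h' : f v w = 0 := by rw [skew hf, h, neg_zero]
  have h3 : f (c • v) (w + c • v) = 0 := by
    rw [smul_left hf, add_right hf, Symp.smul_right hf, h', self hf]; ring
  have h4 : f (c • v) w = 0 := by rw [smul_left hf, h', mul_zero]
  have h5 : f ((c * c) • w) v = 0 := by rw [smul_left hf, h, mul_zero]
  apply gl_ext
  intro x
  rw [rho_inv hf h4, gl_mul_mulVec, rho_mulVec hf h3, rho_mulVec hf h5, rho_mulVec hf (by rw [neg_left hf, h4, neg_zero])]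
  simp only [Symp.add_left hf, add_right hf, smul_left hf, neg_left hf, neg_right hf, Symp.smul_right hf, self hf, h, h']
  linear_combination (norm := module) h2 • ((c * c * f x v) • v)

lemma P_mem (hF : Rational F₀ f) (h2 : (2 : F) = 0) (hM : M ≤ isoGL f)
    (hR : RatTr hf F₀ M) (hD : ∀ c ∈ Dset hf F₀ M, c ∈ F₀) {c : F} (h : AllR hf F₀ M c (c * c)) : c ∈ F₀ := by
  by_cases hl : ∃ l : F₀, l ≠ 0 ∧ l ≠ 1
  · obtain ⟨l, hl0, hl1⟩ := hl
    have h1 := allR_add h (allR_smul h hl0)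
    have h3 : c * c + c * c = 0 := by linear_combination (c * c) * h2
    rw [h3, ← mem_D_iff h2] at h1
    have h4 := hD _ h1
    have h5 : (1 + l : F₀) ≠ 0 := by
      intro h6
      apply hl1
      apply Subtype.ext
      have h7 := congrArg (fun x : F₀ => (x : F)) h6
      push_cast at h7 ⊢
      linear_combination h7 - h2
    have h6 : c = (c + c * l) / ((1 + l : F₀) : F) := by
      rw [eq_div_iff (by exact_mod_cast h5)]; push_cast; ring
    rw [h6]
    exact F₀.div_mem h4 (SetLike.coe_mem _)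
  push Not at hl
  have hF₀ : ∀ x ∈ F₀, x = 0 ∨ x = 1 := by
    intro x hx
    by_cases h0 : x = 0
    · exact Or.inl h0
    right
    have := hl ⟨x, hx⟩ (by intro h; apply h0; exact congrArg (fun y : F₀ => (y : F)) h)
    exact congrArg (fun y : F₀ => (y : F)) this
  have h1 := hD _ (allR_sum_mem_D h2 h)
  rcases hF₀ _ h1 with h3 | h3
  · have h4 : c * (c - 1) = 0 := by linear_combination h3 - c * h2
    rcases mul_eq_zero.1 h4 with h5 | h5
    · rw [h5]; exact F₀.zero_mem
    · rw [sub_eq_zero.1 h5]; exact F₀.one_mem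
  · have hcc : c * c + 1 = c := by linear_combination h3 + (1 - c) * h2
    have hccc : c * c * c = 1 := by linear_combination (c - 1) * h3 + (c - 1) * h2
    have ha := allR_add (allR_swap h2 h) (allR_rat hR 1 1)
    push_cast at ha
    rw [hcc] at ha
    -- the commutator
    have hb : AllR hf F₀ M (c * c) (c * c * c) := by
      intro v w hvw
      obtain ⟨w', hw', hww'⟩ := exists_sep_rat hf hF hvw.2.1
      have h1 := hw' v (Submodule.mem_span_singleton_self v)
      have h1' := f_symm_zero hf h1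
      have h := hvw.2.2
      have hOP : OP f F₀ v w' := by
        refine ⟨hvw.1, ?_, h1'⟩
        intro hmem
        obtain ⟨l, rfl⟩ := Submodule.mem_span_singleton.1 hmem
        rw [emb_smul, Symp.smul_right hf, h, mul_zero] at hww'
        exact zero_ne_one hww'
      have hY := ha v w' hOP
      have hZ := ha w v (hvw.symm hf)
      have h3 := M.mul_mem (M.mul_mem hY hZ) (M.inv_mem hY)
      have hY0 : f (c • emb F₀ w') (emb F₀ v) = 0 := by rw [smul_left hf, h1', mul_zero]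
      rw [rho_conj hf (hM hY), Matrix.mulVec_smul, rho_mulVec hf hY0, rho_mulVec hf hY0, h, self hf,
        Symp.smul_right hf, Symp.smul_right hf, hww', h1] at h3
      have e1 : emb F₀ w + (0 : F) • c • emb F₀ w' + (c * 1) • emb F₀ v + (c * 0) • emb F₀ v =
        emb F₀ w + c • emb F₀ v := by module
      have e2 : c • (emb F₀ v + (0 : F) • c • emb F₀ w' + (c * 0) • emb F₀ v + (c * 0) • emb F₀ v) =
        c • emb F₀ v := by module
      rw [e1, e2] at h3
      rw [← comm_eq h2 h c]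
      exact M.mul_mem h3 (M.inv_mem hZ)
    have hc := allR_add hb (allR_rat hR 0 1)
    push_cast at hc
    have e : c * c * c + 1 = 0 := by linear_combination hccc + h2
    rw [add_zero, e, ← mem_D_iff h2] at hc
    rw [← hcc]
    exact F₀.add_mem (hD _ hc) F₀.one_mem

lemma mem_of_sq_even [Finite F] (h2 : (2 : F) = 0) {l : F} (hl : l * l ∈ F₀) : l ∈ F₀ := by
  have hinj : Function.Injective (fun d : F₀ => d * d) := by
    intro a b hab
    apply Subtype.ext
    have hab' : (a : F) * a = b * b := congrArg (fun y : F₀ => (y : F)) hab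
    have h1 : ((a : F) - b) * (a - b) = 0 := by
      linear_combination hab' + ((b : F) * b - a * b) * h2
    exact sub_eq_zero.1 (mul_self_eq_zero.1 h1)
  obtain ⟨y, hy⟩ := (Finite.injective_iff_surjective.1 hinj) ⟨l * l, hl⟩
  have hy' : (y : F) * y = l * l := congrArg (fun y : F₀ => (y : F)) hy
  have h1 : (l - y) * (l - y) = 0 := by
    linear_combination -hy' + ((y : F) * y - l * y) * h2
  rw [sub_eq_zero.1 (mul_self_eq_zero.1 h1)]
  exact y.2

lemma rational_of_perp [Finite F] (hF : Rational F₀ f) (h2 : (2 : F) = 0) (hM : M ≤ isoGL f)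
    (hR : RatTr hf F₀ M) (hD : ∀ c ∈ Dset hf F₀ M, c ∈ F₀) {u : ι → F} (hu : tr hf u 1 ∈ M) {v : ι → F₀} (hv : v ≠ 0)
    (huv : f u (emb F₀ v) = 0) : ∃ u₀ : ι → F₀, u = emb F₀ u₀ := by
  -- values on the orthogonal complement of `v`
  have hμ : ∀ w : ι → F₀, f (emb F₀ w) (emb F₀ v) = 0 → f u (emb F₀ w) ∈ F₀ := by
    intro w hw
    by_cases hwv : w ∈ Submodule.span F₀ {v}
    · obtain ⟨l, rfl⟩ := Submodule.mem_span_singleton.1 hwv
      rw [emb_smul, Symp.smul_right hf, huv, mul_zero]; exact F₀.zero_mem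
    have hs := hR.rho v w 0
    have h1 := M.mul_mem (M.mul_mem hs hu) (M.inv_mem hs)
    rw [tr_conj hf (hM hs), rho_mulVec hf hw, huv] at h1
    have h2' : rho hf (f u (emb F₀ w) • emb F₀ v) u 1 ∈ M := by
      unfold rho
      have e1 : tr hf u (-1) = (tr hf u 1)⁻¹ := (tr_inv hf u 1).symm
      rw [e1, sub_self, tr_zero, mul_one]
      have e2 : f u (emb F₀ w) • emb F₀ v + u = u + (0 : F) • emb F₀ w + f u (emb F₀ w) • emb F₀ v +
        (((0 : F₀) : F) * 0) • emb F₀ v := by push_cast; module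
      rw [e2]
      exact M.mul_mem (M.inv_mem hu) h1
    rw [rho_smul_left hf huv] at h2'
    have ht := hR w 1
    have h3 := M.mul_mem (M.mul_mem ht h2') (M.inv_mem ht)
    rw [rho_conj hf (hM ht), tr_mulVec, f_symm_zero hf hw, tr_mulVec, smul_left hf] at h3
    have e3 : emb F₀ v + (((1 : F₀) : F) * 0) • emb F₀ w = emb F₀ v := by module
    rw [e3] at h3
    set μ := f u (emb F₀ w) with hμdef
    have h4 := M.mul_mem h3 (M.inv_mem h2')
    rw [rho_inv hf (by rw [smul_left hf, huv, mul_zero]), rho_mul hf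
      (by rw [Symp.add_left hf, smul_left hf, smul_left hf, huv, hw]; ring)
      (by rw [neg_left hf, smul_left hf, huv]; ring)] at h4
    have e4 : μ • u + (((1 : F₀) : F) * (μ * μ)) • emb F₀ w + -(μ • u) = (μ * μ) • emb F₀ w := by
      push_cast; module
    have e5 : μ * μ * 1 + -(μ * μ * 1) + f (-(μ • u)) (μ • u + (((1 : F₀) : F) * (μ * μ)) • emb F₀ w) =
        (μ * μ) * (μ * μ) := by
      rw [neg_left hf, smul_left hf, add_right hf, Symp.smul_right hf, Symp.smul_right hf, self hf, ← hμdef]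
      push_cast
      linear_combination (-(μ * μ) * (μ * μ)) * h2
    rw [e4, e5] at h4
    exact mem_of_sq_even h2 (P_mem hF h2 hM hR hD (allR_of_one hF hR ⟨hv, hwv, hw⟩ h4))
  -- remove the component in the direction of `v`
  obtain ⟨v', -, hvv'⟩ := exists_sep_rat hf hF (W := ⊥) (x := v) (by simpa using hv)
  obtain ⟨u₀, hu₀⟩ := exists_emb hf hF (u := u - f u (emb F₀ v') • emb F₀ v) (fun x => by
    set a := f0 hF v x with ha
    have ha' : (a : F) = f (emb F₀ v) (emb F₀ x) := rfl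
    have h1 : f (emb F₀ (x - a • v')) (emb F₀ v) = 0 := by
      rw [skew hf, emb_sub, emb_smul, sub_right hf, Symp.smul_right hf, hvv', ha']; ring
    have h3 := hμ _ h1
    rw [emb_sub, emb_smul, sub_right hf, Symp.smul_right hf, ha'] at h3
    rw [Symp.sub_left hf, smul_left hf]
    convert h3 using 1
    ring)
  set s := f u (emb F₀ v') with hs
  have hu' : u = emb F₀ u₀ + s • emb F₀ v := by rw [← hu₀]; abel
  have hu₀v : f (emb F₀ u₀) (emb F₀ v) = 0 := by
    have := huv
    rwa [hu', Symp.add_left hf, smul_left hf, self hf, mul_zero, add_zero] at this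
  have hfin : s ∈ F₀ := by
    by_cases hmem : u₀ ∈ Submodule.span F₀ {v}
    · obtain ⟨l, rfl⟩ := Submodule.mem_span_singleton.1 hmem
      have h3 : u = ((l : F) + s) • emb F₀ v := by rw [hu', emb_smul]; module
      rw [h3, tr_smul, mul_one] at hu
      have h4 : ((l : F) + s) * (l + s) ∈ Tset hf F₀ M := fun w => tr_of_one hF hR hv hu w
      have h5 := mem_of_sq_even h2 (hD _ (T_le_D h2 h4))
      have h6 := F₀.sub_mem h5 l.2
      rwa [add_sub_cancel_left] at h6
    · refine P_mem hF h2 hM hR hD (allR_of_one hF hR ⟨hv, hmem, hu₀v⟩ ?_)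
      have h3 := hR u₀ 1
      have h4 := M.mul_mem hu (M.inv_mem h3)
      have hvu₀ : f (emb F₀ v) (emb F₀ u₀) = 0 := f_symm_zero hf hu₀v
      have e : tr hf u 1 * (tr hf (emb F₀ u₀) ((1 : F₀) : F))⁻¹ = rho hf (emb F₀ v) (s • emb F₀ u₀) (s * s) := by
        have h5 : f (s • emb F₀ u₀) (emb F₀ v) = 0 := by rw [smul_left hf, hu₀v, mul_zero]
        apply gl_ext
        intro x
        rw [gl_mul_mulVec, tr_inv, tr_mulVec, tr_mulVec, rho_mulVec hf h5, hu']
        push_cast
        simp only [Symp.add_left hf, add_right hf, smul_left hf, Symp.smul_right hf, self hf, hu₀v]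
        module
      rwa [e] at h4
  refine ⟨u₀ + (⟨s, hfin⟩ : F₀) • v, ?_⟩
  rw [emb_add, emb_smul, hu']

lemma gen4 [Finite F] (hF : Rational F₀ f) (h2 : (2 : F) = 0) (hι : 2 < Fintype.card ι) (hM : M ≤ isoGL f)
    (hR : RatTr hf F₀ M) (hD : ∀ c ∈ Dset hf F₀ M, c ∈ F₀) : Gen f F₀ M := by
  intro g hg hgN x v hx hv hxv
  have : Nonempty ι := Fintype.card_pos_iff.1 (by omega)
  apply hgN
  have htr : ∀ y : ι → F₀, tr hf ((g : Matrix ι ι F) *ᵥ emb F₀ y) 1 ∈ M := by
    intro y
    rw [← tr_conj hf (hM hg)]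
    have := hR y 1
    push_cast at this
    exact M.mul_mem (M.mul_mem hg this) (M.inv_mem hg)
  have hA : ∀ y v' : ι → F₀, v' ≠ 0 → f ((g : Matrix ι ι F) *ᵥ emb F₀ y) (emb F₀ v') = 0 →
      ∃ u₀ : ι → F₀, (g : Matrix ι ι F) *ᵥ emb F₀ y = emb F₀ u₀ :=
    fun y v' hv' h => rational_of_perp hF h2 hM hR hD (htr y) hv' h
  have hB : ∀ z : ι → F₀, z ≠ 0 → (∃ u₀ : ι → F₀, (g : Matrix ι ι F) *ᵥ emb F₀ z = emb F₀ u₀) →
      ∀ y : ι → F₀, f (emb F₀ y) (emb F₀ z) = 0 →
      ∃ u₀ : ι → F₀, (g : Matrix ι ι F) *ᵥ emb F₀ y = emb F₀ u₀ := by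
    rintro z hz ⟨z₁, hz₁⟩ y hyz
    have hz₁0 : z₁ ≠ 0 := by
      rintro rfl
      rw [emb_zero] at hz₁
      apply hz
      rw [← emb_eq_zero]
      exact gl_mulVec_injective g (by simpa using hz₁)
    refine hA y z₁ hz₁0 ?_
    have h1 := mem_isoGL.1 (hM hg) (emb F₀ y) (emb F₀ z)
    rw [hyz, hz₁] at h1
    exact h1
  refine ⟨1, one_ne_zero, fun y => ?_⟩
  obtain ⟨z, hz, hzp⟩ := exists_perp_rat hf hF [x, y] [] (by simp; omega)
  have hz0 : z ≠ 0 := by rintro rfl; exact hz (Submodule.zero_mem _)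
  obtain ⟨y₁, hy₁⟩ := hB z hz0 (hB x hx (hA x v hv hxv) z (hzp x (by simp))) y (f_symm_zero hf (hzp y (by simp)))
  exact ⟨y₁, by rw [hy₁, one_smul]⟩

theorem iso_le_of_T_all (hT : ∀ v : ι → F₀, TS hf M (emb F₀ v)) : isoGL f ≤ M := by
  refine iso_le_of_TS hf M fun v => ?_
  have : ∀ s : Finset ι, TS hf M (∑ i ∈ s, v i • Pi.single i (1 : F)) := by
    intro s
    induction s using Finset.induction_on with
    | empty => simpa using TS.zero hf M
    | insert i s hi ih =>
      rw [Finset.sum_insert hi, add_comm, ← emb_single (F₀ := F₀) i]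
      exact TS_add_rat hT ih _ _
  have h := this Finset.univ
  have e : ∑ i, v i • Pi.single i (1 : F) = v := by
    ext j
    simp [Finset.sum_apply, Pi.single_apply]
  rwa [e] at h

/-- a subgroup containing the rational transvections is everything or normalises the rational structure -/
theorem main4 [Fintype F] (hF : Rational F₀ f) (h2 : (2 : F) = 0) (hι : 2 < Fintype.card ι) (hM : M ≤ isoGL f)
    (hR : RatTr hf F₀ M) {r : ℕ} (hr : r.Prime) (hfin : Module.finrank F₀ F = r) :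
    isoGL f ≤ M ∨ ∀ g ∈ M, NormV F₀ g := by
  rcases D_cases4 hF h2 hι hM hR hr hfin with hD | hD
  · left
    apply iso_le_of_T_all (F₀ := F₀)
    intro v c
    have hc : c ∈ Tset hf F₀ M := by rw [D_eq_T hF h2 hι hM hR]; exact hD c
    exact hc v
  · right
    intro g hg
    exact le_normV_even hF h2 hι hM hR (gen4 hF h2 hι hM hR hD) hr hfin hg

end Cfsg.Agent.SmallDim.SubSp4
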