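import Cfsg.Agent.SmallDim.SubSp

/-!
Subfield subgroups of symplectic groups in characteristic two: the generic case.
-/

set_option autoImplicit false
set_option linter.unusedSectionVars false

namespace Cfsg.Agent.SmallDim.SubSpEven

open Matrix
open scoped MatrixGroups
open Cfsg.Geo Cfsg.Agent.GeoMax Cfsg.Agent.GeoMax.Symp

variable {ι : Type} [Fintype ι] [DecidableEq ι] {F : Type*} [Field F]
variable {f : (ι → F) → (ι → F) → F} {F₀ : Subfield F}

/-- images of rational vectors are in general position -/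
def Gen (f : (ι → F) → (ι → F) → F) (F₀ : Subfield F) (M : Subgroup (GL ι F)) : Prop :=
  ∀ g ∈ M, ¬ NormV F₀ g → ∀ x v : ι → F₀, x ≠ 0 → v ≠ 0 →
    f ((g : Matrix ι ι F) *ᵥ emb F₀ x) (emb F₀ v) ≠ 0

lemma eq_one_of_fix {hf : IsSymplecticForm f} {M : Subgroup (GL ι F)} (hG : Gen f F₀ M) {g : GL ι F} (hg : g ∈ M)
    (hgN : ¬ NormV F₀ g) {x : GL ι F} (hx : x ∈ isoGL f)
    {v₀ : ι → F₀} (hv₀ : v₀ ≠ 0) (hxv : (x : Matrix ι ι F) *ᵥ emb F₀ v₀ = emb F₀ v₀) (hr : RatM F₀ (g⁻¹ * x * g)) :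
    x = 1 := by
  have h1 : ∀ y : ι → F₀, (x : Matrix ι ι F) *ᵥ ((g : Matrix ι ι F) *ᵥ emb F₀ y) = (g : Matrix ι ι F) *ᵥ emb F₀ y := by
    intro y
    obtain ⟨y₁, hy₁⟩ := hr y
    rw [gl_mul_mulVec, gl_mul_mulVec] at hy₁
    have h2 : (x : Matrix ι ι F) *ᵥ ((g : Matrix ι ι F) *ᵥ emb F₀ y) = (g : Matrix ι ι F) *ᵥ emb F₀ y₁ := by
      rw [← hy₁, gl_mulVec_inv]
    rw [h2]
    have h3 : f ((g : Matrix ι ι F) *ᵥ emb F₀ (y₁ - y)) (emb F₀ v₀) = 0 := by
      rw [emb_sub, Matrix.mulVec_sub, sub_left hf, ← h2]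
      nth_rw 1 [← hxv]
      rw [mem_isoGL.1 hx, sub_self]
    have h4 : y₁ - y = 0 := by
      by_contra hne
      exact hG g hg hgN _ _ hne hv₀ h3
    rw [sub_eq_zero.1 h4]
  have h5 : x * g = g := by
    apply Units.ext
    apply Matrix.ext_of_mulVec_single
    intro i
    rw [gl_mul_mulVec, ← emb_single (F₀ := F₀)]
    exact h1 _
  exact mul_eq_right.1 h5

lemma card_le_finrank [Finite F] [Nonempty ι] {hf : IsSymplecticForm f} {M : Subgroup (GL ι F)} (hG : Gen f F₀ M)
    {g : GL ι F} (hg : g ∈ M) (hgN : ¬ NormV F₀ g) :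
    Fintype.card ι ≤ Module.finrank F₀ F := by
  obtain ⟨i⟩ := ‹Nonempty ι›
  set y₀ : ι → F₀ := Pi.single i 1 with hy₀
  have hy₀0 : y₀ ≠ 0 := by
    intro h
    have := congrFun h i
    simp [hy₀] at this
  let φ : (ι → F₀) →ₗ[F₀] F :=
    { toFun := fun w => f ((g : Matrix ι ι F) *ᵥ emb F₀ y₀) (emb F₀ w)
      map_add' := fun a b => by rw [emb_add, add_right hf]
      map_smul' := fun c a => by rw [emb_smul, smul_right hf]; rfl }
  have hinj : Function.Injective φ := by
    rw [injective_iff_map_eq_zero]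
    intro a ha
    by_contra hne
    exact hG g hg hgN _ _ hy₀0 hne ha
  have := LinearMap.finrank_le_finrank_of_injective hinj
  rwa [Module.finrank_fintype_fun_eq_card] at this

/-- a rational involution in characteristic two has a rational fixed vector -/
lemma exists_fixed_rat (h2 : (2 : F) = 0) {z : GL ι F} (hzR : RatM F₀ z) (hzs : z * z = 1) (hz1 : z ≠ 1) :
    ∃ w : ι → F₀, w ≠ 0 ∧ (z : Matrix ι ι F) *ᵥ emb F₀ w = emb F₀ w := by
  have hneg : ∀ x : ι → F, -x = x := by
    intro x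
    have : -x + (2 : F) • x = x := by module
    rwa [h2, zero_smul, add_zero] at this
  by_contra hcon
  push Not at hcon
  apply hz1
  apply Units.ext
  apply Matrix.ext_of_mulVec_single
  intro i
  obtain ⟨y₁, hy₁⟩ := hzR (Pi.single i 1)
  by_contra hne2
  have h1 : y₁ + Pi.single i 1 ≠ 0 := by
    intro h
    apply hne2
    rw [← emb_single (F₀ := F₀), hy₁, eq_neg_of_add_eq_zero_left h, emb_neg, hneg, Units.val_one, Matrix.one_mulVec]
  apply hcon _ h1
  rw [emb_add, Matrix.mulVec_add, ← hy₁, ← gl_mul_mulVec, hzs, Units.val_one, Matrix.one_mulVec, add_comm]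

/-- a hyperbolic pair orthogonal to a given one -/
lemma exists_hyp_rat2 (hf : IsSymplecticForm f) (hF : Rational F₀ f) (hι : 2 < Fintype.card ι) {e e' : ι → F₀}
    (h : f (emb F₀ e) (emb F₀ e') = 1) :
    ∃ p p' : ι → F₀, f (emb F₀ p) (emb F₀ p') = 1 ∧ f (emb F₀ e) (emb F₀ p) = 0 ∧ f (emb F₀ e') (emb F₀ p) = 0 ∧
      f (emb F₀ e) (emb F₀ p') = 0 ∧ f (emb F₀ e') (emb F₀ p') = 0 := by
  obtain ⟨p, hp, hpp⟩ := exists_perp_rat hf hF [e, e'] [] (by simpa using hι)
  have hp0 : p ≠ 0 := by rintro rfl; exact hp (Submodule.zero_mem _)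
  have h1 := hpp e (by simp)
  have h2 := hpp e' (by simp)
  have hpW : p ∉ Submodule.span F₀ {e, e'} := by
    intro hmem
    obtain ⟨a, b, hab⟩ := Submodule.mem_span_pair.1 hmem
    have hab' : emb F₀ p = (a : F) • emb F₀ e + (b : F) • emb F₀ e' := by
      rw [← hab, emb_add, emb_smul, emb_smul]
    have h3 : f (emb F₀ e') (emb F₀ e) = -1 := by rw [skew hf, h]
    rw [hab', add_left hf, smul_left hf, smul_left hf, self hf, h3] at h1
    rw [hab', add_left hf, smul_left hf, smul_left hf, self hf, h] at h2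
    have ha : (a : F) = 0 := by linear_combination h2
    have hb : (b : F) = 0 := by linear_combination -h1
    apply hp0
    rw [← emb_eq_zero, hab', ha, hb]; simp
  obtain ⟨p', hp', hpp'⟩ := exists_sep_rat hf hF hpW
  exact ⟨p, p', hpp', f_symm_zero hf h1, f_symm_zero hf h2, hp' e (Submodule.subset_span (by simp)),
    hp' e' (Submodule.subset_span (by simp))⟩

/-- main theorem in the case of the small coefficient ring -/
theorem le_normV_even [Finite F] {hf : IsSymplecticForm f} (hF : Rational F₀ f) (h2 : (2 : F) = 0)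
    (hι : 2 < Fintype.card ι)
    {M : Subgroup (GL ι F)} (hM : M ≤ isoGL f) (hR : RatTr hf F₀ M) (hG : Gen f F₀ M)
    {r : ℕ} (hr : r.Prime) (hfin : Module.finrank F₀ F = r) {g : GL ι F} (hg : g ∈ M) : NormV F₀ g := by
  by_contra hgN
  have hne : Nonempty ι := Fintype.card_pos_iff.1 (by omega)
  have hrι := card_le_finrank (hf := hf) hG hg hgN
  have hsq : ∀ l : F, l * l ∈ F₀ → l ∈ F₀ := fun l => mem_of_sq_mem hr (by omega) hfin
  obtain ⟨e1, e1', h11, -, -⟩ := exists_hyp_rat hf hF [] (by simp; omega)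
  obtain ⟨e2, e2', h22, p1, p2, p3, p4⟩ := exists_hyp_rat2 hf hF hι h11
  obtain ⟨x1, hx1M, hx1I, hx1R, hx1s, hx1n, hx1d, hx1f⟩ := exists_invol hF hR h11
  obtain ⟨x2, hx2M, hx2I, hx2R, hx2s, hx2n, hx2d, hx2f⟩ := exists_invol hF hR h22
  -- the two involutions commute
  have hx12 : ∀ y : ι → F, (x1 : Matrix ι ι F) *ᵥ ((x2 : Matrix ι ι F) *ᵥ y) =
      (x1 : Matrix ι ι F) *ᵥ y + ((x2 : Matrix ι ι F) *ᵥ y - y) := by
    intro y
    obtain ⟨a, b, hab⟩ := hx2d y
    rw [hab, Matrix.mulVec_add, Matrix.mulVec_add, Matrix.mulVec_smul, Matrix.mulVec_smul,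
      hx1f _ (f_symm_zero hf p1) (f_symm_zero hf p2), hx1f _ (f_symm_zero hf p3) (f_symm_zero hf p4)]
    abel
  have hx21 : ∀ y : ι → F, (x2 : Matrix ι ι F) *ᵥ ((x1 : Matrix ι ι F) *ᵥ y) =
      (x1 : Matrix ι ι F) *ᵥ y + ((x2 : Matrix ι ι F) *ᵥ y - y) := by
    intro y
    obtain ⟨a, b, hab⟩ := hx1d y
    rw [hab, Matrix.mulVec_add, Matrix.mulVec_add, Matrix.mulVec_smul, Matrix.mulVec_smul, hx2f _ p1 p3,
      hx2f _ p2 p4]
    abel
  have hcomm : x1 * x2 = x2 * x1 := gl_ext fun y => by rw [gl_mul_mulVec, gl_mul_mulVec, hx12, hx21]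
  set y0 := x1 * x2 with hy0
  have hy0s : y0 * y0 = 1 := by
    calc y0 * y0 = x1 * x2 * (x2 * x1) := by rw [hy0, ← hcomm]
      _ = x1 * (x2 * x2) * x1 := by group
      _ = 1 := by rw [hx2s, mul_one, hx1s]
  have hy0M : y0 ∈ M := M.mul_mem hx1M hx2M
  have hy0R : RatM F₀ y0 := hx1R.mul hx2R
  -- not conjugate
  have hnc : ∀ b : GL ι F, y0 * b ≠ b * x1 := by
    intro b hb
    set R1 := LinearMap.range (Matrix.mulVecLin (x1 : Matrix ι ι F) - (LinearMap.id : (ι → F) →ₗ[F] (ι → F))) with hR1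
    set R0 := LinearMap.range (Matrix.mulVecLin (y0 : Matrix ι ι F) - (LinearMap.id : (ι → F) →ₗ[F] (ι → F))) with hR0
    have hbinj : Function.Injective (Matrix.mulVecLin (b : Matrix ι ι F)) := gl_mulVec_injective b
    have hle : Module.finrank F R0 ≤ Module.finrank F R1 := by
      rw [(Submodule.equivMapOfInjective _ hbinj R1).finrank_eq]
      apply Submodule.finrank_mono
      rintro _ ⟨y, rfl⟩
      rw [rangeSub]
      refine ⟨(x1 : Matrix ι ι F) *ᵥ (((b⁻¹ : GL ι F) : Matrix ι ι F) *ᵥ y) - ((b⁻¹ : GL ι F) : Matrix ι ι F) *ᵥ y,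
        ⟨_, rfl⟩, ?_⟩
      change (b : Matrix ι ι F) *ᵥ _ = _
      rw [Matrix.mulVec_sub, ← gl_mul_mulVec b x1, ← hb, gl_mul_mulVec, gl_mulVec_inv]
    have hlt : R1 < R0 := by
      rw [SetLike.lt_iff_le_and_exists]
      constructor
      · rintro _ ⟨y, rfl⟩
        rw [rangeSub]
        set y' := y - f y (emb F₀ e2') • emb F₀ e2 + f y (emb F₀ e2) • emb F₀ e2' with hy'
        have q1 : f y' (emb F₀ e2) = 0 := by
          rw [hy', add_left hf, sub_left hf, smul_left hf, smul_left hf, self hf, skew hf (emb F₀ e2'), h22]; ring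
        have q2 : f y' (emb F₀ e2') = 0 := by
          rw [hy', add_left hf, sub_left hf, smul_left hf, smul_left hf, self hf, h22]; ring
        have q3 : (x1 : Matrix ι ι F) *ᵥ y' - y' = (x1 : Matrix ι ι F) *ᵥ y - y := by
          rw [hy', Matrix.mulVec_add, Matrix.mulVec_sub, Matrix.mulVec_smul, Matrix.mulVec_smul,
            hx1f _ (f_symm_zero hf p1) (f_symm_zero hf p2), hx1f _ (f_symm_zero hf p3) (f_symm_zero hf p4)]
          abel
        refine ⟨y', ?_⟩
        rw [rangeSub, hy0, gl_mul_mulVec, hx2f _ q1 q2, q3]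
      · obtain ⟨y, hy⟩ : ∃ y : ι → F, (x2 : Matrix ι ι F) *ᵥ y ≠ y := by
          by_contra hcon
          push Not at hcon
          exact hx2n (gl_ext fun y => by rw [hcon, Units.val_one, Matrix.one_mulVec])
        set y' := y - f y (emb F₀ e1') • emb F₀ e1 + f y (emb F₀ e1) • emb F₀ e1' with hy'
        have q1 : f y' (emb F₀ e1) = 0 := by
          rw [hy', add_left hf, sub_left hf, smul_left hf, smul_left hf, self hf, skew hf (emb F₀ e1'), h11]; ring
        have q2 : f y' (emb F₀ e1') = 0 := by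
          rw [hy', add_left hf, sub_left hf, smul_left hf, smul_left hf, self hf, h11]; ring
        have q3 : (x2 : Matrix ι ι F) *ᵥ y' - y' = (x2 : Matrix ι ι F) *ᵥ y - y := by
          rw [hy', Matrix.mulVec_add, Matrix.mulVec_sub, Matrix.mulVec_smul, Matrix.mulVec_smul, hx2f _ p1 p3,
            hx2f _ p2 p4]
          abel
        have hmem : (x2 : Matrix ι ι F) *ᵥ y - y ∈ R0 := by
          refine ⟨y', ?_⟩
          rw [rangeSub, hcomm, gl_mul_mulVec, hx1f _ q1 q2, q3]
        refine ⟨_, hmem, ?_⟩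
        rintro ⟨t, ht⟩
        rw [rangeSub] at ht
        obtain ⟨a, b', hab⟩ := hx1d t
        obtain ⟨c, d, hcd⟩ := hx2d y
        rw [hab, hcd] at ht
        have ht' : a • emb F₀ e1 + b' • emb F₀ e1' = c • emb F₀ e2 + d • emb F₀ e2' := by
          have := ht
          rw [add_assoc, add_sub_cancel_left, add_assoc, add_sub_cancel_left] at this
          exact this
        have s1 := congrArg (fun v => f v (emb F₀ e1)) ht'
        have s2 := congrArg (fun v => f v (emb F₀ e1')) ht'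
        simp only [add_left hf, smul_left hf, self hf, h11, f_symm_zero hf p1, f_symm_zero hf p2, f_symm_zero hf p3,
          f_symm_zero hf p4, skew hf (emb F₀ e1') (emb F₀ e1)] at s1 s2
        have hb0 : b' = 0 := by linear_combination -s1
        have ha0 : a = 0 := by linear_combination s2
        apply hy
        rw [hcd, add_assoc, ← ht', ha0, hb0]
        simp
    have := Submodule.finrank_lt_finrank_of_lt hlt
    omega
  have hy0n : y0 ≠ 1 := by
    intro h
    have h1 : x2 = x1⁻¹ := (eq_inv_of_mul_eq_one_right h)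
    have h2 : x2 = x1 := by rw [h1]; exact inv_eq_of_mul_eq_one_left hx1s
    apply hx2n
    apply gl_ext
    intro y
    rw [Units.val_one, Matrix.one_mulVec]
    -- `x2 y - y` lies in both planes
    obtain ⟨c, d, hcd⟩ := hx2d y
    have h3 := hx2d y
    obtain ⟨a, b, hab⟩ := hx1d y
    rw [h2, hab] at hcd
    have ht' : a • emb F₀ e1 + b • emb F₀ e1' = c • emb F₀ e2 + d • emb F₀ e2' := by
      rw [add_assoc, add_assoc] at hcd
      exact add_left_cancel hcd
    have s1 := congrArg (fun v => f v (emb F₀ e1)) ht'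
    have s2 := congrArg (fun v => f v (emb F₀ e1')) ht'
    simp only [add_left hf, smul_left hf, self hf, h11, f_symm_zero hf p1, f_symm_zero hf p2, f_symm_zero hf p3,
      f_symm_zero hf p4, skew hf (emb F₀ e1') (emb F₀ e1)] at s1 s2
    have hb0 : b = 0 := by linear_combination -s1
    have ha0 : a = 0 := by linear_combination s2
    rw [h2, hab, ha0, hb0]; simp
  -- the dihedral group
  set y1 := g * y0 * g⁻¹ with hy1
  have hy1s : y1 * y1 = 1 := by
    rw [hy1]
    have : g * y0 * g⁻¹ * (g * y0 * g⁻¹) = g * (y0 * y0) * g⁻¹ := by group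
    rw [this, hy0s]; group
  have hy1M : y1 ∈ M := M.mul_mem (M.mul_mem hg hy0M) (M.inv_mem hg)
  set n := orderOf (x1 * y1) with hn
  have : Finite (GL ι F) := inferInstance
  have hn0 : 0 < n := orderOf_pos _
  have hpow : (x1 * y1) ^ n = 1 := pow_orderOf_eq_one _
  rcases Nat.even_or_odd' n with ⟨k, hk | hk⟩
  swap
  · rw [hk] at hpow
    have h1 := conj_of_odd hx1s hy1s hpow
    set d := (x1 * y1) ^ k
    apply hnc (g⁻¹ * d)
    have h2 : y0 = g⁻¹ * (d * x1 * d⁻¹) * g := by rw [h1, hy1]; group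
    rw [h2]; group
  · rw [hk] at hpow
    obtain ⟨hzx, hzy⟩ := comm_of_even hx1s hy1s hpow
    set z := (x1 * y1) ^ k with hz
    have hk0 : k ≠ 0 := by omega
    have hz1 : z ≠ 1 := by
      intro h
      have := orderOf_dvd_of_pow_eq_one h
      rw [← hn] at this
      have := Nat.le_of_dvd (by omega) this
      omega
    have hzs : z * z = 1 := by rw [hz, ← pow_add, ← two_mul]; exact hpow
    have hzM : z ∈ M := M.pow_mem (M.mul_mem hx1M hy1M) k
    -- `z` normalises the rational structure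
    have hzN : NormV F₀ z := by
      by_contra hcon
      obtain ⟨v₀, hv₀, hfix⟩ := exists_fixed_rat h2 hx1R hx1s hx1n
      apply hx1n
      refine eq_one_of_fix (hf := hf) hG hzM hcon hx1I hv₀ hfix ?_
      have : z⁻¹ * x1 * z = x1 := by rw [mul_assoc, ← hzx]; group
      rw [this]; exact hx1R
    have hz' : (g⁻¹ * z * g) * y0 = y0 * (g⁻¹ * z * g) := by
      have h1 : y0 = g⁻¹ * y1 * g := by rw [hy1]; group
      rw [h1]
      have h2 : g⁻¹ * z * g * (g⁻¹ * y1 * g) = g⁻¹ * (z * y1) * g := by group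
      have h3 : g⁻¹ * y1 * g * (g⁻¹ * z * g) = g⁻¹ * (y1 * z) * g := by group
      rw [h2, h3, hzy]
    have hz'M : g⁻¹ * z * g ∈ M := M.mul_mem (M.mul_mem (M.inv_mem hg) hzM) hg
    have hz'N : NormV F₀ (g⁻¹ * z * g) := by
      by_contra hcon
      obtain ⟨v, hv0, hfix⟩ := exists_fixed_rat h2 hy0R hy0s hy0n
      apply hy0n
      refine eq_one_of_fix (hf := hf) hG hz'M hcon (hM hy0M) (v₀ := v) hv0 hfix ?_
      have : (g⁻¹ * z * g)⁻¹ * y0 * (g⁻¹ * z * g) = y0 := by
        rw [mul_assoc, ← hz', ← mul_assoc, inv_mul_cancel, one_mul]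
      rw [this]; exact hy0R
    have hzR := normV_ratM hsq hzN hzs
    have hz's : (g⁻¹ * z * g) * (g⁻¹ * z * g) = 1 := by
      have : (g⁻¹ * z * g) * (g⁻¹ * z * g) = g⁻¹ * (z * z) * g := by group
      rw [this, hzs]; group
    have hz'R := normV_ratM hsq hz'N hz's
    obtain ⟨w, hw0, hzw⟩ := exists_fixed_rat h2 hzR hzs hz1
    exact hz1 (eq_one_of_fix (hf := hf) hG hg hgN (hM hzM) hw0 hzw hz'R)

end Cfsg.Agent.SmallDim.SubSpEven
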