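import Cfsg.Agent.SmallDim.SubSp4Max
import Cfsg.Agent.H98.DickRoot

/-!
Subfield subgroups of symplectic groups of dimension at least 6 in odd characteristic, using Dickson's theorem
for the group generated by two rational root groups.
-/

set_option autoImplicit false
set_option linter.unusedSectionVars false

namespace Cfsg.Agent.SmallDim.SubSpOdd

open Matrix
open scoped MatrixGroups
open Cfsg.Geo Cfsg.Agent.GeoMax Cfsg.Agent.GeoMax.Symp Cfsg.Agent.SmallDim.SubSp Cfsg.Agent.H81

variable {ι : Type} [Fintype ι] [DecidableEq ι] {F : Type*} [Field F]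
variable {f : (ι → F) → (ι → F) → F} {F₀ : Subfield F}

/-- the action of `SL₂` on a hyperbolic plane -/
def L2 (hf : IsSymplecticForm f) (e e' : ι → F) (g : SpecialLinearGroup (Fin 2) F) : (ι → F) →ₗ[F] (ι → F) where
  toFun := fun x => x + ((g.1 0 0 - 1) * f x e' - g.1 0 1 * f x e) • e +
    (g.1 1 0 * f x e' - (g.1 1 1 - 1) * f x e) • e'
  map_add' := fun x y => by simp only [Symp.add_left hf]; module
  map_smul' := fun c x => by simp only [smul_left hf, RingHom.id_apply]; module

lemma L2_apply (hf : IsSymplecticForm f) (e e' : ι → F) (g : SpecialLinearGroup (Fin 2) F) (x : ι → F) :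
    L2 hf e e' g x = x + ((g.1 0 0 - 1) * f x e' - g.1 0 1 * f x e) • e +
      (g.1 1 0 * f x e' - (g.1 1 1 - 1) * f x e) • e' := rfl

lemma L2_mul (hf : IsSymplecticForm f) {e e' : ι → F} (h : f e e' = 1) (g g' : SpecialLinearGroup (Fin 2) F)
    (x : ι → F) : L2 hf e e' (g * g') x = L2 hf e e' g (L2 hf e e' g' x) := by
  have h' : f e' e = -1 := by rw [skew hf, h]
  simp only [L2_apply, Symp.add_left hf, smul_left hf, self hf, h, h', slMul_val, Matrix.mul_apply, Fin.sum_univ_two]
  module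

/-- `SL₂` acting on a hyperbolic plane, as a homomorphism -/
def phi (hf : IsSymplecticForm f) {e e' : ι → F} (h : f e e' = 1) : SpecialLinearGroup (Fin 2) F →* GL ι F :=
  MonoidHom.toHomUnits
    { toFun := fun g => LinearMap.toMatrix' (L2 hf e e' g)
      map_one' := by
        apply Matrix.ext_of_mulVec_single
        intro i
        rw [LinearMap.toMatrix'_mulVec, L2_apply, Matrix.one_mulVec]
        simp
      map_mul' := fun g g' => by
        apply Matrix.ext_of_mulVec_single
        intro i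
        rw [← Matrix.mulVec_mulVec, LinearMap.toMatrix'_mulVec, LinearMap.toMatrix'_mulVec,
          LinearMap.toMatrix'_mulVec, L2_mul hf h] }

lemma phi_mulVec (hf : IsSymplecticForm f) {e e' : ι → F} (h : f e e' = 1) (g : SpecialLinearGroup (Fin 2) F)
    (x : ι → F) : (phi hf h g : Matrix ι ι F) *ᵥ x = L2 hf e e' g x := by
  change LinearMap.toMatrix' (L2 hf e e' g) *ᵥ x = _
  rw [LinearMap.toMatrix'_mulVec]

lemma phi_xx (hf : IsSymplecticForm f) {e e' : ι → F} (h : f e e' = 1) (a : F) :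
    phi hf h (xx a) = tr hf e (-a) := by
  apply gl_ext
  intro x
  rw [phi_mulVec, L2_apply, tr_mulVec, xx_val]
  simp

lemma phi_yy (hf : IsSymplecticForm f) {e e' : ι → F} (h : f e e' = 1) (a : F) :
    phi hf h (yy a) = tr hf e' a := by
  apply gl_ext
  intro x
  rw [phi_mulVec, L2_apply, tr_mulVec, yy_val]
  simp

/-- the inner products of a rational vector and an image of a rational vector -/
lemma inner_mem [Finite F] {hf : IsSymplecticForm f} (hF : Rational F₀ f) (h2 : (2 : F) ≠ 0)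
    {M : Subgroup (GL ι F)} (hR : RatTr hf F₀ M) {r : ℕ} (hr : r.Prime) (hr2 : 2 < r)
    (hfin : Module.finrank F₀ F = r) (hall : ¬ isoGL f ≤ M) {v : ι → F₀} (hv : v ≠ 0) {u : ι → F}
    (hu : ∀ b ∈ F₀, tr hf u b ∈ M) : f (emb F₀ v) u ∈ F₀ := by
  set s := f (emb F₀ v) u with hs
  by_cases hs0 : s = 0
  · rw [hs0]; exact F₀.zero_mem
  obtain ⟨p, hp⟩ := CharP.exists F
  have hpp : Fact p.Prime := ⟨CharP.char_is_prime F p⟩
  have hp2 : p ≠ 2 := by
    rintro rfl
    exact h2 (by exact_mod_cast CharP.cast_eq_zero F 2)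
  -- the hyperbolic pair
  have hee : f (emb F₀ v) (s⁻¹ • u) = 1 := by rw [Symp.smul_right hf, ← hs, inv_mul_cancel₀ hs0]
  set H := M.comap (phi hf hee) with hH
  have hxx : ∀ a : F, xx a ∈ H ↔ tr hf (emb F₀ v) (-a) ∈ M := by
    intro a; rw [hH, Subgroup.mem_comap, phi_xx]
  have hyy : ∀ b : F, yy (s * s * b) ∈ H ↔ tr hf u b ∈ M := by
    intro b
    rw [hH, Subgroup.mem_comap, phi_yy, tr_smul]
    have : s⁻¹ * s⁻¹ * (s * s * b) = b := by field_simp
    rw [this]
  have hx1 : xx (1 : F) ∈ H := by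
    rw [hxx]
    have := hR v (-1)
    push_cast at this
    exact this
  have hyb : yy (s * s) ∈ H := by
    have := (hyy 1).2 (hu 1 F₀.one_mem)
    rwa [mul_one] at this
  have key : s * s ∈ F₀ := by
    rcases Cfsg.Agent.H98.DickRoot.dick_sub p hp2 H (mul_ne_zero hs0 hs0) hx1 hyb with ⟨K, hbK, hKx, -⟩ | ⟨-, hb, -⟩
    · -- `K` is `F₀` or `F`
      have hFK : ∀ a ∈ F₀, a ∈ K := by
        intro a ha
        rw [← hKx, hxx]
        have := hR v (-⟨a, ha⟩)
        push_cast at this
        exact this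
      have hsimple := Subalgebra.isSimpleOrder_of_finrank_prime F₀ F (by rw [hfin]; exact hr)
      let S : Subalgebra F₀ F :=
        { carrier := K
          mul_mem' := fun ha hb => K.mul_mem ha hb
          add_mem' := fun ha hb => K.add_mem ha hb
          algebraMap_mem' := fun c => hFK c c.2 }
      rcases eq_bot_or_eq_top S with h | h
      · have hmem : s * s ∈ S := hbK
        rw [h, Algebra.mem_bot] at hmem
        obtain ⟨a, ha⟩ := hmem
        rw [← ha]; exact a.2
      · exfalso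
        apply hall
        apply Cfsg.Agent.SmallDim.SubSp4.iso_le_of_T_all (F₀ := F₀)
        intro w c
        have hc : -c ∈ S := by rw [h]; trivial
        have hc' : -c ∈ K := hc
        rw [← hKx, hxx, neg_neg] at hc'
        exact Cfsg.Agent.SmallDim.SubSp4.tr_of_one hF hR hv hc' w
    · refine mem_of_sq_mem hr hr2 hfin ?_
      have : s * s * (s * s) = -1 := by rw [← hb]; ring
      rw [this]
      exact F₀.neg_mem F₀.one_mem
  exact mem_of_sq_mem hr hr2 hfin key

theorem main6 [Fintype F] {hf : IsSymplecticForm f} (hF : Rational F₀ f) (h2 : (2 : F) ≠ 0) (hι : 5 < Fintype.card ι)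
    {M : Subgroup (GL ι F)} (hM : M ≤ isoGL f)
    (hR : RatTr hf F₀ M) {r : ℕ} (hr : r.Prime) (hcard : Fintype.card F = Nat.card F₀ ^ r) :
    isoGL f ≤ M ∨ ∀ g ∈ M, NormV F₀ g := by
  by_cases hall : isoGL f ≤ M
  · exact Or.inl hall
  right
  intro g hg
  by_contra hgN
  have hne : Nonempty ι := Fintype.card_pos_iff.1 (by omega)
  have hfin := finrank_eq_of_card hcard
  rcases D_cases hF (by omega) hM hR hr hcard with hD | hD
  · exact hall (iso_le_of_D_all hF (by omega) hM hR hD)
  have hrι := card_le_finrank hF hι hM hR hD hg hgN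
  apply hgN
  refine ⟨1, one_ne_zero, fun y => ?_⟩
  obtain ⟨u₀, hu₀⟩ := exists_emb hf hF (u := (g : Matrix ι ι F) *ᵥ emb F₀ y) (fun v => by
    by_cases hv : v = 0
    · rw [hv, emb_zero, zero_right hf]; exact F₀.zero_mem
    rw [skew hf]
    refine F₀.neg_mem (inner_mem hF h2 hR hr (by omega) hfin hall hv ?_)
    intro b hb
    rw [← tr_conj hf (hM hg)]
    exact M.mul_mem (M.mul_mem hg (hR y ⟨b, hb⟩)) (M.inv_mem hg))
  exact ⟨u₀, by rw [hu₀, one_smul]⟩

/-- subfield subgroups are maximal in `Sp_2m(q)`, `m ≥ 3` -/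
theorem subfield_maximal6 {F : Type*} [Field F] [Fintype F] (m : ℕ) (hm : 3 ≤ m)
    (F₀ : Subfield F) (r : ℕ) (hr : r.Prime)
    (hcard : Fintype.card F = Nat.card F₀ ^ r) (P : Matrix.GeneralLinearGroup (Fin m ⊕ Fin m) F) (ζ : F) (hζ : ζ ≠ 0)
    (hP : Cfsg.Geo.IsFormRationalStructure (Cfsg.sympForm m F) F₀ ζ P) :
    Cfsg.Geo.IsMaximalIn (Cfsg.spGL m F) (Cfsg.Geo.subfieldSubgroup F₀ P ⊓ Cfsg.spGL m F) := by
  by_cases h2 : (2 : F) = 0
  · exact Cfsg.Agent.SmallDim.SubSp4.subfield_maximal_even h2 m (by omega) F₀ r hr hcard P ζ hζ hP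
  · exact Cfsg.Agent.SmallDim.SubSp4.subfield_maximal_of m (by omega) F₀ r hr (fun f hf hF M hM hR =>
      main6 hF h2 (by simp; omega) hM hR hr hcard) hcard P ζ hζ hP

end Cfsg.Agent.SmallDim.SubSpOdd
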