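import Cfsg.Agent.SmallDim.TenC

set_option autoImplicit false
set_option linter.unusedSectionVars false
set_option linter.unusedVariables false

/-!
Groups acting on `W × W`, `W` orthogonal of dimension three: the unipotent elements over `W × 0`
are scalar, or there are transvections.
-/

namespace Cfsg.Agent.SmallDim.TenB

open Module Cfsg.Agent.TenMax Cfsg.Agent.TenMax.InvAlg

variable {F : Type*} [Field F] {κ : Type} [Fintype κ] [DecidableEq κ] {X : SF (RingEquiv.refl F) κ}
  {M : Subgroup (((κ → F) × (κ → F)) ≃ₗ[F] ((κ → F) × (κ → F)))}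

theorem HypO.add (hM : HypO X M) {z z' : Module.End F (κ → F)} (h : xt z ∈ M) (h' : xt z' ∈ M) : xt (z + z') ∈ M := by
  rw [← xt_mul]; exact M.mul_mem h h'

theorem HypO.zero (hM : HypO X M) : xt (0 : Module.End F (κ → F)) ∈ M := by
  rw [xt_zero]; exact M.one_mem

theorem HypO.neg (hM : HypO X M) {z : Module.End F (κ → F)} (h : xt z ∈ M) : xt (-z) ∈ M := by
  rw [← xt_inv]; exact M.inv_mem h

/-- the torus -/
theorem HypO.sq (hM : HypO X M) {z : Module.End F (κ → F)} (h : xt z ∈ M) {l : F} (hl0 : l ≠ 0) : xt ((l ^ 2) • z) ∈ M := by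
  set hh : ((κ → F) × (κ → F)) ≃ₗ[F] ((κ → F) × (κ → F)) := xt (l • (1 : Module.End F (κ → F))) * yt ((-l⁻¹) • (1 : Module.End F (κ → F))) * xt (l • (1 : Module.End F (κ → F))) *
    (xt ((-1 : F) • (1 : Module.End F (κ → F))) * yt ((1 : F) • (1 : Module.End F (κ → F))) * xt ((-1 : F) • (1 : Module.End F (κ → F)))) with hhd
  have hh1 : hh ∈ M := by
    rw [hhd]
    exact M.mul_mem (M.mul_mem (M.mul_mem (hM.x _) (hM.y _)) (hM.x _)) (M.mul_mem (M.mul_mem (hM.x _) (hM.y _)) (hM.x _))
  have hhv : ∀ v, hh v = (l • v.1, l⁻¹ • v.2) := by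
    intro v
    rw [hhd]
    simp only [LinearEquiv.mul_apply, xt_apply, yt_apply, LinearMap.smul_apply, Module.End.one_apply]
    ext i
    · simp only [Pi.add_apply, Pi.smul_apply, smul_eq_mul]
      field_simp; ring
    · simp only [Pi.add_apply, Pi.smul_apply, smul_eq_mul]
      field_simp; ring
  have hfin : hh * xt z * hh⁻¹ = xt ((l ^ 2) • z) := by
    rw [mul_inv_eq_iff_eq_mul]
    apply LinearEquiv.ext; intro v
    simp only [LinearEquiv.mul_apply, xt_apply, hhv, LinearMap.smul_apply, map_smul]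
    ext i
    · simp only [Pi.add_apply, Pi.smul_apply, smul_eq_mul]
      field_simp
    · rfl
  rw [← hfin]
  exact M.mul_mem (M.mul_mem hh1 h) (M.inv_mem hh1)

theorem HypO.smul (hM : HypO X M) {z : Module.End F (κ → F)} (h : xt z ∈ M) (c : F) : xt (c • z) ∈ M := by
  have h2 := hM.two
  have hsq : ∀ t : F, xt ((t ^ 2) • z) ∈ M := by
    intro t
    by_cases ht : t = 0
    · rw [ht, zero_pow two_ne_zero, zero_smul]; exact hM.zero
    · exact hM.sq h ht
  have e : c • z = ((c + 1) / 2) ^ 2 • z + -(((c - 1) / 2) ^ 2 • z) := by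
    apply LinearMap.ext; intro w
    rw [LinearMap.add_apply, LinearMap.neg_apply, LinearMap.smul_apply, LinearMap.smul_apply, LinearMap.smul_apply,
      ← sub_eq_add_neg, ← sub_smul]
    congr 1
    field_simp
    ring
  rw [e]
  exact hM.add (hsq _) (hM.neg (hsq _))

theorem HypO.conj (hM : HypO X M) {z : Module.End F (κ → F)} (h : xt z ∈ M) {k : Module.End F (κ → F)} {k' : Module.End F (κ → F)}
    (hk : ∀ u v, X.f (k u) (k v) = X.f u v) (hkk : k * k' = 1) : xt (k * z * k') ∈ M := by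
  have hkk' : k' * k = 1 := mul_eq_one_comm.1 hkk
  have hinj : Function.Injective k := by
    intro a b hab
    have := congrArg k' hab
    rw [← Module.End.mul_apply, ← Module.End.mul_apply, hkk'] at this
    exact this
  set kk := LinearEquiv.ofInjectiveEndo k hinj with hkd
  have h1 : dg kk ∈ M := hM.orth kk hk
  have h2 : dg kk * xt z * (dg kk)⁻¹ = xt (k * z * k') := by
    rw [mul_inv_eq_iff_eq_mul]
    apply LinearEquiv.ext; intro v
    simp only [LinearEquiv.mul_apply, xt_apply, dg_apply, map_add]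
    refine Prod.ext ?_ rfl
    show k v.1 + k (z v.2) = k v.1 + (k * z * k') (k v.2)
    rw [Module.End.mul_apply, Module.End.mul_apply, ← Module.End.mul_apply k' k, hkk', Module.End.one_apply]
  rw [← h2]
  exact M.mul_mem (M.mul_mem h1 h) (M.inv_mem h1)

/-- self-adjointness -/
theorem HypO.selfadj (hM : HypO X M) {z : Module.End F (κ → F)} (h : xt z ∈ M) (u v : κ → F) : X.f (z u) v = X.f (z v) u := by
  have := hM.iso _ h (0, u) (0, v)
  simp only [xt_apply, zero_add, X.zero_left, X.zero_right, sub_zero] at this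
  rw [sub_eq_zero.1 this, X.symm1 hM.e1]

/-- the fourth coefficient -/
theorem HypO.ro_mem [Fintype F] (hM : HypO X M) (hq : 5 ≤ Fintype.card F) {u : κ → F} (hu0 : u ≠ 0)
    (hu : X.f u u = 0) {B : Module.End F (κ → F)} (hB : xt B ∈ M) (hBu : X.f (B u) u ≠ 0) : xt (X.ro u u) ∈ M := by
  have he := hM.e1
  have h2 := hM.two
  have h3 : 3 ≤ Fintype.card κ := hM.three.ge
  have hX := par_orth he h2
  obtain ⟨u', hu', hu'u⟩ := hX.partner' hu hu0 1
  have huu' : X.f u u' ≠ 0 := X.ne_zero_swap (by rw [hu'u]; exact one_ne_zero)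
  obtain ⟨x, hxu, hxu', hxx⟩ := exists_nonsing he h2 hu hu' huu' (by omega)
  have h00 := hM.zero
  set a := X.f x x / 2 with ha
  have ha0 : a ≠ 0 := div_ne_zero hxx h2
  have haa : X.f x x = 2 * a := by rw [ha]; field_simp
  -- the operators
  set N : Module.End F (κ → F) := X.ro u x - X.ro x u with hN
  set R : Module.End F (κ → F) := a • X.ro u u with hR
  have hr : ∀ c : F, X.rs u (c • x) (-(X.f (c • x) (c • x) / 2)) = 1 + c • N - (c ^ 2) • R := by
    intro c
    apply LinearMap.ext; intro z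
    rw [rs_apply' he, X.sesq.smul_left, X.smul_r, X.smul_r, haa]
    simp only [hN, hR, LinearMap.add_apply, LinearMap.sub_apply, LinearMap.smul_apply, Module.End.one_apply, X.ro_apply]
    have : c * (c * (2 * a)) / 2 = c ^ 2 * a := by field_simp
    rw [this]
    module
  have hr' : ∀ c : F, X.rs u (-(c • x)) (-(X.f (c • x) (c • x) / 2)) = 1 - c • N - (c ^ 2) • R := by
    intro c
    apply LinearMap.ext; intro z
    rw [rs_neg_apply he, X.sesq.smul_left, X.smul_r, X.smul_r, haa]
    simp only [hN, hR, LinearMap.add_apply, LinearMap.sub_apply, LinearMap.smul_apply, Module.End.one_apply, X.ro_apply]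
    have : c * (c * (2 * a)) / 2 = c ^ 2 * a := by field_simp
    rw [this]
    module
  have hmem : ∀ c : F, xt ((1 + c • N - (c ^ 2) • R) * B * (1 - c • N - (c ^ 2) • R)) ∈ M := by
    intro c
    have hx : X.f (c • x) u = 0 := by rw [X.sesq.smul_left, hxu, mul_zero]
    have hc : -(X.f (c • x) (c • x) / 2) + X.e * -(X.f (c • x) (c • x) / 2) + X.e * X.f (c • x) (c • x) = 0 := by
      rw [he]; field_simp; ring
    have h5 := rs_mul_rs X (c := -(X.f (c • x) (c • x) / 2)) hu hx
    have e : -(-(X.f (c • x) (c • x) / 2)) - X.e * X.f (c • x) (c • x) = -(X.f (c • x) (c • x) / 2) := by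
      rw [he]; field_simp; ring
    rw [e] at h5
    have h1 := hM.conj hB (rs_iso X hu hx hc) h5
    rw [hr, hr'] at h1
    exact h1
  have hexp : ∀ c : F, (1 + c • N - (c ^ 2) • R) * B * (1 - c • N - (c ^ 2) • R) =
      B + c • (N * B - B * N) + c ^ 2 • (-(R * B) - B * R - N * B * N) + c ^ 3 • (R * B * N - N * B * R) + c ^ 4 • (R * B * R) := by
    intro c
    simp only [add_mul, sub_mul, mul_sub, mul_add, one_mul, mul_one, smul_mul_assoc, mul_smul_comm, smul_sub, smul_add, smul_smul,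
      smul_neg]
    module
  have hPsum : ∀ (s : Finset F) (f : F → Module.End F (κ → F)), (∀ i, xt (f i) ∈ M) → xt (∑ i ∈ s, f i) ∈ M := by
    intro s f hf
    classical
    induction s using Finset.induction_on with
    | empty => rw [Finset.sum_empty]; exact h00
    | insert a s ha ih => rw [Finset.sum_insert ha]; exact hM.add (hf a) ih
  set q := Fintype.card F with hqd
  have hsum := hPsum Finset.univ (fun c => c ^ (q - 5) • ((1 + c • N - (c ^ 2) • R) * B * (1 - c • N - (c ^ 2) • R)))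
    (fun c => hM.smul (hmem c) _)
  have hz : ∀ k, k < q - 1 → ∑ c : F, c ^ k = 0 := fun k hk => FiniteField.sum_pow_lt_card_sub_one F k hk
  have hz' : ∑ c : F, c ^ (q - 1) = -1 := by
    classical
    have h1 : ∀ c : F, c ^ (q - 1) = if c = 0 then 0 else 1 := by
      intro c
      split_ifs with h
      · rw [h, zero_pow (by omega)]
      · exact FiniteField.pow_card_sub_one_eq_one c h
    rw [Finset.sum_congr rfl fun c _ => h1 c]
    have h4 : ∑ c : F, (if c = 0 then (0 : F) else 1) = ∑ c : F, (1 - if c = 0 then (1 : F) else 0) := by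
      refine Finset.sum_congr rfl fun c _ => ?_
      split_ifs <;> simp
    rw [h4, Finset.sum_sub_distrib, Finset.sum_ite_eq' Finset.univ (0 : F), Finset.sum_const, Finset.card_univ]
    simp
  have e1 : ∑ c : F, (c ^ (q - 5) • ((1 + c • N - (c ^ 2) • R) * B * (1 - c • N - (c ^ 2) • R))) = -(R * B * R) := by
    simp only [hexp, smul_add, smul_smul, ← pow_add, Finset.sum_add_distrib, ← Finset.sum_smul]
    have p1 : ∀ c : F, c ^ (q - 5) * c = c ^ (q - 5 + 1) := fun c => (pow_succ _ _).symm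
    simp only [p1]
    rw [hz (q - 5) (by omega), hz (q - 5 + 1) (by omega), hz (q - 5 + 2) (by omega), hz (q - 5 + 3) (by omega),
      show q - 5 + 4 = q - 1 by omega, hz']
    simp
  rw [e1] at hsum
  have e2 : R * B * R = (a ^ 2 * X.f (B u) u) • X.ro u u := by
    apply LinearMap.ext; intro z
    simp only [hR, Module.End.mul_apply, LinearMap.smul_apply, X.ro_apply, map_smul, X.sesq.smul_left, smul_smul]
    congr 1; ring
  rw [e2] at hsum
  have hne : -(a ^ 2 * X.f (B u) u) ≠ 0 := neg_ne_zero.2 (mul_ne_zero (pow_ne_zero _ ha0) hBu)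
  have e3 : -((a ^ 2 * X.f (B u) u) • X.ro u u) = (-(a ^ 2 * X.f (B u) u)) • X.ro u u := by
    apply LinearMap.ext; intro z
    rw [LinearMap.neg_apply, LinearMap.smul_apply, LinearMap.smul_apply, neg_smul]
  rw [e3] at hsum
  have h5 := hM.smul hsum (-(a ^ 2 * X.f (B u) u))⁻¹
  rwa [smul_smul, inv_mul_cancel₀ hne, one_smul] at h5

/-- scalar elements -/
theorem HypO.scalar_of_iso [Fintype F] (hM : HypO X M) {l : F} (hl0 : l ≠ 0) (hl : l ^ 2 ≠ 1) {z : Module.End F (κ → F)}
    (hz : xt z ∈ M) (h : ∀ u, X.f u u = 0 → X.f (z u) u = 0) : IsSc z := by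
  obtain ⟨e, he0, hee⟩ := exists_iso_vec (X := X) hM.e1 hM.two hM.three
  obtain ⟨e', x, hfr⟩ := exists_fr hM.e1 hM.two hM.three he0 hee
  have h2 := hM.two
  have hs := hM.selfadj hz
  set a := X.f x x / 2 with ha
  have haa : X.f x x = 2 * a := by rw [ha]; field_simp
  have ha0 : a ≠ 0 := div_ne_zero hfr.xx h2
  have z1 := h e hfr.ee
  have z2 := h e' hfr.e'e'
  have key : ∀ t : F, t ≠ 0 → 2 * X.f (z e) x + t * (X.f (z x) x - 2 * a * X.f (z e) e') - 2 * t ^ 2 * a * X.f (z x) e' = 0 := by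
    intro t ht
    have h1 := h (e + t • x - (t ^ 2 * a) • e') (by
      simp only [X.sesq.add_left, X.sesq.sub_left, X.sesq.smul_left, X.sesq.add_right, X.sub_right, X.smul_r, hfr.ee, hfr.ee', hfr.e'e',
        hfr.e'e, hfr.xe, hfr.ex, hfr.xe', hfr.e'x, haa]
      ring)
    simp only [map_add, map_sub, map_smul, X.sesq.add_left, X.sesq.sub_left, X.sesq.smul_left, X.sesq.add_right, X.sub_right, X.smul_r,
      z1, z2, hs x e, hs e' e, hs e' x] at h1
    apply (mul_eq_zero.1 (show t * (2 * X.f (z e) x + t * (X.f (z x) x - 2 * a * X.f (z e) e') - 2 * t ^ 2 * a * X.f (z x) e') = 0 by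
      linear_combination h1)).resolve_left ht
  have k1 := key 1 one_ne_zero
  have k2 := key (-1) (neg_ne_zero.2 one_ne_zero)
  have k3 := key l hl0
  have m1 : X.f (z x) x - 2 * a * X.f (z e) e' = 0 := by
    have : 2 * (X.f (z x) x - 2 * a * X.f (z e) e') = 0 := by linear_combination k1 - k2
    exact (mul_eq_zero.1 this).resolve_left h2
  rw [m1] at k1 k3
  have m2 : X.f (z x) e' = 0 := by
    have : (2 * a * (1 - l ^ 2)) * X.f (z x) e' = 0 := by linear_combination k3 - k1
    exact (mul_eq_zero.1 this).resolve_left (mul_ne_zero (mul_ne_zero h2 ha0) (sub_ne_zero.2 (Ne.symm hl)))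
  rw [m2] at k1
  have m3 : X.f (z e) x = 0 := by
    have : 2 * X.f (z e) x = 0 := by linear_combination k1
    exact (mul_eq_zero.1 this).resolve_left h2
  refine ⟨X.f (z e) e', ?_⟩
  apply LinearMap.ext; intro w
  rw [LinearMap.smul_apply, Module.End.one_apply]
  apply X.ext_left
  intro v
  obtain ⟨α, β, γ, rfl⟩ := hfr.span w
  obtain ⟨α', β', γ', rfl⟩ := hfr.span v
  simp only [map_add, map_smul, X.sesq.add_left, X.sesq.smul_left, X.sesq.add_right, X.smul_r, z1, z2, hs x e, hs e' e, hs e' x, m2, m3,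
    hfr.ee, hfr.ee', hfr.e'e', hfr.e'e, hfr.xe, hfr.ex, hfr.xe', hfr.e'x]
  rw [haa]
  linear_combination γ * γ' * m1

/-- the dichotomy -/
theorem HypO.dich [Fintype F] (hM : HypO X M) (hq : 5 ≤ Fintype.card F) {l : F} (hl0 : l ≠ 0) (hl : l ^ 2 ≠ 1) :
    (∀ z : Module.End F (κ → F), xt z ∈ M → IsSc z) ∨ ∃ u : κ → F, u ≠ 0 ∧ X.f u u = 0 ∧ ∀ c : F, xt (c • X.ro u u) ∈ M := by
  by_cases h : ∀ z : Module.End F (κ → F), xt z ∈ M → ∀ u, X.f u u = 0 → X.f (z u) u = 0
  · exact Or.inl fun z hz => hM.scalar_of_iso hl0 hl hz (h z hz)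
  · right
    push Not at h
    obtain ⟨z, hz, u, hu, hzu⟩ := h
    have hu0 : u ≠ 0 := by rintro rfl; rw [map_zero, X.zero_left] at hzu; exact hzu rfl
    exact ⟨u, hu0, hu, fun c => hM.smul (hM.ro_mem hq hu0 hu hz hzu) c⟩

end Cfsg.Agent.SmallDim.TenB
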