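import Mathlib

set_option autoImplicit false
set_option linter.unusedSectionVars false
set_option linter.unusedVariables false

/-!
Groups acting on `W × W` containing the scalar unipotent groups: opposite images of `W × 0` are
rational as soon as the unipotent elements over `W × 0` are scalar.
-/

namespace Cfsg.Agent.SmallDim.TenB

open Module

variable {F : Type*} [Field F] {W : Type*} [AddCommGroup W] [Module F W]

/-- upper unipotent elements -/
def xt (z : Module.End F W) : (W × W) ≃ₗ[F] (W × W) where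
  toFun v := (v.1 + z v.2, v.2)
  invFun v := (v.1 - z v.2, v.2)
  map_add' v v' := by
    ext
    · simp only [Prod.fst_add, Prod.snd_add, map_add]; abel
    · simp
  map_smul' c v := by
    ext
    · simp only [Prod.smul_fst, Prod.smul_snd, map_smul, RingHom.id_apply, smul_add]
    · simp
  left_inv v := by ext <;> simp
  right_inv v := by ext <;> simp

/-- lower unipotent elements -/
def yt (z : Module.End F W) : (W × W) ≃ₗ[F] (W × W) where
  toFun v := (v.1, v.2 + z v.1)
  invFun v := (v.1, v.2 - z v.1)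
  map_add' v v' := by
    ext
    · simp
    · simp only [Prod.fst_add, Prod.snd_add, map_add]; abel
  map_smul' c v := by
    ext
    · simp
    · simp only [Prod.smul_fst, Prod.smul_snd, map_smul, RingHom.id_apply, smul_add]
  left_inv v := by ext <;> simp
  right_inv v := by ext <;> simp

@[simp] theorem xt_apply (z : Module.End F W) (v : W × W) : xt z v = (v.1 + z v.2, v.2) := rfl
@[simp] theorem yt_apply (z : Module.End F W) (v : W × W) : yt z v = (v.1, v.2 + z v.1) := rfl

theorem xt_mul (z z' : Module.End F W) : xt z * xt z' = xt (z + z') := by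
  apply LinearEquiv.ext; intro v
  rw [LinearEquiv.mul_apply, xt_apply, xt_apply, xt_apply, LinearMap.add_apply]
  ext
  · simp only; abel
  · rfl

theorem yt_mul (z z' : Module.End F W) : yt z * yt z' = yt (z + z') := by
  apply LinearEquiv.ext; intro v
  rw [LinearEquiv.mul_apply, yt_apply, yt_apply, yt_apply, LinearMap.add_apply]
  ext
  · rfl
  · simp only; abel

theorem xt_zero : xt (0 : Module.End F W) = 1 := by
  apply LinearEquiv.ext; intro v
  rw [xt_apply, LinearMap.zero_apply, add_zero]; rfl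

theorem yt_zero : yt (0 : Module.End F W) = 1 := by
  apply LinearEquiv.ext; intro v
  rw [yt_apply, LinearMap.zero_apply, add_zero]; rfl

theorem xt_inv (z : Module.End F W) : (xt z)⁻¹ = xt (-z) := by
  rw [inv_eq_iff_mul_eq_one, xt_mul, add_neg_cancel, xt_zero]

theorem yt_inv (z : Module.End F W) : (yt z)⁻¹ = yt (-z) := by
  rw [inv_eq_iff_mul_eq_one, yt_mul, add_neg_cancel, yt_zero]

theorem yt_inj {z z' : Module.End F W} (h : yt z = yt z') : z = z' := by
  apply LinearMap.ext; intro w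
  have := congrArg (fun g : (W × W) ≃ₗ[F] (W × W) => (g (w, 0)).2) h
  simpa using this

theorem xt_inj {z z' : Module.End F W} (h : xt z = xt z') : z = z' := by
  apply LinearMap.ext; intro w
  have := congrArg (fun g : (W × W) ≃ₗ[F] (W × W) => (g (0, w)).1) h
  simpa using this

theorem braid {c d : Module.End F W} (hcd : c * d = 1) (hdc : d * c = 1) (t : F) :
    yt c * xt (t • 1) * yt (-c) = xt d * yt (-(t • (c * c))) * xt (-d) := by
  have h1 : ∀ w, c (d w) = w := fun w => LinearMap.congr_fun hcd w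
  have h2 : ∀ w, d (c w) = w := fun w => LinearMap.congr_fun hdc w
  apply LinearEquiv.ext; intro v
  simp only [LinearEquiv.mul_apply, xt_apply, yt_apply, LinearMap.neg_apply, LinearMap.smul_apply, Module.End.one_apply,
    Module.End.mul_apply, map_add, map_neg, map_smul, h1, h2, neg_neg]
  ext
  · simp only; abel
  · simp only; abel

/-- scalar multiple of the identity -/
def IsSc (z : Module.End F W) : Prop := ∃ c : F, z = c • 1

theorem IsSc.add {z z' : Module.End F W} (h : IsSc z) (h' : IsSc z') : IsSc (z + z') := by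
  obtain ⟨c, rfl⟩ := h; obtain ⟨c', rfl⟩ := h'; exact ⟨c + c', by rw [add_smul]⟩

theorem IsSc.smul {z : Module.End F W} (h : IsSc z) (c : F) : IsSc (c • z) := by
  obtain ⟨c', rfl⟩ := h; exact ⟨c * c', by rw [mul_smul]⟩

theorem IsSc.sub {z z' : Module.End F W} (h : IsSc z) (h' : IsSc z') : IsSc (z - z') := by
  obtain ⟨c, rfl⟩ := h; obtain ⟨c', rfl⟩ := h'; exact ⟨c - c', by rw [sub_smul]⟩

theorem IsSc.of_smul {z : Module.End F W} {c : F} (hc : c ≠ 0) (h : IsSc (c • z)) : IsSc z := by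
  have := h.smul c⁻¹
  rwa [smul_smul, inv_mul_cancel₀ hc, one_smul] at this

theorem IsSc.inv {B : (Module.End F W)ˣ} (h : IsSc (B : Module.End F W)) : IsSc ((B⁻¹ : (Module.End F W)ˣ) : Module.End F W) := by
  obtain ⟨c, hc⟩ := h
  by_cases hc0 : c = 0
  · refine ⟨0, ?_⟩
    have h1 : (B : Module.End F W) * ((B⁻¹ : (Module.End F W)ˣ) : Module.End F W) = 1 := B.mul_inv
    rw [hc, hc0, zero_smul, zero_mul] at h1
    rw [← one_mul ((B⁻¹ : (Module.End F W)ˣ) : Module.End F W), ← h1, zero_mul, zero_smul]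
  · refine ⟨c⁻¹, ?_⟩
    have h1 : (B : Module.End F W) * ((B⁻¹ : (Module.End F W)ˣ) : Module.End F W) = 1 := B.mul_inv
    rw [hc, smul_mul_assoc, one_mul] at h1
    rw [← h1, smul_smul, inv_mul_cancel₀ hc0, one_smul]

/-- the hypotheses -/
structure Hyp (M : Subgroup ((W × W) ≃ₗ[F] (W × W))) : Prop where
  x : ∀ t : F, xt (t • (1 : Module.End F W)) ∈ M
  y : ∀ t : F, yt (t • (1 : Module.End F W)) ∈ M
  sc : ∀ z : Module.End F W, xt z ∈ M → IsSc z

/-- the group attached to the complement `z` -/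
def Q (M : Subgroup ((W × W) ≃ₗ[F] (W × W))) (z : Module.End F W) (B : (Module.End F W)ˣ) : Prop :=
  ∃ g ∈ M, ∃ k : F, k ≠ 0 ∧ ∀ t : F, xt z * yt (t • (B : Module.End F W)) * xt (-z) = g * xt ((k * t) • 1) * g⁻¹

variable {M : Subgroup ((W × W) ≃ₗ[F] (W × W))} {z : Module.End F W} {B : (Module.End F W)ˣ}

theorem Q.mem (hM : Hyp M) (h : Q M z B) (t : F) : xt z * yt (t • (B : Module.End F W)) * xt (-z) ∈ M := by
  obtain ⟨g, hg, k, -, h⟩ := h
  rw [h]
  exact M.mul_mem (M.mul_mem hg (hM.x _)) (M.inv_mem hg)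

theorem Q.step (hM : Hyp M) (h : Q M z B) {s : F} (hs : s ≠ 0) :
    Q M (z + s • ((B⁻¹ : (Module.End F W)ˣ) : Module.End F W)) (B ^ 2) := by
  refine ⟨_, h.mem hM s⁻¹, -(s ^ 2), neg_ne_zero.2 (pow_ne_zero _ hs), fun t => ?_⟩
  set c : Module.End F W := s⁻¹ • (B : Module.End F W) with hc
  set d : Module.End F W := s • ((B⁻¹ : (Module.End F W)ˣ) : Module.End F W) with hd
  have h1 : (B : Module.End F W) * ((B⁻¹ : (Module.End F W)ˣ) : Module.End F W) = 1 := B.mul_inv
  have h2 : ((B⁻¹ : (Module.End F W)ˣ) : Module.End F W) * (B : Module.End F W) = 1 := B.inv_mul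
  have hcd : c * d = 1 := by rw [hc, hd, smul_mul_smul_comm, h1, inv_mul_cancel₀ hs, one_smul]
  have hdc : d * c = 1 := by rw [hc, hd, smul_mul_smul_comm, h2, mul_inv_cancel₀ hs, one_smul]
  have hb := braid hcd hdc (-(s ^ 2) * t)
  have e1 : -((-(s ^ 2) * t) • (c * c)) = t • ((B ^ 2 : (Module.End F W)ˣ) : Module.End F W) := by
    rw [hc, smul_mul_smul_comm, smul_smul, ← neg_smul, Units.val_pow_eq_pow_val, pow_two]
    congr 1
    field_simp
  rw [e1] at hb
  have e2 : (xt z * yt c * xt (-z)) * xt ((-(s ^ 2) * t) • 1) * (xt z * yt c * xt (-z))⁻¹ =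
      xt z * (yt c * xt ((-(s ^ 2) * t) • 1) * yt (-c)) * xt (-z) := by
    rw [mul_inv_rev, mul_inv_rev, xt_inv, xt_inv, yt_inv, neg_neg]
    have e3 : xt (-z) * xt ((-(s ^ 2) * t) • (1 : Module.End F W)) * xt z = xt ((-(s ^ 2) * t) • (1 : Module.End F W)) := by
      rw [xt_mul, xt_mul]; congr 1; abel
    calc _ = xt z * yt c * (xt (-z) * xt ((-(s ^ 2) * t) • (1 : Module.End F W)) * xt z) * yt (-c) * xt (-z) := by group
      _ = _ := by rw [e3]; group
  rw [e2, hb]
  have e4 : xt (-(z + d)) = xt (-d) * xt (-z) := by rw [xt_mul]; congr 1; abel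
  rw [e4, ← xt_mul z d]
  group

theorem Q.add_sc (hM : Hyp M) (h : Q M z B) (c : F) : Q M (z + c • 1) B := by
  obtain ⟨g, hg, k, hk, h⟩ := h
  refine ⟨xt (c • 1) * g, M.mul_mem (hM.x c) hg, k, hk, fun t => ?_⟩
  have e4 : xt (-(z + c • 1)) = xt (-z) * xt (-(c • (1 : Module.End F W))) := by rw [xt_mul]; congr 1; abel
  have e5 : xt (z + c • 1) = xt (c • (1 : Module.End F W)) * xt z := by rw [xt_mul]; congr 1; abel
  rw [e4, e5, mul_inv_rev, xt_inv]
  calc _ = xt (c • (1 : Module.End F W)) * (xt z * yt (t • (B : Module.End F W)) * xt (-z)) * xt (-(c • (1 : Module.End F W))) := by group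
    _ = _ := by rw [h]; group

/-- uniqueness of the operator attached to a complement -/
theorem Q.unique (hM : Hyp M) (h : Q M z B) {B' : (Module.End F W)ˣ} (h' : Q M z B') :
    ∃ c : F, (B' : Module.End F W) = c • (B : Module.End F W) := by
  have hm := h'.mem hM 1
  rw [one_smul] at hm
  obtain ⟨g, hg, k, hk, h⟩ := h
  set g' := xt (-z) * g with hg'
  have hgen : ∀ t : F, yt (t • (B : Module.End F W)) * g' = g' * xt ((k * t) • 1) := by
    intro t
    have := h t
    rw [hg']
    calc _ = xt (-z) * (xt z * yt (t • (B : Module.End F W)) * xt (-z)) * g := by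
          have e : xt (-z) * xt z = 1 := by rw [← xt_inv]; exact inv_mul_cancel _
          calc _ = 1 * yt (t • (B : Module.End F W)) * xt (-z) * g := by group
            _ = _ := by rw [← e]; group
      _ = _ := by rw [this]; group
  -- the blocks of `g'`
  have hBinj : ∀ w, (B : Module.End F W) w = 0 → w = 0 := by
    intro w hw
    have h2 : ((B⁻¹ : (Module.End F W)ˣ) : Module.End F W) * (B : Module.End F W) = 1 := B.inv_mul
    have := LinearMap.congr_fun h2 w
    rw [Module.End.mul_apply, hw, map_zero] at this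
    exact this.symm
  have hp : ∀ w, (g' (w, 0)).1 = 0 := by
    intro w
    have h1 := congrArg (fun g : (W × W) ≃ₗ[F] (W × W) => (g (w, 0)).2) (hgen 1)
    simp only [LinearEquiv.mul_apply, xt_apply, yt_apply, one_smul, map_zero, add_zero] at h1
    exact hBinj _ (by simpa using h1)
  -- the element
  have hkey : yt (B' : Module.End F W) * g' = g' * (g⁻¹ * (xt z * yt (B' : Module.End F W) * xt (-z)) * g) := by
    have e : xt (-z) * xt z = 1 := by rw [← xt_inv]; exact inv_mul_cancel _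
    rw [hg']
    calc _ = 1 * yt (B' : Module.End F W) * xt (-z) * g := by group
      _ = _ := by rw [← e]; group
  set m := g⁻¹ * (xt z * yt (B' : Module.End F W) * xt (-z)) * g with hmd
  have hmM : m ∈ M := M.mul_mem (M.mul_mem (M.inv_mem hg) hm) hg
  have hginj : Function.Injective g' := g'.injective
  have hm1 : ∀ w, m (w, 0) = (w, 0) := by
    intro w
    apply hginj
    have h1 := congrArg (fun g : (W × W) ≃ₗ[F] (W × W) => g (w, 0)) hkey
    simp only [LinearEquiv.mul_apply, yt_apply] at h1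
    rw [← h1, hp, map_zero, add_zero]
    exact Prod.ext (hp w).symm rfl
  have hm2 : ∀ v, (m v).2 = v.2 := by
    intro v
    have h1 := congrArg (fun g : (W × W) ≃ₗ[F] (W × W) => (g v).1) hkey
    simp only [LinearEquiv.mul_apply, yt_apply] at h1
    -- (g' v).1 = (g' (m v)).1
    have h2 : (g' (m v - v)).1 = 0 := by rw [map_sub, Prod.fst_sub, ← h1, sub_self]
    have h3 : (g' (0, (m v - v).2)).1 = 0 := by
      have : (m v - v) = ((m v - v).1, 0) + (0, (m v - v).2) := by ext <;> simp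
      rw [this, map_add, Prod.fst_add, hp, zero_add] at h2
      exact h2
    -- injectivity of the upper right block
    have h4 := congrArg (fun g : (W × W) ≃ₗ[F] (W × W) => g (0, (m v - v).2)) (hgen 1)
    simp only [LinearEquiv.mul_apply, xt_apply, yt_apply, one_smul, mul_one, h3, map_zero, add_zero, zero_add] at h4
    have h5 := congrArg (fun v : W × W => v) h4
    have h6 : g' (0, (m v - v).2) = g' ((k • (1 : Module.End F W)) ((m v - v).2), (m v - v).2) := by
      rw [← h4]
      exact Prod.ext h3 rfl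
    have h7 := hginj h6
    have h8 := congrArg Prod.fst h7
    simp only [LinearMap.smul_apply, Module.End.one_apply] at h8
    have h9 := (smul_eq_zero.1 h8.symm).resolve_left hk
    rw [Prod.snd_sub, sub_eq_zero] at h9
    exact h9
  set s : Module.End F W := LinearMap.fst F W W ∘ₗ m.toLinearMap ∘ₗ LinearMap.inr F W W with hs
  have hms : m = xt s := by
    apply LinearEquiv.ext; intro v
    have : v = (v.1, 0) + (0, v.2) := by ext <;> simp
    rw [xt_apply]
    conv_lhs => rw [this]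
    rw [map_add, hm1]
    ext
    · simp only [Prod.fst_add]; rfl
    · simp only [Prod.snd_add, hm2, zero_add]
  rw [hms] at hmM
  obtain ⟨c, hc⟩ := hM.sc s hmM
  refine ⟨c * k⁻¹, ?_⟩
  have e1 : yt (B' : Module.End F W) * g' = yt ((c * k⁻¹) • (B : Module.End F W)) * g' := by
    rw [hkey, hms, hc, hgen]
    congr 3
    field_simp
  exact yt_inj (mul_right_cancel e1)

/-- scalar operators -/
theorem Q.scalar (hM : Hyp M) {l : F} (hl0 : l ≠ 0) (hl : l ^ 2 ≠ 1) (h : Q M z B) (hB : IsSc (B : Module.End F W))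
    (hB0 : (B : Module.End F W) ≠ 0) : IsSc z := by
  obtain ⟨b, hb⟩ := hB
  have hb0 : b ≠ 0 := fun h0 => hB0 (by rw [hb, h0, zero_smul])
  have hy : ∀ t : F, xt z * yt (t • (1 : Module.End F W)) * xt (-z) ∈ M := by
    intro t
    have := h.mem hM (t * b⁻¹)
    have e : t * b⁻¹ * b = t := by field_simp
    rwa [hb, smul_smul, e] at this
  have hx : ∀ t : F, xt z * xt (t • (1 : Module.End F W)) * xt (-z) ∈ M := by
    intro t
    have : xt z * xt (t • (1 : Module.End F W)) * xt (-z) = xt (t • (1 : Module.End F W)) := by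
      rw [xt_mul, xt_mul]; congr 1; abel
    rw [this]; exact hM.x t
  -- the torus element
  set hh : (W × W) ≃ₗ[F] (W × W) := xt (l • (1 : Module.End F W)) * yt ((-l⁻¹) • (1 : Module.End F W)) * xt (l • (1 : Module.End F W)) *
    (xt ((-1 : F) • (1 : Module.End F W)) * yt ((1 : F) • (1 : Module.End F W)) * xt ((-1 : F) • (1 : Module.End F W))) with hhd
  have hh1 : hh ∈ M := by
    rw [hhd]
    exact M.mul_mem (M.mul_mem (M.mul_mem (hM.x _) (hM.y _)) (hM.x _)) (M.mul_mem (M.mul_mem (hM.x _) (hM.y _)) (hM.x _))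
  have hh2 : xt z * hh * xt (-z) ∈ M := by
    have e : xt (-z) * xt z = 1 := by rw [← xt_inv]; exact inv_mul_cancel _
    have e1 : xt z * hh * xt (-z) = (xt z * xt (l • (1 : Module.End F W)) * xt (-z)) * (xt z * yt ((-l⁻¹) • (1 : Module.End F W)) * xt (-z)) *
        (xt z * xt (l • (1 : Module.End F W)) * xt (-z)) * ((xt z * xt ((-1 : F) • (1 : Module.End F W)) * xt (-z)) *
        (xt z * yt ((1 : F) • (1 : Module.End F W)) * xt (-z)) * (xt z * xt ((-1 : F) • (1 : Module.End F W)) * xt (-z))) := by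
      rw [hhd, ← xt_inv z]
      group
    rw [e1]
    exact M.mul_mem (M.mul_mem (M.mul_mem (hx _) (hy _)) (hx _)) (M.mul_mem (M.mul_mem (hx _) (hy _)) (hx _))
  have hhv : ∀ v, hh v = (l • v.1, l⁻¹ • v.2) := by
    intro v
    rw [hhd]
    simp only [LinearEquiv.mul_apply, xt_apply, yt_apply, LinearMap.smul_apply, Module.End.one_apply]
    have hll : l * l⁻¹ = 1 := mul_inv_cancel₀ hl0
    ext
    · simp only
      have e1 : l * l⁻¹ = 1 := hll
      match_scalars <;> field_simp <;> ring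
    · simp only
      match_scalars <;> field_simp <;> ring
  have hfin : (xt z * hh * xt (-z)) * hh⁻¹ = xt ((1 - l ^ 2) • z) := by
    rw [mul_inv_eq_iff_eq_mul]
    apply LinearEquiv.ext; intro v
    simp only [LinearEquiv.mul_apply, xt_apply, hhv, LinearMap.smul_apply, LinearMap.neg_apply, map_smul]
    ext
    · simp only
      match_scalars <;> field_simp <;> ring
    · rfl
  have := M.mul_mem hh2 (M.inv_mem hh1)
  rw [hfin] at this
  exact IsSc.of_smul (sub_ne_zero.2 (Ne.symm hl)) (hM.sc _ this)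

theorem Q.ne_zero [Nontrivial W] (B : (Module.End F W)ˣ) : (B : Module.End F W) ≠ 0 := B.ne_zero

/-- if `B ^ 2` is scalar -/
theorem Q.scalar_of_sq [Nontrivial W] (hM : Hyp M) {l : F} (hl0 : l ≠ 0) (hl : l ^ 2 ≠ 1) (h : Q M z B)
    (hB : IsSc ((B ^ 2 : (Module.End F W)ˣ) : Module.End F W)) : IsSc (B : Module.End F W) ∧ IsSc z := by
  have key : ∀ s : F, s ≠ 0 → IsSc (z + s • ((B⁻¹ : (Module.End F W)ˣ) : Module.End F W)) := fun s hs =>
    (h.step hM hs).scalar hM hl0 hl hB (B ^ 2).ne_zero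
  have hl1 : l ≠ 1 := by rintro rfl; exact hl (one_pow 2)
  have h1 := (key 1 one_ne_zero).sub (key l hl0)
  have e : z + (1 : F) • ((B⁻¹ : (Module.End F W)ˣ) : Module.End F W) - (z + l • ((B⁻¹ : (Module.End F W)ˣ) : Module.End F W)) =
      (1 - l) • ((B⁻¹ : (Module.End F W)ˣ) : Module.End F W) := by module
  rw [e] at h1
  have h2 : IsSc ((B⁻¹ : (Module.End F W)ˣ) : Module.End F W) := IsSc.of_smul (sub_ne_zero.2 (Ne.symm hl1)) h1
  have h3 := h2.inv
  rw [inv_inv] at h3
  refine ⟨h3, ?_⟩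
  have h4 := (key 1 one_ne_zero).sub (h2.smul 1)
  rwa [add_sub_cancel_right] at h4

theorem Q.scalar_of_pow4 [Nontrivial W] (hM : Hyp M) {l : F} (hl0 : l ≠ 0) (hl : l ^ 2 ≠ 1) (h : Q M z B)
    (hB : IsSc ((B ^ 4 : (Module.End F W)ˣ) : Module.End F W)) : IsSc (B : Module.End F W) ∧ IsSc z := by
  have h1 := (h.step hM (one_ne_zero (α := F))).scalar_of_sq hM hl0 hl (by
    rw [← pow_mul]; exact hB)
  exact h.scalar_of_sq hM hl0 hl h1.1

/-- the chain argument -/
theorem Q.isSc [Nontrivial W] (hM : Hyp M) {l : F} (hl0 : l ≠ 0) (hl : l ^ 2 ≠ 1) (h : Q M z B)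
    (hcub : ∃ p₀ p₁ p₂ : F, (((B⁻¹ : (Module.End F W)ˣ) : Module.End F W)) ^ 4 =
      p₀ • 1 + p₁ • ((B⁻¹ : (Module.End F W)ˣ) : Module.End F W) + p₂ • ((B⁻¹ : (Module.End F W)ˣ) : Module.End F W) ^ 2) : IsSc z := by
  obtain ⟨p₀, p₁, p₂, hp⟩ := hcub
  set C : Module.End F W := ((B⁻¹ : (Module.End F W)ˣ) : Module.End F W) with hC
  have hl1 : l ≠ 1 := by rintro rfl; exact hl (one_pow 2)
  have hex : ∀ p : F, ∃ s : F, s ≠ 0 ∧ s + p ≠ 0 := by
    intro p
    by_cases h1 : 1 + p = 0
    · exact ⟨l, hl0, fun h2 => hl1 (by linear_combination h2 - h1)⟩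
    · exact ⟨1, one_ne_zero, h1⟩
  obtain ⟨s, hs, hsp⟩ := hex p₁
  obtain ⟨s', hs', hsp'⟩ := hex p₂
  have c2 : (((B ^ 2)⁻¹ : (Module.End F W)ˣ) : Module.End F W) = C ^ 2 := by
    rw [← inv_pow, Units.val_pow_eq_pow_val]
  have c4 : ((((B ^ 2) ^ 2)⁻¹ : (Module.End F W)ˣ) : Module.End F W) = C ^ 4 := by
    rw [← inv_pow, ← inv_pow, Units.val_pow_eq_pow_val, Units.val_pow_eq_pow_val, ← pow_mul]
  -- the element in two ways
  have a1 := ((h.step hM hs).step hM hs').step hM (one_ne_zero (α := F))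
  have a2 := (((h.step hM hsp).step hM hsp').add_sc hM p₀)
  rw [← hC, c2, c4, hp] at a1
  rw [← hC, c2] at a2
  have e : z + s • C + s' • C ^ 2 + (1 : F) • (p₀ • (1 : Module.End F W) + p₁ • C + p₂ • C ^ 2) =
      z + (s + p₁) • C + (s' + p₂) • C ^ 2 + p₀ • 1 := by module
  rw [e] at a1
  obtain ⟨c, hc⟩ := a2.unique hM a1
  -- B ^ 8 = c B ^ 4
  have h8 : (B ^ 4 : (Module.End F W)ˣ) * ((B ^ 2) ^ 2 : (Module.End F W)ˣ) = ((B ^ 2) ^ 2) ^ 2 := by
    rw [← pow_mul, ← pow_mul, ← pow_add]
  have h9 : IsSc ((B ^ 4 : (Module.End F W)ˣ) : Module.End F W) := by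
    refine ⟨c, ?_⟩
    have h10 : ((B ^ 4 : (Module.End F W)ˣ) : Module.End F W) * (((B ^ 2) ^ 2 : (Module.End F W)ˣ) : Module.End F W) =
        (c • (1 : Module.End F W)) * (((B ^ 2) ^ 2 : (Module.End F W)ˣ) : Module.End F W) := by
      rw [← Units.val_mul, h8, hc, smul_mul_assoc, one_mul]
    exact ((B ^ 2) ^ 2).isUnit.mul_right_cancel h10
  exact (h.scalar_of_pow4 hM hl0 hl h9).2

/-- powers in dimension three -/
theorem exists_pow4 [FiniteDimensional F W] (h3 : finrank F W = 3) (C : Module.End F W) :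
    ∃ p₀ p₁ p₂ : F, C ^ 4 = p₀ • 1 + p₁ • C + p₂ • C ^ 2 := by
  have hch := C.aeval_self_charpoly
  have hdeg : C.charpoly.natDegree = 3 := by rw [LinearMap.charpoly_natDegree, h3]
  have hmon := C.charpoly_monic
  set χ := C.charpoly with hχ
  have hexp : Polynomial.aeval C χ = (χ.coeff 0) • 1 + (χ.coeff 1) • C + (χ.coeff 2) • C ^ 2 + C ^ 3 := by
    rw [Polynomial.aeval_eq_sum_range, hdeg, Finset.sum_range_succ, Finset.sum_range_succ, Finset.sum_range_succ,
      Finset.sum_range_one, pow_zero, pow_one]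
    have : χ.coeff 3 = 1 := by rw [← hdeg]; exact hmon
    rw [this, one_smul]
  rw [hexp] at hch
  set a := χ.coeff 0
  set b := χ.coeff 1
  set c := χ.coeff 2
  have h3' : C ^ 3 = -(a • 1 + b • C + c • C ^ 2) := eq_neg_of_add_eq_zero_right hch
  refine ⟨c * a, c * b - a, c ^ 2 - b, ?_⟩
  have : C ^ 4 = C * C ^ 3 := by rw [← pow_succ']
  rw [this, h3', mul_neg, mul_add, mul_add, mul_smul_comm, mul_smul_comm, mul_smul_comm, mul_one, ← pow_succ', ← pow_two, h3']
  module

/-- opposite images are rational -/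
theorem rational [FiniteDimensional F W] (hM : Hyp M) (h3 : finrank F W = 3) {l : F} (hl0 : l ≠ 0) (hl : l ^ 2 ≠ 1)
    {g : (W × W) ≃ₗ[F] (W × W)} (hg : g ∈ M) (hopp : ∀ w : W, (g (w, 0)).2 = 0 → w = 0) :
    ∃ c : F, ∀ w : W, (g (w, 0)).1 = c • (g (w, 0)).2 := by
  have : Nontrivial W := Module.nontrivial_of_finrank_pos (R := F) (by omega)
  set p : Module.End F W := LinearMap.fst F W W ∘ₗ g.toLinearMap ∘ₗ LinearMap.inl F W W with hp
  set r : Module.End F W := LinearMap.snd F W W ∘ₗ g.toLinearMap ∘ₗ LinearMap.inl F W W with hr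
  have hpa : ∀ w, p w = (g (w, 0)).1 := fun w => rfl
  have hra : ∀ w, r w = (g (w, 0)).2 := fun w => rfl
  have hrinj : Function.Injective r := (injective_iff_map_eq_zero r).2 fun w hw => hopp w hw
  obtain ⟨ru, hru⟩ : IsUnit r := (Module.End.isUnit_iff _).2 ⟨hrinj, LinearMap.injective_iff_surjective.1 hrinj⟩
  set z : Module.End F W := p * ((ru⁻¹ : (Module.End F W)ˣ) : Module.End F W) with hz
  have hzr : z * r = p := by rw [hz, mul_assoc, ← hru, Units.inv_mul, mul_one]
  have hzr' : ∀ w, z (r w) = p w := fun w => LinearMap.congr_fun hzr w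
  set g' := xt (-z) * g with hg'
  have hg'1 : ∀ w, g' (w, 0) = (0, r w) := by
    intro w
    rw [hg', LinearEquiv.mul_apply, xt_apply, ← hra, ← hpa, LinearMap.neg_apply, hzr', add_neg_cancel]
  set s : Module.End F W := LinearMap.fst F W W ∘ₗ g'.toLinearMap ∘ₗ LinearMap.inr F W W with hs
  set u : Module.End F W := LinearMap.snd F W W ∘ₗ g'.toLinearMap ∘ₗ LinearMap.inr F W W with hu
  have hg'2 : ∀ v : W × W, g' v = (s v.2, r v.1 + u v.2) := by
    intro v
    have : v = (v.1, 0) + (0, v.2) := by ext <;> simp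
    conv_lhs => rw [this]
    rw [map_add, hg'1]
    ext
    · simp only [Prod.fst_add, zero_add]; rfl
    · simp only [Prod.snd_add]; rfl
  have hssurj : Function.Surjective s := by
    intro w
    obtain ⟨v, hv⟩ := g'.surjective (w, 0)
    refine ⟨v.2, ?_⟩
    rw [hg'2] at hv
    exact congrArg Prod.fst hv
  obtain ⟨su, hsu⟩ : IsUnit s := (Module.End.isUnit_iff _).2 ⟨LinearMap.injective_iff_surjective.2 hssurj, hssurj⟩
  set B : (Module.End F W)ˣ := ru * su⁻¹ with hB
  have hBs : (B : Module.End F W) * s = r := by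
    rw [hB, Units.val_mul, mul_assoc, ← hsu, Units.inv_mul, mul_one, hru]
  have hBs' : ∀ w, (B : Module.End F W) (s w) = r w := fun w => LinearMap.congr_fun hBs w
  have hQ : Q M z B := by
    refine ⟨g, hg, 1, one_ne_zero, fun t => ?_⟩
    have h1 : yt (t • (B : Module.End F W)) * g' = g' * xt (t • 1) := by
      apply LinearEquiv.ext; intro v
      simp only [LinearEquiv.mul_apply, yt_apply, xt_apply, hg'2, LinearMap.smul_apply, Module.End.one_apply, hBs', map_add, map_smul]
      ext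
      · rfl
      · simp only; abel
    have h2 : g = xt z * g' := by
      rw [hg', ← mul_assoc, xt_mul, add_neg_cancel, xt_zero, one_mul]
    rw [one_mul, h2, mul_inv_rev, xt_inv]
    calc _ = xt z * (yt (t • (B : Module.End F W)) * g') * g'⁻¹ * xt (-z) := by group
      _ = _ := by rw [h1]; group
  obtain ⟨c, hc⟩ := hQ.isSc hM hl0 hl (exists_pow4 h3 _)
  refine ⟨c, fun w => ?_⟩
  rw [← hpa, ← hra, ← hzr', hc, LinearMap.smul_apply, Module.End.one_apply]

end Cfsg.Agent.SmallDim.TenB
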