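import Cfsg.Agent.SmallDim.TenB
import Cfsg.Agent.TenMax.InvP
import Cfsg.Agent.TenMax.AsmO

set_option autoImplicit false
set_option linter.unusedSectionVars false
set_option linter.unusedVariables false

/-!
Groups acting on `W × W`, `W` orthogonal of dimension three: if the unipotent elements over `W × 0` are scalar,
the group preserves the tensor decomposition.
-/

namespace Cfsg.Agent.SmallDim.TenB

open Module Cfsg.Agent.TenMax Cfsg.Agent.TenMax.InvAlg

variable {F : Type*} [Field F] {κ : Type} [Fintype κ] [DecidableEq κ] {X : SF (RingEquiv.refl F) κ}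

/-- three vectors -/
theorem span_three (h3 : Fintype.card κ = 3) {a b c : κ → F}
    (hli : ∀ α β γ : F, α • a + β • b + γ • c = 0 → α = 0 ∧ β = 0 ∧ γ = 0) (y : κ → F) :
    ∃ α β γ : F, y = α • a + β • b + γ • c := by
  have h1 : LinearIndependent F ![a, b, c] := by
    rw [Fintype.linearIndependent_iff]
    intro g hg
    rw [Fin.sum_univ_three] at hg
    obtain ⟨e1, e2, e3⟩ := hli _ _ _ hg
    intro i
    fin_cases i
    · exact e1
    · exact e2
    · exact e3
  have hspan : Submodule.span F (Set.range ![a, b, c]) = ⊤ :=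
    h1.span_eq_top_of_card_eq_finrank' (by rw [finrank_fintype_fun_eq_card, Fintype.card_fin, h3])
  have hy : y ∈ Submodule.span F (Set.range ![a, b, c]) := by rw [hspan]; trivial
  obtain ⟨g, hg⟩ := (Submodule.mem_span_range_iff_exists_fun F).1 hy
  rw [Fin.sum_univ_three] at hg
  exact ⟨_, _, _, hg.symm⟩

/-- adapted bases -/
structure Fr (X : SF (RingEquiv.refl F) κ) (e e' x : κ → F) : Prop where
  ee : X.f e e = 0
  e'e' : X.f e' e' = 0
  ee' : X.f e e' = 1
  e'e : X.f e' e = 1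
  xe : X.f x e = 0
  xe' : X.f x e' = 0
  ex : X.f e x = 0
  e'x : X.f e' x = 0
  xx : X.f x x ≠ 0
  span : ∀ w : κ → F, ∃ α β γ : F, w = α • e + β • e' + γ • x

theorem exists_fr (he : X.e = 1) (h2 : (2 : F) ≠ 0) (h3 : Fintype.card κ = 3) {e : κ → F} (he0 : e ≠ 0) (hee : X.f e e = 0) :
    ∃ e' x, Fr X e e' x := by
  have hX := par_orth he h2
  obtain ⟨e', h1, h4⟩ := hX.partner' hee he0 1
  have hee' : X.f e e' = 1 := by rw [X.symm1 he, h4]
  obtain ⟨x, hxe, hxe', hxx⟩ := exists_nonsing he h2 hee h1 (by rw [hee']; exact one_ne_zero) (by omega)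
  refine ⟨e', x, hee, h1, hee', h4, hxe, hxe', by rw [X.symm1 he]; exact hxe, by rw [X.symm1 he]; exact hxe', hxx,
    fun w => span_three h3 ?_ w⟩
  intro α β γ h
  have a1 := congrArg (fun y => X.f y e') h
  have a2 := congrArg (fun y => X.f y e) h
  have a3 := congrArg (fun y => X.f y x) h
  simp only [X.sesq.add_left, X.sesq.smul_left, X.zero_left, hee, h1, hee', h4, hxe, hxe', X.zero_symm hxe, X.zero_symm hxe'] at a1 a2 a3
  refine ⟨by linear_combination a1, by linear_combination a2, ?_⟩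
  have a4 : γ * X.f x x = 0 := by linear_combination a3
  exact (mul_eq_zero.1 a4).resolve_right hxx

/-- diagonal action -/
def dg (k : (κ → F) ≃ₗ[F] (κ → F)) : ((κ → F) × (κ → F)) ≃ₗ[F] ((κ → F) × (κ → F)) where
  toFun v := (k v.1, k v.2)
  invFun v := (k.symm v.1, k.symm v.2)
  map_add' v v' := by ext <;> simp
  map_smul' c v := by ext <;> simp
  left_inv v := by ext <;> simp
  right_inv v := by ext <;> simp

@[simp] theorem dg_apply (k : (κ → F) ≃ₗ[F] (κ → F)) (v : (κ → F) × (κ → F)) : dg k v = (k v.1, k v.2) := rfl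

/-- the hypotheses -/
structure HypO (X : SF (RingEquiv.refl F) κ) (M : Subgroup (((κ → F) × (κ → F)) ≃ₗ[F] ((κ → F) × (κ → F)))) : Prop where
  x : ∀ t : F, xt (t • (1 : Module.End F (κ → F))) ∈ M
  y : ∀ t : F, yt (t • (1 : Module.End F (κ → F))) ∈ M
  iso : ∀ g ∈ M, ∀ v v', X.f (g v).1 (g v').2 - X.f (g v).2 (g v').1 = X.f v.1 v'.2 - X.f v.2 v'.1
  orth : ∀ k : (κ → F) ≃ₗ[F] (κ → F), (∀ u v, X.f (k u) (k v) = X.f u v) → dg k ∈ M
  e1 : X.e = 1
  two : (2 : F) ≠ 0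
  three : Fintype.card κ = 3

variable {M : Subgroup (((κ → F) × (κ → F)) ≃ₗ[F] ((κ → F) × (κ → F)))}

/-- the Weyl element -/
def wy : ((κ → F) × (κ → F)) ≃ₗ[F] ((κ → F) × (κ → F)) :=
  yt ((1 : F) • (1 : Module.End F (κ → F))) * xt ((-1 : F) • (1 : Module.End F (κ → F))) * yt ((1 : F) • (1 : Module.End F (κ → F)))

theorem wy_apply (v : (κ → F) × (κ → F)) : (wy : ((κ → F) × (κ → F)) ≃ₗ[F] _) v = (-v.2, v.1) := by
  unfold wy
  simp only [LinearEquiv.mul_apply, xt_apply, yt_apply, LinearMap.smul_apply, Module.End.one_apply]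
  ext i
  · simp
  · simp

theorem HypO.wy_mem (hM : HypO X M) : (wy : ((κ → F) × (κ → F)) ≃ₗ[F] _) ∈ M :=
  M.mul_mem (M.mul_mem (hM.y _) (hM.x _)) (hM.y _)

/-- Siegel elements as isometries moving `e` off its span -/
theorem HypO.exists_isom (hM : HypO X M) {e e' x : κ → F} (hfr : Fr X e e' x) (t : F) :
    ∃ k : (κ → F) ≃ₗ[F] (κ → F), (∀ u v, X.f (k u) (k v) = X.f u v) ∧ k e = e - t • x - (t ^ 2 * (X.f x x / 2)) • e' := by
  have h2 := hM.two
  have hx : X.f (t • x) e' = 0 := by rw [X.sesq.smul_left, hfr.xe', mul_zero]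
  have hc : -(X.f (t • x) (t • x) / 2) + X.e * -(X.f (t • x) (t • x) / 2) + X.e * X.f (t • x) (t • x) = 0 := by
    rw [hM.e1]; field_simp; ring
  set k := X.rs e' (t • x) (-(X.f (t • x) (t • x) / 2)) with hk
  have hiso : ∀ u v, X.f (k u) (k v) = X.f u v := fun u v => rs_iso X hfr.e'e' hx hc u v
  have hinj : Function.Injective k := by
    rw [injective_iff_map_eq_zero]
    intro w hw
    apply X.eq_zero
    intro v
    rw [← hiso, hw, X.zero_left]
  refine ⟨LinearEquiv.ofInjectiveEndo k hinj, hiso, ?_⟩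
  show k e = _
  rw [hk, rs_apply' hM.e1, X.sesq.smul_left, X.smul_r, X.smul_r, hfr.ex, hfr.ee']
  have : t * (t * X.f x x) / 2 * 1 = t ^ 2 * (X.f x x / 2) := by ring
  rw [this]
  module

/-- the image of `W × 0` -/
def Lm (g : ((κ → F) × (κ → F)) ≃ₗ[F] ((κ → F) × (κ → F))) : Submodule F ((κ → F) × (κ → F)) :=
  LinearMap.range (g.toLinearMap ∘ₗ LinearMap.inl F (κ → F) (κ → F))

theorem mem_Lm {g : ((κ → F) × (κ → F)) ≃ₗ[F] ((κ → F) × (κ → F))} {v : (κ → F) × (κ → F)} :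
    v ∈ Lm g ↔ ∃ w, g (w, 0) = v := Iff.rfl

theorem finrank_Lm (g : ((κ → F) × (κ → F)) ≃ₗ[F] ((κ → F) × (κ → F))) : finrank F (Lm g) = Fintype.card κ := by
  unfold Lm
  rw [LinearMap.finrank_range_of_inj, finrank_fintype_fun_eq_card]
  intro a b h
  have := g.injective h
  exact congrArg Prod.fst this

theorem HypO.ti (hM : HypO X M) {g : ((κ → F) × (κ → F)) ≃ₗ[F] ((κ → F) × (κ → F))} (hg : g ∈ M) {v v' : (κ → F) × (κ → F)}
    (hv : v ∈ Lm g) (hv' : v' ∈ Lm g) : X.f v.1 v'.2 = X.f v.2 v'.1 := by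
  obtain ⟨w, rfl⟩ := hv
  obtain ⟨w', rfl⟩ := hv'
  have := hM.iso g hg (w, 0) (w', 0)
  simp only [X.zero_right, X.zero_left, sub_zero] at this
  exact sub_eq_zero.1 this

/-- an isotropic vector in the two coordinates -/
theorem HypO.bad_one (hM : HypO X M) {l : F} (hl0 : l ≠ 0) (hl : l ≠ 1) {g : ((κ → F) × (κ → F)) ≃ₗ[F] ((κ → F) × (κ → F))}
    (hg : g ∈ M) (hbad : ∀ γ δ : F, (γ ≠ 0 ∨ δ ≠ 0) → ∃ w, w ≠ 0 ∧ γ • (g (w, 0)).1 + δ • (g (w, 0)).2 = 0) :
    ∃ e : κ → F, e ≠ 0 ∧ X.f e e = 0 ∧ (e, (0 : κ → F)) ∈ Lm g ∧ ((0 : κ → F), e) ∈ Lm g := by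
  suffices h : ∃ e : κ → F, e ≠ 0 ∧ (e, (0 : κ → F)) ∈ Lm g ∧ ((0 : κ → F), e) ∈ Lm g by
    obtain ⟨e, he0, h1, h2⟩ := h
    refine ⟨e, he0, ?_, h1, h2⟩
    have := hM.ti hg h1 h2
    simpa [X.zero_left] using this
  have hinj : ∀ w, g (w, 0) = 0 → w = 0 := fun w hw => by
    have := g.injective (hw.trans (map_zero g).symm)
    exact congrArg Prod.fst this
  obtain ⟨w₁, hw₁, h₁⟩ := hbad 0 1 (Or.inr one_ne_zero)
  obtain ⟨w₀, hw₀, h₀⟩ := hbad 1 0 (Or.inl one_ne_zero)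
  rw [zero_smul, one_smul, zero_add] at h₁
  rw [zero_smul, one_smul, add_zero] at h₀
  have ha0 : (g (w₁, 0)).1 ≠ 0 := fun h => hw₁ (hinj _ (Prod.ext h h₁))
  have hb0 : (g (w₀, 0)).2 ≠ 0 := fun h => hw₀ (hinj _ (Prod.ext h₀ h))
  have ha : ((g (w₁, 0)).1, (0 : κ → F)) ∈ Lm g := ⟨w₁, Prod.ext rfl h₁⟩
  have hb : ((0 : κ → F), (g (w₀, 0)).2) ∈ Lm g := ⟨w₀, Prod.ext h₀ rfl⟩
  generalize (g (w₁, 0)).1 = a at ha ha0
  generalize (g (w₀, 0)).2 = b at hb hb0
  by_cases hab : b ∈ Submodule.span F {a}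
  · obtain ⟨c, rfl⟩ := Submodule.mem_span_singleton.1 hab
    have hc : c ≠ 0 := by rintro rfl; exact hb0 (zero_smul _ _)
    refine ⟨a, ha0, ha, ?_⟩
    have := (Lm g).smul_mem c⁻¹ hb
    rwa [Prod.smul_mk, smul_zero, smul_smul, inv_mul_cancel₀ hc, one_smul] at this
  have hex : ∀ c : F, ∃ x : κ → F, x ≠ 0 ∧ (c • x, x) ∈ Lm g := by
    intro c
    obtain ⟨w, hw, h⟩ := hbad 1 (-c) (Or.inl one_ne_zero)
    rw [one_smul, neg_smul] at h
    have h1 : (g (w, 0)).1 = c • (g (w, 0)).2 := eq_of_sub_eq_zero (by rw [sub_eq_add_neg]; exact h)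
    refine ⟨(g (w, 0)).2, fun h0 => hw (hinj _ (Prod.ext (by rw [h1, h0, smul_zero]; rfl) h0)), ⟨w, Prod.ext h1 rfl⟩⟩
  obtain ⟨x, hx0, hx⟩ := hex 1
  obtain ⟨y, hy0, hy⟩ := hex l
  rw [one_smul] at hx
  have t1 : X.f a x = 0 := by simpa [X.zero_left] using hM.ti hg ha hx
  have t2 : X.f b x = 0 := by simpa [X.zero_left] using (hM.ti hg hb hx).symm
  have t3 : X.f a y = 0 := by simpa [X.zero_left] using hM.ti hg ha hy
  have t4 : X.f b y = 0 := by
    have := (hM.ti hg hb hy).symm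
    simp only [X.zero_left, X.smul_r] at this
    exact (mul_eq_zero.1 this).resolve_left hl0
  -- `y` is a multiple of `x`
  obtain ⟨p, hp1, hp2⟩ := X.exists_perp_one hab
  obtain ⟨p', hp1', hp2'⟩ := X.exists_perp_one (w := b) (c := a) (by
    intro h
    obtain ⟨c, hc⟩ := Submodule.mem_span_singleton.1 h
    have hc0 : c ≠ 0 := by rintro rfl; rw [zero_smul] at hc; exact ha0 hc.symm
    exact hab (Submodule.mem_span_singleton.2 ⟨c⁻¹, by rw [← hc, smul_smul, inv_mul_cancel₀ hc0, one_smul]⟩))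
  have t1' : X.f x a = 0 := by rw [X.symm1 hM.e1]; exact t1
  have t2' : X.f x b = 0 := by rw [X.symm1 hM.e1]; exact t2
  have t3' : X.f y a = 0 := by rw [X.symm1 hM.e1]; exact t3
  have t4' : X.f y b = 0 := by rw [X.symm1 hM.e1]; exact t4
  obtain ⟨α, β, γ, hy'⟩ := span_three hM.three (a := p) (b := p') (c := x) (by
    intro α β γ h
    have a1 := congrArg (fun y => X.f y b) h
    have a2 := congrArg (fun y => X.f y a) h
    simp only [X.sesq.add_left, X.sesq.smul_left, X.zero_left, hp1, hp2, hp1', hp2', t1', t2'] at a1 a2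
    have b1 : α = 0 := by linear_combination a1
    have b2 : β = 0 := by linear_combination a2
    rw [b1, b2, zero_smul, zero_smul, zero_add, zero_add] at h
    exact ⟨b1, b2, (smul_eq_zero.1 h).resolve_right hx0⟩) y
  have b1 := congrArg (fun y => X.f y b) hy'
  have b2 := congrArg (fun y => X.f y a) hy'
  simp only [X.sesq.add_left, X.sesq.smul_left, hp1, hp2, hp1', hp2', t1', t2', t3', t4'] at b1 b2
  have c1 : α = 0 := by linear_combination -b1
  have c2 : β = 0 := by linear_combination -b2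
  rw [c1, c2, zero_smul, zero_smul, zero_add, zero_add] at hy'
  have hγ : γ ≠ 0 := by rintro rfl; rw [zero_smul] at hy'; exact hy0 hy'
  have h5 := (Lm g).sub_mem hy ((Lm g).smul_mem γ hx)
  rw [Prod.smul_mk, Prod.mk_sub_mk, hy', sub_self, smul_smul, ← sub_smul] at h5
  have h6 : l * γ - γ ≠ 0 := by
    have : l * γ - γ = (l - 1) * γ := by ring
    rw [this]; exact mul_ne_zero (sub_ne_zero.2 hl) hγ
  have h7 := (Lm g).smul_mem (l * γ - γ)⁻¹ h5
  rw [Prod.smul_mk, smul_smul, inv_mul_cancel₀ h6, one_smul, smul_zero] at h7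
  refine ⟨x, hx0, h7, ?_⟩
  have h8 := (Lm g).sub_mem hx h7
  rwa [Prod.mk_sub_mk, sub_self, sub_zero] at h8

/-- the normal form of a bad element -/
structure Bad (X : SF (RingEquiv.refl F) κ) (M : Subgroup (((κ → F) × (κ → F)) ≃ₗ[F] ((κ → F) × (κ → F)))) (e x : κ → F)
    (g : ((κ → F) × (κ → F)) ≃ₗ[F] ((κ → F) × (κ → F))) : Prop where
  mem : g ∈ M
  b1 : (e, (0 : κ → F)) ∈ Lm g
  b2 : ((0 : κ → F), e) ∈ Lm g
  b3 : (x, (0 : κ → F)) ∈ Lm g

theorem mem_Lm_mul {h g : ((κ → F) × (κ → F)) ≃ₗ[F] ((κ → F) × (κ → F))} {v : (κ → F) × (κ → F)} (hv : v ∈ Lm g) : h v ∈ Lm (h * g) := by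
  obtain ⟨w, rfl⟩ := hv
  exact ⟨w, rfl⟩

theorem HypO.bad_two (hM : HypO X M) {g : ((κ → F) × (κ → F)) ≃ₗ[F] ((κ → F) × (κ → F))} (hg : g ∈ M) {e e' x : κ → F}
    (hfr : Fr X e e' x) (h1 : (e, (0 : κ → F)) ∈ Lm g) (h2 : ((0 : κ → F), e) ∈ Lm g) : ∃ g', Bad X M e x g' := by
  -- a third vector
  have hspan : ¬ Lm g ≤ Submodule.span F {(e, (0 : κ → F)), ((0 : κ → F), e)} := by
    intro h
    have h4 := Submodule.finrank_mono h
    have h5 : finrank F (Submodule.span F ({(e, (0 : κ → F)), ((0 : κ → F), e)} : Set ((κ → F) × (κ → F)))) ≤ 2 := by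
      classical
      have := finrank_span_finset_le_card (R := F) ({(e, (0 : κ → F)), ((0 : κ → F), e)} : Finset ((κ → F) × (κ → F)))
      rw [Finset.coe_pair] at this
      exact this.trans (Finset.card_le_two)
    rw [finrank_Lm, hM.three] at h4
    omega
  obtain ⟨v, hv, hvn⟩ := Set.not_subset.1 hspan
  have t1 : X.f e v.2 = 0 := by simpa [X.zero_left] using hM.ti hg h1 hv
  have t2 : X.f e v.1 = 0 := by simpa [X.zero_left] using (hM.ti hg h2 hv).symm
  obtain ⟨α, β, γ, h4⟩ := hfr.span v.1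
  obtain ⟨α', β', γ', h5⟩ := hfr.span v.2
  have hβ : β = 0 := by
    rw [h4, X.sesq.add_right, X.sesq.add_right, X.smul_r, X.smul_r, X.smul_r, hfr.ee, hfr.ee', hfr.ex] at t2
    linear_combination t2
  have hβ' : β' = 0 := by
    rw [h5, X.sesq.add_right, X.sesq.add_right, X.smul_r, X.smul_r, X.smul_r, hfr.ee, hfr.ee', hfr.ex] at t1
    linear_combination t1
  rw [hβ, zero_smul, add_zero] at h4
  rw [hβ', zero_smul, add_zero] at h5
  have h6 : (γ • x, γ' • x) ∈ Lm g := by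
    have := (Lm g).sub_mem ((Lm g).sub_mem hv ((Lm g).smul_mem α h1)) ((Lm g).smul_mem α' h2)
    convert this using 1
    ext i
    · simp [h4]
    · simp [h5]
  have hne : γ ≠ 0 ∨ γ' ≠ 0 := by
    by_contra hcon
    push Not at hcon
    apply hvn
    have : v = α • (e, (0 : κ → F)) + α' • ((0 : κ → F), e) := by
      ext i
      · simp [h4, hcon.1]
      · simp [h5, hcon.2]
    rw [this]
    exact Submodule.add_mem _ (Submodule.smul_mem _ _ (Submodule.subset_span (by simp)))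
      (Submodule.smul_mem _ _ (Submodule.subset_span (by simp)))
  by_cases hγ' : γ' = 0
  · have hγ : γ ≠ 0 := hne.resolve_right (fun h => h hγ')
    refine ⟨g, hg, h1, h2, ?_⟩
    have := (Lm g).smul_mem γ⁻¹ h6
    rwa [hγ', zero_smul, Prod.smul_mk, smul_zero, smul_smul, inv_mul_cancel₀ hγ, one_smul] at this
  · set n := wy * xt ((-(γ / γ')) • (1 : Module.End F (κ → F))) with hn
    have hnM : n ∈ M := M.mul_mem hM.wy_mem (hM.x _)
    have hnv : ∀ v : (κ → F) × (κ → F), n v = (-v.2, v.1 - (γ / γ') • v.2) := by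
      intro v
      rw [hn, LinearEquiv.mul_apply, wy_apply, xt_apply, LinearMap.smul_apply, Module.End.one_apply]
      ext i <;> simp [sub_eq_add_neg]
    have a1 := mem_Lm_mul (h := n) h1
    have a2 := mem_Lm_mul (h := n) h2
    have a3 := mem_Lm_mul (h := n) h6
    rw [hnv] at a1 a2 a3
    simp only [neg_zero, smul_zero, sub_zero, zero_sub] at a1 a2
    refine ⟨n * g, M.mul_mem hnM hg, ?_, a1, ?_⟩
    · have := (Lm (n * g)).sub_mem ((Lm (n * g)).neg_mem a2) ((Lm (n * g)).smul_mem (γ / γ') a1)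
      convert this using 1
      ext i <;> simp
    · have e1 : γ • x - (γ / γ') • γ' • x = 0 := by
        rw [smul_smul, div_mul_cancel₀ _ hγ', sub_self]
      simp only [e1] at a3
      have := (Lm (n * g)).smul_mem (-γ'⁻¹) a3
      convert this using 1
      rw [Prod.smul_mk, smul_zero, smul_neg, neg_smul, neg_neg, smul_smul, inv_mul_cancel₀ hγ', one_smul]

theorem Bad.fst (hM : HypO X M) {g : ((κ → F) × (κ → F)) ≃ₗ[F] ((κ → F) × (κ → F))} {e e' x : κ → F}
    (hfr : Fr X e e' x) (hb : Bad X M e x g) {v : (κ → F) × (κ → F)} (hv : v ∈ Lm g) :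
    X.f e v.1 = 0 ∧ ∃ α : F, v.2 = α • e := by
  have t1 : X.f e v.2 = 0 := by simpa [X.zero_left] using hM.ti hb.mem hb.b1 hv
  have t2 : X.f e v.1 = 0 := by simpa [X.zero_left] using (hM.ti hb.mem hb.b2 hv).symm
  have t3 : X.f x v.2 = 0 := by simpa [X.zero_left] using hM.ti hb.mem hb.b3 hv
  refine ⟨t2, ?_⟩
  obtain ⟨α', β', γ', h5⟩ := hfr.span v.2
  have hβ' : β' = 0 := by
    rw [h5, X.sesq.add_right, X.sesq.add_right, X.smul_r, X.smul_r, X.smul_r, hfr.ee, hfr.ee', hfr.ex] at t1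
    linear_combination t1
  have hγ' : γ' = 0 := by
    rw [h5, X.sesq.add_right, X.sesq.add_right, X.smul_r, X.smul_r, X.smul_r, hfr.xe, hfr.xe'] at t3
    have : γ' * X.f x x = 0 := by linear_combination t3
    exact (mul_eq_zero.1 this).resolve_right hfr.xx
  exact ⟨α', by rw [h5, hβ', hγ', zero_smul, zero_smul, add_zero, add_zero]⟩

/-- the moved element -/
def An (k : (κ → F) ≃ₗ[F] (κ → F)) (g : ((κ → F) × (κ → F)) ≃ₗ[F] ((κ → F) × (κ → F))) :
    ((κ → F) × (κ → F)) ≃ₗ[F] ((κ → F) × (κ → F)) := (wy * dg k) * g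

/-- the conjugated element -/
def Bn (k : (κ → F) ≃ₗ[F] (κ → F)) (g : ((κ → F) × (κ → F)) ≃ₗ[F] ((κ → F) × (κ → F))) :
    ((κ → F) × (κ → F)) ≃ₗ[F] ((κ → F) × (κ → F)) := g⁻¹ * An k g

theorem An_apply (k : (κ → F) ≃ₗ[F] (κ → F)) (g : ((κ → F) × (κ → F)) ≃ₗ[F] ((κ → F) × (κ → F))) (v : (κ → F) × (κ → F)) :
    An k g v = (-(k (g v).2), k (g v).1) := by
  unfold An
  rw [LinearEquiv.mul_apply, LinearEquiv.mul_apply, wy_apply, dg_apply]

theorem g_Bn_apply (k : (κ → F) ≃ₗ[F] (κ → F)) (g : ((κ → F) × (κ → F)) ≃ₗ[F] ((κ → F) × (κ → F))) (v : (κ → F) × (κ → F)) :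
    g (Bn k g v) = An k g v := by
  unfold Bn
  rw [← LinearEquiv.mul_apply, ← mul_assoc, mul_inv_cancel, one_mul]

theorem Bn_apply (k : (κ → F) ≃ₗ[F] (κ → F)) (g : ((κ → F) × (κ → F)) ≃ₗ[F] ((κ → F) × (κ → F))) (v : (κ → F) × (κ → F)) :
    Bn k g v = g⁻¹ (An k g v) := rfl

theorem An_mem_Lm {k : (κ → F) ≃ₗ[F] (κ → F)} {g : ((κ → F) × (κ → F)) ≃ₗ[F] ((κ → F) × (κ → F))} {v : (κ → F) × (κ → F)}
    (hv : v ∈ Lm g) : (-(k v.2), k v.1) ∈ Lm (An k g) := by
  obtain ⟨w, rfl⟩ := hv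
  exact ⟨w, An_apply k g _⟩

/-- no bad elements -/
theorem HypO.no_bad (hM : HypO X M) (hsc : ∀ z : Module.End F (κ → F), xt z ∈ M → IsSc z) {l : F} (hl0 : l ≠ 0) (hl : l ^ 2 ≠ 1)
    {g : ((κ → F) × (κ → F)) ≃ₗ[F] ((κ → F) × (κ → F))} {e e' x : κ → F}
    (hfr : Fr X e e' x) (hb : Bad X M e x g) : False := by
  have hH : Hyp M := ⟨hM.x, hM.y, hsc⟩
  have h3 : finrank F (κ → F) = 3 := by rw [finrank_fintype_fun_eq_card, hM.three]
  have hx0 : x ≠ 0 := by rintro rfl; exact hfr.xx (X.zero_left 0)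
  have he0 : e ≠ 0 := by
    rintro rfl
    have := hfr.ee'
    rw [X.zero_left] at this
    exact zero_ne_one this
  -- the elements
  have key : ∀ t : F, t ≠ 0 → ∃ (k : (κ → F) ≃ₗ[F] (κ → F)) (c : F), (∀ u v, X.f (k u) (k v) = X.f u v) ∧
      k e = e - t • x - (t ^ 2 * (X.f x x / 2)) • e' ∧ (∀ v ∈ Lm (An k g), (∃ β : F, v.1 = β • k e) ∧ X.f (k e) v.2 = 0) ∧
      (∀ y, X.f (k e) y = 0 → ((0 : κ → F), y) ∈ Lm (An k g)) ∧ (k e, (0 : κ → F)) ∈ Lm (An k g) ∧
      (∀ v ∈ Lm (An k g), (g⁻¹ v).1 = c • (g⁻¹ v).2) ∧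
      (∀ s, (c • s, s) ∈ Lm (Bn k g)) := by
    intro t ht
    obtain ⟨k, hk, hke⟩ := hM.exists_isom hfr t
    have hne : X.f e (k e) ≠ 0 := by
      rw [hke, X.sub_right, X.sub_right, X.smul_r, X.smul_r, hfr.ee, hfr.ex, hfr.ee']
      have : (0 : F) - t * 0 - t ^ 2 * (X.f x x / 2) * 1 = -(t ^ 2 * (X.f x x / 2)) := by ring
      rw [this]
      exact neg_ne_zero.2 (mul_ne_zero (pow_ne_zero _ ht) (div_ne_zero hfr.xx hM.two))
    have hn : wy * dg k ∈ M := M.mul_mem hM.wy_mem (hM.orth k hk)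
    have p1 : ∀ v ∈ Lm (An k g), (∃ β : F, v.1 = β • k e) ∧ X.f (k e) v.2 = 0 := by
      rintro _ ⟨w, rfl⟩
      have h4 := Bad.fst hM hfr hb (v := g (w, 0)) ⟨w, rfl⟩
      show (∃ β : F, (An k g (w, 0)).1 = β • k e) ∧ X.f (k e) (An k g (w, 0)).2 = 0
      rw [An_apply]
      obtain ⟨α, hα⟩ := h4.2
      refine ⟨⟨-α, ?_⟩, ?_⟩
      · simp only [hα, map_smul, neg_smul]
      · simp only [hk]; exact h4.1
    have p2 : ∀ y, X.f (k e) y = 0 → ((0 : κ → F), y) ∈ Lm (An k g) := by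
      intro y hy
      have h4 : X.f e (k.symm y) = 0 := by rw [← hk, k.apply_symm_apply]; exact hy
      obtain ⟨α, β, γ, h5⟩ := hfr.span (k.symm y)
      have hβ : β = 0 := by
        rw [h5, X.sesq.add_right, X.sesq.add_right, X.smul_r, X.smul_r, X.smul_r, hfr.ee, hfr.ee', hfr.ex] at h4
        linear_combination h4
      rw [hβ, zero_smul, add_zero] at h5
      have h6 : (k.symm y, (0 : κ → F)) ∈ Lm g := by
        rw [h5]
        have := (Lm g).add_mem ((Lm g).smul_mem α hb.b1) ((Lm g).smul_mem γ hb.b3)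
        rwa [Prod.smul_mk, Prod.smul_mk, smul_zero, smul_zero, Prod.mk_add_mk, add_zero] at this
      have := An_mem_Lm (k := k) h6
      simpa only [map_zero, neg_zero, k.apply_symm_apply] using this
    have p3 : (k e, (0 : κ → F)) ∈ Lm (An k g) := by
      have := An_mem_Lm (k := k) hb.b2
      simp only [map_zero] at this
      have h5 := (Lm (An k g)).neg_mem this
      rwa [Prod.neg_mk, neg_neg, neg_zero] at h5
    have hm : Bn k g ∈ M := M.mul_mem (M.inv_mem hb.mem) (M.mul_mem hn hb.mem)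
    have hopp : ∀ w : κ → F, (Bn k g (w, 0)).2 = 0 → w = 0 := by
      intro w hw
      set v := Bn k g (w, 0) with hv
      have h4 : g v = An k g (w, 0) := by
        rw [hv, g_Bn_apply]
      have h5 : g v ∈ Lm g := ⟨v.1, by
        have hv2 : ((v.1, (0 : κ → F)) : (κ → F) × (κ → F)) = v := Prod.ext rfl hw.symm
        exact congrArg g hv2⟩
      have h6 : g v ∈ Lm (An k g) := ⟨w, h4.symm⟩
      obtain ⟨a1, α, a2⟩ := Bad.fst hM hfr hb h5
      obtain ⟨⟨β, b1⟩, b2⟩ := p1 _ h6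
      have c1 : (g v).1 = 0 := by
        rw [b1, X.smul_r] at a1
        rw [b1, (mul_eq_zero.1 a1).resolve_right hne, zero_smul]
      have c2 : (g v).2 = 0 := by
        rw [a2, X.smul_r, X.symm1 hM.e1 (k e) e] at b2
        rw [a2, (mul_eq_zero.1 b2).resolve_right hne, zero_smul]
      have c3 : g v = 0 := Prod.ext c1 c2
      rw [h4] at c3
      have c4 := (An k g).injective (c3.trans (map_zero _).symm)
      exact congrArg Prod.fst c4
    obtain ⟨c, hc⟩ := rational hH h3 hl0 hl hm hopp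
    refine ⟨k, c, hk, hke, p1, p2, p3, ?_, fun s => ?_⟩
    · rintro _ ⟨w, rfl⟩
      exact hc w
    · -- surjectivity of the second component
      set r : Module.End F (κ → F) := LinearMap.snd F _ _ ∘ₗ (Bn k g).toLinearMap ∘ₗ LinearMap.inl F _ _ with hr
      have hrinj : Function.Injective r := (injective_iff_map_eq_zero r).2 fun w hw => hopp w hw
      obtain ⟨w, hw⟩ := LinearMap.injective_iff_surjective.1 hrinj s
      refine ⟨w, Prod.ext ?_ hw⟩
      have := hc w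
      rw [show (Bn k g (w, 0)).2 = s from hw] at this
      exact this
  obtain ⟨k, c, hk, hke, p1, p2, p3, p4, p5⟩ := key 1 one_ne_zero
  obtain ⟨k', c', hk', hke', p1', p2', p3', p4', p5'⟩ := key (-1) (neg_ne_zero.2 one_ne_zero)
  -- a common vector
  have hcc : c = c' := by
    obtain ⟨y, hy0, hy1, hy2⟩ : ∃ y : κ → F, y ≠ 0 ∧ X.f (k e) y = 0 ∧ X.f (k' e) y = 0 := by
      have h1 := X.finrank_pl [k e, k' e]
      rw [List.length_cons, List.length_cons, List.length_nil] at h1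
      have h4 : X.pl [k e, k' e] ≠ ⊥ := by
        intro h; rw [h, finrank_bot, hM.three] at h1; omega
      obtain ⟨z, hz, hz0⟩ := Submodule.exists_mem_ne_zero_of_ne_bot h4
      exact ⟨z, hz0, by rw [X.symm1 hM.e1]; exact hz _ (by simp), by rw [X.symm1 hM.e1]; exact hz _ (by simp)⟩
    have h1 := p4 _ (p2 y hy1)
    have h4 := p4' _ (p2' y hy2)
    have h5 : (g⁻¹ ((0 : κ → F), y)).2 ≠ 0 := by
      intro h
      rw [h, smul_zero] at h1
      have : g⁻¹ ((0 : κ → F), y) = 0 := Prod.ext h1 h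
      have h6 := (g⁻¹).injective (this.trans (map_zero _).symm)
      exact hy0 (congrArg Prod.snd h6)
    have h6 : (c - c') • (g⁻¹ ((0 : κ → F), y)).2 = 0 := by rw [sub_smul, ← h1, ← h4, sub_self]
    exact sub_eq_zero.1 ((smul_eq_zero.1 h6).resolve_right h5)
  -- the two images coincide
  have h1 := p4 _ p3
  rw [hcc] at h1
  obtain ⟨w, hw⟩ := p5' (g⁻¹ (k e, (0 : κ → F))).2
  have h4 : (k e, (0 : κ → F)) ∈ Lm (An k' g) := by
    refine ⟨w, ?_⟩
    have h5 : Bn k' g (w, 0) = g⁻¹ (k e, (0 : κ → F)) := by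
      refine hw.trans (Prod.ext h1.symm rfl)
    have h6 := congrArg g h5
    rw [g_Bn_apply, ← LinearEquiv.mul_apply g, mul_inv_cancel] at h6
    exact h6
  obtain ⟨⟨β, hβ⟩, -⟩ := p1' _ h4
  rw [hke, hke'] at hβ
  have a1 := congrArg (fun y => X.f y e') hβ
  have a2 := congrArg (fun y => X.f y x) hβ
  simp only [X.sesq.sub_left, X.sesq.smul_left, hfr.ee', hfr.xe', hfr.e'e', hfr.ex, hfr.e'x] at a1 a2
  have a3 : β = 1 := by linear_combination -a1
  rw [a3] at a2
  have a4 : (2 : F) * X.f x x = 0 := by linear_combination -a2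
  exact (mul_ne_zero hM.two hfr.xx) a4

theorem exists_iso_vec (he : X.e = 1) (h2 : (2 : F) ≠ 0) [Fintype F] (h3 : Fintype.card κ = 3) : ∃ e : κ → F, e ≠ 0 ∧ X.f e e = 0 := by
  obtain ⟨u₀, -, h1, h4⟩ := X.exists_iso_mem (U := ⊤) (by rw [finrank_top, finrank_fintype_fun_eq_card, h3])
  exact ⟨u₀, h1, h4⟩

/-- the image of `W × 0` is rational -/
theorem HypO.good [Fintype F] (hM : HypO X M) (hsc : ∀ z : Module.End F (κ → F), xt z ∈ M → IsSc z) {l : F} (hl0 : l ≠ 0) (hl : l ^ 2 ≠ 1)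
    {g : ((κ → F) × (κ → F)) ≃ₗ[F] ((κ → F) × (κ → F))} (hg : g ∈ M) :
    ∃ (q : Module.End F (κ → F)) (a b : F), Function.Injective q ∧ ∀ w, g (w, 0) = (a • q w, b • q w) := by
  have hH : Hyp M := ⟨hM.x, hM.y, hsc⟩
  have h3 : finrank F (κ → F) = 3 := by rw [finrank_fintype_fun_eq_card, hM.three]
  have hl1 : l ≠ 1 := by rintro rfl; exact hl (one_pow 2)
  by_cases hbad : ∀ γ δ : F, (γ ≠ 0 ∨ δ ≠ 0) → ∃ w, w ≠ 0 ∧ γ • (g (w, 0)).1 + δ • (g (w, 0)).2 = 0
  · exfalso
    obtain ⟨e, he0, hee, h1, h2⟩ := hM.bad_one hl0 hl1 hg hbad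
    obtain ⟨e', x, hfr⟩ := exists_fr hM.e1 hM.two hM.three he0 hee
    obtain ⟨g', hg'⟩ := hM.bad_two hg hfr h1 h2
    exact hM.no_bad hsc hl0 hl hfr hg'
  push Not at hbad
  obtain ⟨γ, δ, hne, hinj⟩ := hbad
  set p : Module.End F (κ → F) := LinearMap.fst F _ _ ∘ₗ g.toLinearMap ∘ₗ LinearMap.inl F _ _ with hp
  set r : Module.End F (κ → F) := LinearMap.snd F _ _ ∘ₗ g.toLinearMap ∘ₗ LinearMap.inl F _ _ with hr
  have hpa : ∀ w, (g (w, 0)).1 = p w := fun w => rfl
  have hra : ∀ w, (g (w, 0)).2 = r w := fun w => rfl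
  by_cases hδ : δ = 0
  · have hγ : γ ≠ 0 := hne.resolve_right (fun h => h hδ)
    have hpinj : Function.Injective p := by
      rw [injective_iff_map_eq_zero]
      intro w hw
      by_contra hw0
      apply hinj w hw0
      rw [hδ, zero_smul, add_zero, hpa, hw, smul_zero]
    obtain ⟨c, hc⟩ := rational hH h3 hl0 hl (M.mul_mem hM.wy_mem hg) (fun w hw => by
      rw [LinearEquiv.mul_apply, wy_apply] at hw
      exact hpinj (hw.trans (map_zero p).symm))
    refine ⟨p, 1, -c, hpinj, fun w => ?_⟩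
    have h4 := hc w
    rw [LinearEquiv.mul_apply, wy_apply] at h4
    simp only [hpa, hra] at h4
    refine Prod.ext ?_ ?_
    · rw [hpa, one_smul]
    · rw [hra, neg_smul, ← h4, neg_neg]
  · set c' := γ / δ with hc'
    set q : Module.End F (κ → F) := r + c' • p with hq
    have hqinj : Function.Injective q := by
      rw [injective_iff_map_eq_zero]
      intro w hw
      by_contra hw0
      apply hinj w hw0
      rw [hpa, hra]
      have h4 : γ • p w + δ • r w = δ • q w := by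
        rw [hq, LinearMap.add_apply, LinearMap.smul_apply, smul_add, smul_smul, hc', mul_div_cancel₀ _ hδ, add_comm]
      rw [h4, hw, smul_zero]
    obtain ⟨c, hc⟩ := rational hH h3 hl0 hl (M.mul_mem (hM.y c') hg) (fun w hw => by
      rw [LinearEquiv.mul_apply, yt_apply] at hw
      exact hqinj (Eq.trans hw (map_zero q).symm))
    have h5 : ∀ w, p w = c • q w := by
      intro w
      have h4 := hc w
      rw [LinearEquiv.mul_apply, yt_apply] at h4
      exact h4
    refine ⟨q, c, 1 - c' * c, hqinj, fun w => Prod.ext (h5 w) ?_⟩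
    rw [hra]
    have h6 : r w = q w - c' • p w := by rw [hq, LinearMap.add_apply, LinearMap.smul_apply, add_sub_cancel_right]
    rw [h6, h5]
    module

/-- all elements preserve the tensor decomposition -/
theorem HypO.tensor [Fintype F] (hM : HypO X M) (hsc : ∀ z : Module.End F (κ → F), xt z ∈ M → IsSc z) {l : F} (hl0 : l ≠ 0) (hl : l ^ 2 ≠ 1)
    {g : ((κ → F) × (κ → F)) ≃ₗ[F] ((κ → F) × (κ → F))} (hg : g ∈ M) :
    ∃ (q : Module.End F (κ → F)) (a b c d : F), ∀ v, g v = (a • q v.1 + b • q v.2, c • q v.1 + d • q v.2) := by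
  obtain ⟨w0, hw0⟩ : ∃ w : κ → F, w ≠ 0 := by
    obtain ⟨e, he, -⟩ := exists_iso_vec hM.e1 hM.two hM.three
    exact ⟨e, he⟩
  obtain ⟨q, a, c, hq, h1⟩ := hM.good hsc hl0 hl hg
  obtain ⟨q₂, b, d, hq₂, h2⟩ := hM.good hsc hl0 hl (M.mul_mem hg hM.wy_mem)
  obtain ⟨q₃, x, y, hq₃, h3⟩ := hM.good hsc hl0 hl (M.mul_mem hg (hM.y 1))
  have h2' : ∀ w, g (0, w) = (b • q₂ w, d • q₂ w) := by
    intro w
    have := h2 w
    rw [LinearEquiv.mul_apply, wy_apply] at this
    simpa only [neg_zero] using this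
  have h3' : ∀ w, g (w, w) = (x • q₃ w, y • q₃ w) := by
    intro w
    have := h3 w
    rw [LinearEquiv.mul_apply, yt_apply, one_smul] at this
    simpa only [zero_add, Module.End.one_apply] using this
  have hgv : ∀ v : (κ → F) × (κ → F), g v = (a • q v.1 + b • q₂ v.2, c • q v.1 + d • q₂ v.2) := by
    intro v
    have : v = (v.1, 0) + (0, v.2) := by ext <;> simp
    conv_lhs => rw [this]
    rw [map_add, h1, h2', Prod.mk_add_mk]
  have e1 : ∀ w, a • q w + b • q₂ w = x • q₃ w := fun w => by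
    have := (hgv (w, w)).symm.trans (h3' w)
    exact congrArg Prod.fst this
  have e2 : ∀ w, c • q w + d • q₂ w = y • q₃ w := fun w => by
    have := (hgv (w, w)).symm.trans (h3' w)
    exact congrArg Prod.snd this
  have e3 : ∀ w, (y * a - x * c) • q w + (y * b - x * d) • q₂ w = 0 := by
    intro w
    have h4 : y • (a • q w + b • q₂ w) - x • (c • q w + d • q₂ w) = 0 := by rw [e1, e2]; module
    rw [← h4]; module
  have hq0 : q w0 ≠ 0 := fun h => hw0 (hq (h.trans (map_zero q).symm))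
  have hq20 : q₂ w0 ≠ 0 := fun h => hw0 (hq₂ (h.trans (map_zero q₂).symm))
  -- `(x, y) ≠ 0`
  have hxy : x ≠ 0 ∨ y ≠ 0 := by
    by_contra hcon
    push Not at hcon
    have h4 := h3' w0
    rw [hcon.1, hcon.2, zero_smul] at h4
    have h5 := g.injective (h4.trans (map_zero g).symm)
    exact hw0 (congrArg Prod.fst h5)
  have hne : y * b - x * d ≠ 0 := by
    intro h0
    have h4 := e3 w0
    rw [h0, zero_smul, add_zero] at h4
    have h5 : y * a - x * c = 0 := (smul_eq_zero.1 h4).resolve_right hq0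
    -- the image is too small
    have h6 : ∀ v : (κ → F) × (κ → F), y • (g v).1 = x • (g v).2 := by
      intro v
      rw [hgv]
      simp only [smul_add, smul_smul]
      rw [show y * a = x * c by linear_combination h5, show y * b = x * d by linear_combination h0]
    rcases hxy with hx | hy
    · obtain ⟨v, hv⟩ := g.surjective (0, w0)
      have := h6 v
      rw [hv] at this
      simp only [smul_zero] at this
      exact hw0 ((smul_eq_zero.1 this.symm).resolve_left hx)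
    · obtain ⟨v, hv⟩ := g.surjective (w0, 0)
      have := h6 v
      rw [hv] at this
      simp only [smul_zero] at this
      exact hw0 ((smul_eq_zero.1 this).resolve_left hy)
  set s := -(y * a - x * c) / (y * b - x * d) with hs
  have h7 : ∀ w, q₂ w = s • q w := by
    intro w
    have h4 := e3 w
    have h5 : (y * b - x * d) • q₂ w = (-(y * a - x * c)) • q w := by
      rw [neg_smul]
      exact eq_neg_of_add_eq_zero_right h4
    have h6 := congrArg (fun v => (y * b - x * d)⁻¹ • v) h5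
    simp only [smul_smul] at h6
    rw [inv_mul_cancel₀ hne, one_smul] at h6
    rw [h6, hs]
    congr 1
    field_simp
  refine ⟨q, a, b * s, c, d * s, fun v => ?_⟩
  rw [hgv, h7, smul_smul, smul_smul]

end Cfsg.Agent.SmallDim.TenB
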