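import Cfsg.Agent.SmallDim.TenA
import Cfsg.Agent.SmallDim.SpTens

set_option autoImplicit false
set_option linter.unusedSectionVars false
set_option linter.unusedVariables false

/-!
Tensor decompositions `2 ⊗ 3` in `Sp_6`.
-/

namespace Cfsg.Agent.SmallDim.TenB

open Module Cfsg.Geo Cfsg.Agent.Asch Matrix Cfsg.Agent.GeoMax Cfsg.Agent.TenMax Cfsg.Agent.TenMax.InvAlg

open Cfsg.Agent.AschCases (tp kron_tp tmap tmap_apply form_tp)

open scoped Matrix MatrixGroups Kronecker

variable {F : Type*} [Field F] {α β : Type} [Fintype α] [DecidableEq α] [Fintype β] [DecidableEq β]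
  {T : TData (RingEquiv.refl F) α β} {S : Subgroup (GL (α × β) F)}

theorem tz_add_l (u u' : α → F) (w : β → F) : tz (u + u') w = tz u w + tz u' w := map_add (tR w) u u'
theorem tz_smul_l (c : F) (u : α → F) (w : β → F) : tz (c • u) w = c • tz u w := map_smul (tR w) c u
theorem tz_add_r (u : α → F) (w w' : β → F) : tz u (w + w') = tz u w + tz u w' := by
  funext p; simp only [tz, Pi.add_apply]; ring
theorem tz_smul_r (c : F) (u : α → F) (w : β → F) : tz u (c • w) = c • tz u w := by
  funext p; simp only [tz, Pi.smul_apply, smul_eq_mul]; ring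

/-- the coordinates -/
noncomputable def Ph (a b : α → F) : ((β → F) × (β → F)) →ₗ[F] (α × β → F) where
  toFun v := tz a v.1 + tz b v.2
  map_add' v v' := by simp only [Prod.fst_add, Prod.snd_add, tz_add_r]; abel
  map_smul' c v := by simp only [Prod.smul_fst, Prod.smul_snd, tz_smul_r, RingHom.id_apply, smul_add]

theorem Ph_apply (a b : α → F) (v : (β → F) × (β → F)) : Ph a b v = tz a v.1 + tz b v.2 := rfl

/-- the frame for the first factor -/
structure Pr (T : TData (RingEquiv.refl F) α β) (a b : α → F) : Prop where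
  alt : Alt T.X
  ab : T.X.f a b = 1
  span : ∀ u : α → F, ∃ x y : F, u = x • a + y • b
  card : Fintype.card α = 2

theorem Pr.ba {a b : α → F} (h : Pr T a b) : T.X.f b a = -1 := by
  rw [T.X.herm, h.ab, h.alt.e, map_one, mul_one]

theorem Pr.form {a b : α → F} (h : Pr T a b) (v v' : (β → F) × (β → F)) :
    T.Y.f (Ph a b v) (Ph a b v') = T.W.f v.1 v'.2 - T.W.f v.2 v'.1 := by
  rw [Ph_apply, Ph_apply]
  simp only [T.Y.sesq.add_left, T.Y.sesq.add_right, T.tp, h.ab, h.ba, h.alt.alt]
  ring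

theorem Pr.inj {a b : α → F} (h : Pr T a b) : Function.Injective (Ph a b : ((β → F) × (β → F)) →ₗ[F] (α × β → F)) := by
  rw [injective_iff_map_eq_zero]
  intro v hv
  have h1 : ∀ v' : (β → F) × (β → F), T.W.f v.1 v'.2 - T.W.f v.2 v'.1 = 0 := fun v' => by
    rw [← h.form, hv, T.Y.zero_left]
  ext1
  · apply T.W.eq_zero
    intro w
    have := h1 (0, w)
    simpa [T.W.zero_right] using this
  · apply T.W.eq_zero
    intro w
    have := h1 (w, 0)
    simpa [T.W.zero_right] using this

/-- the coordinates as an equivalence -/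
noncomputable def Pr.E {a b : α → F} (h : Pr T a b) : ((β → F) × (β → F)) ≃ₗ[F] (α × β → F) :=
  LinearEquiv.ofInjectiveOfFinrankEq (Ph a b) h.inj (by
    rw [Module.finrank_prod, finrank_fintype_fun_eq_card, finrank_fintype_fun_eq_card, Fintype.card_prod, h.card]; ring)

theorem Pr.E_apply {a b : α → F} (h : Pr T a b) (v : (β → F) × (β → F)) : h.E v = Ph a b v := rfl

/-- transport to the tensor product -/
noncomputable def Pr.tr {a b : α → F} (h : Pr T a b) (g : ((β → F) × (β → F)) ≃ₗ[F] ((β → F) × (β → F))) : Module.End F (α × β → F) :=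
  h.E.toLinearMap ∘ₗ g.toLinearMap ∘ₗ h.E.symm.toLinearMap

theorem Pr.tr_Ph {a b : α → F} (h : Pr T a b) (g : ((β → F) × (β → F)) ≃ₗ[F] ((β → F) × (β → F))) (v : (β → F) × (β → F)) :
    h.tr g (Ph a b v) = Ph a b (g v) := by
  rw [← h.E_apply, ← h.E_apply]
  show h.E (g (h.E.symm (h.E v))) = _
  rw [LinearEquiv.symm_apply_apply]

theorem Pr.tr_eq {a b : α → F} (h : Pr T a b) {g : ((β → F) × (β → F)) ≃ₗ[F] ((β → F) × (β → F))} {s : Module.End F (α × β → F)}
    (hs : ∀ v, s (Ph a b v) = Ph a b (g v)) : h.tr g = s := by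
  apply LinearMap.ext; intro x
  obtain ⟨v, rfl⟩ := h.E.surjective x
  rw [h.E_apply, h.tr_Ph, hs]

/-- the transported group -/
noncomputable def Pr.M {a b : α → F} (h : Pr T a b) (S : Subgroup (GL (α × β) F)) :
    Subgroup (((β → F) × (β → F)) ≃ₗ[F] ((β → F) × (β → F))) where
  carrier := {g | Has S (h.tr g)}
  one_mem' := by
    show Has S (h.tr 1)
    rw [h.tr_eq (s := 1) (fun v => rfl)]
    exact Has.one
  mul_mem' := by
    intro g g' hg hg'
    show Has S (h.tr (g * g'))
    rw [h.tr_eq (s := h.tr g * h.tr g') (fun v => by rw [Module.End.mul_apply, h.tr_Ph, h.tr_Ph]; rfl)]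
    exact Has.mul hg hg'
  inv_mem' := by
    intro g hg
    show Has S (h.tr g⁻¹)
    apply Has.inv hg
    rw [← h.tr_eq (g := 1) (s := 1) (fun v => rfl), h.tr_eq (g := 1) (s := h.tr g * h.tr g⁻¹) (fun v => by
      rw [Module.End.mul_apply, h.tr_Ph, h.tr_Ph, ← LinearEquiv.mul_apply, mul_inv_cancel])]

theorem Pr.mem_M {a b : α → F} (h : Pr T a b) {g : ((β → F) × (β → F)) ≃ₗ[F] ((β → F) × (β → F))} :
    g ∈ h.M S ↔ Has S (h.tr g) := Iff.rfl

/-- transvections of the first factor are isometries -/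
theorem alt_transv (hX : Alt T.X) (a : α → F) (t : F) (u v : α → F) :
    T.X.f ((1 + t • T.X.ro a a : Module.End F (α → F)) u) ((1 + t • T.X.ro a a : Module.End F (α → F)) v) = T.X.f u v := by
  simp only [LinearMap.add_apply, Module.End.one_apply, LinearMap.smul_apply, T.X.ro_apply, T.X.sesq.add_left, T.X.sesq.add_right,
    T.X.sesq.smul_left, T.X.smul_r, hX.alt]
  rw [T.X.herm v a, hX.e, RingEquiv.refl_apply]
  ring

theorem Pr.hypO {a b : α → F} (h : Pr T a b) (hS : OAll T S) (he : T.W.e = 1) (h2 : (2 : F) ≠ 0) (h3 : Fintype.card β = 3) :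
    HypO T.W (h.M S) where
  x t := by
    obtain ⟨s, hs, hst⟩ := hS.left _ (alt_transv h.alt a (-t))
    show Has S _
    rw [h.tr_eq (s := s) (fun v => ?_)]
    · exact hs
    have e1 : ∀ y, s (tz a y) = tz a y := fun y => by
      have := LinearMap.congr_fun (hst y) a
      rw [LinearMap.comp_apply, LinearMap.comp_apply, tR_apply, tR_apply] at this
      rw [this, LinearMap.add_apply, LinearMap.smul_apply, T.X.ro_apply, h.alt.alt, zero_smul, smul_zero, add_zero]; rfl
    have e2 : ∀ y, s (tz b y) = tz b y + t • tz a y := fun y => by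
      have := LinearMap.congr_fun (hst y) b
      rw [LinearMap.comp_apply, LinearMap.comp_apply, tR_apply, tR_apply] at this
      rw [this, LinearMap.add_apply, LinearMap.smul_apply, T.X.ro_apply, h.ba, ← tz_smul_l, ← tz_add_l]
      congr 1
      show b + _ = _
      module
    rw [Ph_apply, map_add, e1, e2, xt_apply, Ph_apply, LinearMap.smul_apply, Module.End.one_apply, tz_add_r, tz_smul_r]
    abel
  y t := by
    obtain ⟨s, hs, hst⟩ := hS.left _ (alt_transv h.alt b t)
    show Has S _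
    rw [h.tr_eq (s := s) (fun v => ?_)]
    · exact hs
    have e1 : ∀ y, s (tz b y) = tz b y := fun y => by
      have := LinearMap.congr_fun (hst y) b
      rw [LinearMap.comp_apply, LinearMap.comp_apply, tR_apply, tR_apply] at this
      rw [this, LinearMap.add_apply, LinearMap.smul_apply, T.X.ro_apply, h.alt.alt, zero_smul, smul_zero, add_zero]; rfl
    have e2 : ∀ y, s (tz a y) = tz a y + t • tz b y := fun y => by
      have := LinearMap.congr_fun (hst y) a
      rw [LinearMap.comp_apply, LinearMap.comp_apply, tR_apply, tR_apply] at this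
      rw [this, LinearMap.add_apply, LinearMap.smul_apply, T.X.ro_apply, h.ab, ← tz_smul_l, ← tz_add_l]
      congr 1
      show a + _ = _
      module
    rw [Ph_apply, map_add, e1, e2, yt_apply, Ph_apply, LinearMap.smul_apply, Module.End.one_apply, tz_add_r, tz_smul_r]
    abel
  iso g hg v v' := by
    rw [← h.form, ← h.form, ← h.tr_Ph, ← h.tr_Ph]
    exact hS.iso _ hg _ _
  orth k hk := by
    obtain ⟨s, hs, hst⟩ := hS.right k.toLinearMap hk
    show Has S _
    rw [h.tr_eq (s := s) (fun v => ?_)]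
    · exact hs
    have e1 : ∀ u y, s (tz u y) = tz u (k y) := fun u y => LinearMap.congr_fun (hst y) u
    rw [Ph_apply, map_add, e1, e1, dg_apply, Ph_apply]
  e1 := he
  two := h2
  three := h3

/-- the transvections -/
theorem Pr.ts {a b : α → F} (h : Pr T a b) (hf : IsSymplecticForm T.Y.f) {e : β → F} (he : T.W.e = 1)
    (hts : ∀ c : F, xt (c • T.W.ro e e) ∈ h.M S) : Symp.TS hf S (tz a e) := by
  intro c
  obtain ⟨g, hg, hge⟩ := hts (-c)
  have : Symp.tr hf (tz a e) c = g := by
    apply GeoMax.gl_ext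
    intro x
    rw [Symp.tr_mulVec, ← toLin'_apply, hge]
    obtain ⟨v, rfl⟩ := h.E.surjective x
    rw [h.E_apply, h.tr_Ph, xt_apply, Ph_apply, Ph_apply]
    simp only [T.Y.sesq.add_left, T.tp, h.ba, h.alt.alt, LinearMap.smul_apply, T.W.ro_apply, tz_add_r, tz_smul_r]
    module
  rw [this]; exact hg

/-- frames for the first factor -/
theorem exists_pr (hX : Alt T.X) (hc : Fintype.card α = 2) {a : α → F} (ha : a ≠ 0) : ∃ b, Pr T a b := by
  obtain ⟨b, hb⟩ := T.X.nd a ha
  set b' := (T.X.f a b)⁻¹ • b with hb'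
  have hab : T.X.f a b' = 1 := by rw [hb', T.X.smul_r, inv_mul_cancel₀ hb]
  have hba : T.X.f b' a = -1 := by rw [T.X.herm, hab, hX.e, map_one, mul_one]
  refine ⟨b', hX, hab, fun u => ?_, hc⟩
  have hli : LinearIndependent F ![a, b'] := by
    rw [LinearIndependent.pair_iff]
    intro s t hst
    have a1 := congrArg (fun y => T.X.f y b') hst
    have a2 := congrArg (fun y => T.X.f y a) hst
    simp only [T.X.sesq.add_left, T.X.sesq.smul_left, T.X.zero_left, hX.alt, hab, hba] at a1 a2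
    exact ⟨by linear_combination a1, by linear_combination -a2⟩
  have hspan : Submodule.span F (Set.range ![a, b']) = ⊤ :=
    hli.span_eq_top_of_card_eq_finrank' (by rw [finrank_fintype_fun_eq_card, Fintype.card_fin, hc])
  have hy : u ∈ Submodule.span F (Set.range ![a, b']) := by rw [hspan]; trivial
  obtain ⟨g, hg⟩ := (Submodule.mem_span_range_iff_exists_fun F).1 hy
  rw [Fin.sum_univ_two] at hg
  exact ⟨_, _, hg.symm⟩

/-- transitivity on isotropic lines -/
theorem ts_conj_iso (hS : OAll T S) (hf : IsSymplecticForm T.Y.f) (he : T.W.e = 1) (h2 : (2 : F) ≠ 0) (h3 : Fintype.card β = 3)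
    {u : α → F} {e w : β → F} (he0 : e ≠ 0) (hee : T.W.f e e = 0) (hww : T.W.f w w = 0) (hts : Symp.TS hf S (tz u e)) :
    Symp.TS hf S (tz u w) := by
  by_cases hew : T.W.f e w = 0
  · -- proportional
    obtain ⟨e', x, hfr⟩ := exists_fr he h2 h3 he0 hee
    obtain ⟨a, b, c, rfl⟩ := hfr.span w
    have hb : b = 0 := by
      rw [T.W.sesq.add_right, T.W.sesq.add_right, T.W.smul_r, T.W.smul_r, T.W.smul_r, hfr.ee, hfr.ee', hfr.ex] at hew
      linear_combination hew
    rw [hb, zero_smul, add_zero] at hww ⊢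
    have hc : c = 0 := by
      simp only [T.W.sesq.add_right, T.W.sesq.add_left, T.W.smul_r, T.W.sesq.smul_left, hfr.ee, hfr.ex, hfr.xe] at hww
      have : (c * c) * T.W.f x x = 0 := by linear_combination hww
      exact mul_self_eq_zero.1 ((mul_eq_zero.1 this).resolve_right hfr.xx)
    rw [hc, zero_smul, add_zero, tz_smul_r]
    exact hts.smul a
  · -- reflection
    set n := e - w with hn
    have hwe : T.W.f w e = T.W.f e w := by rw [T.W.symm1 he]
    have hnn : T.W.f n n = -(2 * T.W.f e w) := by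
      rw [hn, T.W.sesq.sub_left, T.W.sub_right, T.W.sub_right, hee, hww, hwe]; ring
    have hnn0 : T.W.f n n ≠ 0 := by rw [hnn]; exact neg_ne_zero.2 (mul_ne_zero h2 hew)
    set k : Module.End F (β → F) := 1 + (-(2 / T.W.f n n)) • T.W.ro n n with hk
    have hkv : ∀ v, k v = v - (2 * T.W.f v n / T.W.f n n) • n := by
      intro v
      rw [hk, LinearMap.add_apply, Module.End.one_apply, LinearMap.smul_apply, T.W.ro_apply, smul_smul]
      module
    have hiso : ∀ v v', T.W.f (k v) (k v') = T.W.f v v' := by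
      intro v v'
      rw [hkv, hkv]
      simp only [T.W.sesq.sub_left, T.W.sub_right, T.W.sesq.smul_left, T.W.smul_r]
      rw [T.W.symm1 he n v']
      field_simp
      ring
    obtain ⟨s, ⟨g, hg, hgs⟩, hst⟩ := hS.right k hiso
    have hke : k e = w := by
      rw [hkv, hnn]
      have h5 : T.W.f e n = - T.W.f e w := by rw [hn, T.W.sub_right, hee, zero_sub]
      have h6 : 2 * T.W.f e n / -(2 * T.W.f e w) = 1 := by
        rw [h5]; field_simp
      rw [h6, one_smul, hn]
      abel
    have hgi : g ∈ isoGL T.Y.f := mem_isoGL.2 fun x y => by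
      have := hS.iso _ ⟨g, hg, rfl⟩ x y
      rwa [toLin'_apply, toLin'_apply] at this
    have := hts.conj hgi hg
    have h7 : (g : Matrix (α × β) (α × β) F) *ᵥ (tz u e) = tz u w := by
      rw [← toLin'_apply, hgs, ← hke]
      exact LinearMap.congr_fun (hst e) u
    rwa [h7] at this

/-- from isotropic to all pure tensors -/
theorem ts_all_pure [Fintype F] (hS : OAll T S) (hf : IsSymplecticForm T.Y.f) (he : T.W.e = 1) (h2 : (2 : F) ≠ 0) (h3 : Fintype.card β = 3)
    (hX : Alt T.X) {l : F} (hl0 : l ≠ 0) (hl : l ^ 2 ≠ 1)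
    (h : ∀ u w, T.W.f w w = 0 → Symp.TS hf S (tz u w)) : ∀ u w, Symp.TS hf S (tz u w) := by
  intro u y
  by_cases hy : T.W.f y y = 0
  · exact h u y hy
  by_cases hu0 : u = 0
  · have : tz u y = (0 : F) • tz u y := by
      rw [← tz_smul_l, hu0, smul_zero]
    rw [this]
    have h0 : ((0 : F) • tz u y : α × β → F) = 0 := zero_smul _ _
    rw [h0]; exact Symp.TS.zero hf S
  -- an isotropic vector not orthogonal to `y`
  obtain ⟨w, hw0, hww, hyw⟩ : ∃ w : β → F, w ≠ 0 ∧ T.W.f w w = 0 ∧ T.W.f y w ≠ 0 := by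
    obtain ⟨e, he0, hee⟩ := exists_iso_vec (X := T.W) he h2 h3
    obtain ⟨e', x, hfr⟩ := exists_fr he h2 h3 he0 hee
    by_contra hcon
    push Not at hcon
    have he'0 : e' ≠ 0 := by
      rintro rfl
      have := hfr.ee'
      rw [T.W.zero_right] at this
      exact zero_ne_one this
    have c1 := hcon e he0 hee
    have c2 := hcon e' he'0 hfr.e'e'
    have hv : T.W.f (e + x - (T.W.f x x / 2) • e') (e + x - (T.W.f x x / 2) • e') = 0 := by
      simp only [T.W.sesq.add_left, T.W.sesq.sub_left, T.W.sesq.smul_left, T.W.sesq.add_right, T.W.sub_right, T.W.smul_r, hfr.ee,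
        hfr.ee', hfr.e'e', hfr.e'e, hfr.xe, hfr.ex, hfr.xe', hfr.e'x]
      field_simp
      ring
    have hv0 : e + x - (T.W.f x x / 2) • e' ≠ 0 := by
      intro h0
      have := congrArg (fun z => T.W.f z e') h0
      simp only [T.W.sesq.add_left, T.W.sesq.sub_left, T.W.sesq.smul_left, hfr.ee', hfr.xe', hfr.e'e', T.W.zero_left] at this
      exact one_ne_zero (by linear_combination this)
    have c3 := hcon _ hv0 hv
    rw [T.W.sub_right, T.W.sesq.add_right, T.W.smul_r, c1, c2] at c3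
    have c3' : T.W.f y x = 0 := by linear_combination c3
    apply hy
    obtain ⟨a, b, c, hab⟩ := hfr.span y
    conv_lhs => rw [hab]
    rw [hab] at c1 c2 c3'
    simp only [T.W.sesq.add_left, T.W.sesq.smul_left, hfr.ee, hfr.ee', hfr.e'e', hfr.e'e, hfr.xe, hfr.ex, hfr.xe', hfr.e'x] at c1 c2 c3'
    have d1 : b = 0 := by linear_combination c1
    have d2 : a = 0 := by linear_combination c2
    have d3 : c = 0 := (mul_eq_zero.1 (show c * T.W.f x x = 0 by linear_combination c3')).resolve_right hfr.xx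
    rw [d1, d2, d3, zero_smul, zero_smul, zero_smul, add_zero, add_zero, T.W.zero_left]
  -- the two isotropic summands
  set w₁ := (T.W.f y y / (2 * T.W.f y w)) • w with hw₁
  set w₂ := y - w₁ with hw₂
  have i1 : T.W.f w₁ w₁ = 0 := by rw [hw₁, T.W.sesq.smul_left, T.W.smul_r, hww]; ring
  have hyw₁ : T.W.f y w₁ = T.W.f y y / 2 := by
    rw [hw₁, T.W.smul_r]; field_simp
  have hw₁y : T.W.f w₁ y = T.W.f y y / 2 := by rw [T.W.symm1 he, hyw₁]
  have i2 : T.W.f w₂ w₂ = 0 := by
    rw [hw₂, T.W.sesq.sub_left, T.W.sub_right, T.W.sub_right, i1, hyw₁, hw₁y]; field_simp; ring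
  have i12 : T.W.f w₁ w₂ = T.W.f y y / 2 := by rw [hw₂, T.W.sub_right, i1, hw₁y, sub_zero]
  have i21 : T.W.f w₂ w₁ = T.W.f y y / 2 := by rw [T.W.symm1 he, i12]
  have hc0 : T.W.f y y / 2 ≠ 0 := div_ne_zero hy h2
  obtain ⟨x, hxw₁, hxw₂, hxx⟩ := exists_nonsing he h2 i1 i2 (by rw [i12]; exact hc0) h3.ge
  have hw₁x : T.W.f w₁ x = 0 := by rw [T.W.symm1 he, hxw₁]
  have hw₂x : T.W.f w₂ x = 0 := by rw [T.W.symm1 he, hxw₂]
  set c₀ := T.W.f y y / 2 with hc₀
  -- the third isotropic vector
  set v : F → (β → F) := fun t => w₁ + t • x - (t ^ 2 * (T.W.f x x / 2) / c₀) • w₂ with hv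
  have hvv : ∀ t, T.W.f (v t) (v t) = 0 := by
    intro t
    simp only [hv, T.W.sesq.add_left, T.W.sesq.sub_left, T.W.sesq.smul_left, T.W.sesq.add_right, T.W.sub_right, T.W.smul_r, i1, i2,
      i12, i21, hxw₁, hxw₂, hw₁x, hw₂x]
    field_simp
    ring
  have hw₁v : ∀ t, T.W.f w₁ (v t) = -(t ^ 2 * (T.W.f x x / 2)) := by
    intro t
    simp only [hv, T.W.sesq.add_right, T.W.sub_right, T.W.smul_r, i1, i12, hw₁x]
    field_simp
    ring
  have hw₂v : ∀ t, T.W.f w₂ (v t) = c₀ := by
    intro t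
    simp only [hv, T.W.sesq.add_right, T.W.sub_right, T.W.smul_r, i2, i21, hw₂x]
    ring
  obtain ⟨t, ht0, htc⟩ : ∃ t : F, t ≠ 0 ∧ -(t ^ 2 * (T.W.f x x / 2)) + c₀ ≠ 0 := by
    by_cases h1 : -((1 : F) ^ 2 * (T.W.f x x / 2)) + c₀ = 0
    · refine ⟨l, hl0, fun h4 => ?_⟩
      have h5 : (1 - l ^ 2) * (T.W.f x x / 2) = 0 := by linear_combination h4 - h1
      exact (mul_ne_zero (sub_ne_zero.2 (Ne.symm hl)) (div_ne_zero hxx h2)) h5
    · exact ⟨1, one_ne_zero, h1⟩
  obtain ⟨b, hb⟩ := T.X.nd u hu0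
  have hsum : tz u w₁ + tz u w₂ = tz u y := by rw [← tz_add_r, hw₂, add_sub_cancel]
  rw [← hsum]
  have n1 : T.Y.f (tz u w₁) (tz b (v t)) ≠ 0 := by
    rw [T.tp, hw₁v]
    exact mul_ne_zero hb (neg_ne_zero.2 (mul_ne_zero (pow_ne_zero _ ht0) (div_ne_zero hxx h2)))
  have n2 : T.Y.f (tz u w₂) (tz b (v t)) ≠ 0 := by
    rw [T.tp, hw₂v]; exact mul_ne_zero hb hc0
  have n3 : T.Y.f (tz u w₁ + tz u w₂) (tz b (v t)) ≠ 0 := by
    rw [T.Y.sesq.add_left, T.tp, T.tp, hw₁v, hw₂v, ← mul_add]
    exact mul_ne_zero hb htc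
  exact ts_three (h u w₁ i1) (h u w₂ i2) (h b (v t) (hvv t)) n1 n2 n3

theorem hinjO (hS : OAll T S) {k : Module.End F (α × β → F)} (hk : Has S k) : Function.Injective k := by
  rw [injective_iff_map_eq_zero]
  intro v hv
  apply T.Y.eq_zero
  intro w
  rw [← hS.iso k hk, hv, T.Y.zero_left]

/-- the dichotomy for `2 ⊗ 3` -/
theorem case23 [Fintype F] (h2 : (2 : F) ≠ 0) (hq : 5 ≤ Fintype.card F) {T : TData (RingEquiv.refl F) (Fin 2) (Fin 3)}
    (hX : Alt T.X) (heW : T.W.e = 1) {S : Subgroup (GL (Fin 2 × Fin 3) F)} (hS : OAll T S) (hf : IsSymplecticForm T.Y.f) :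
    isoGL T.Y.f ≤ S ∨ S ≤ kroneckerSubgroup 2 3 F := by
  have h3 : Fintype.card (Fin 3) = 3 := Fintype.card_fin 3
  -- an element of the field
  obtain ⟨l, hl0, hl⟩ : ∃ l : F, l ≠ 0 ∧ l ^ 2 ≠ 1 := by
    classical
    by_contra hcon
    push Not at hcon
    have h4 : (Finset.univ : Finset F) ⊆ {0, 1, -1} := by
      intro x _
      simp only [Finset.mem_insert, Finset.mem_singleton]
      by_cases hx : x = 0
      · exact Or.inl hx
      · have h5 : (x - 1) * (x + 1) = 0 := by linear_combination hcon x hx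
        rcases mul_eq_zero.1 h5 with h6 | h6
        · exact Or.inr (Or.inl (sub_eq_zero.1 h6))
        · exact Or.inr (Or.inr (eq_neg_of_add_eq_zero_left h6))
    have h5 := Finset.card_le_card h4
    rw [Finset.card_univ] at h5
    have h6 : ({0, 1, -1} : Finset F).card ≤ 3 := Finset.card_le_three
    omega
  by_cases hall : ∀ (a b : Fin 2 → F) (h : Pr T a b), ∃ u : Fin 3 → F, u ≠ 0 ∧ T.W.f u u = 0 ∧ ∀ c : F, xt (c • T.W.ro u u) ∈ h.M S
  · left
    apply Symp.iso_le_of_TS hf
    apply ts_of_pure h2 hf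
    apply ts_all_pure hS hf heW h2 h3 hX hl0 hl
    intro u w hw
    by_cases hu0 : u = 0
    · have : tz u w = (0 : Fin 2 × Fin 3 → F) := by
        rw [hu0]
        have := tz_smul_l (0 : F) (0 : Fin 2 → F) w
        rwa [zero_smul, zero_smul] at this
      rw [this]; exact Symp.TS.zero hf S
    obtain ⟨b, hb⟩ := exists_pr hX (Fintype.card_fin 2) hu0
    obtain ⟨e, he0, hee, hts⟩ := hall u b hb
    exact ts_conj_iso hS hf heW h2 h3 he0 hee hw (hb.ts hf heW hts)
  · right
    push Not at hall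
    obtain ⟨a, b, h, hno⟩ := hall
    have hM := h.hypO hS heW h2 h3
    rcases hM.dich hq hl0 hl with hsc | ⟨u, hu0, huu, hts⟩
    swap
    · obtain ⟨c, hc⟩ := hno u hu0 huu
      exact absurd (hts c) hc
    intro g hg
    -- the element in coordinates
    set s := toLin' (g : Matrix (Fin 2 × Fin 3) (Fin 2 × Fin 3) F) with hs
    have hsinj : Function.Injective s := hinjO hS ⟨g, hg, rfl⟩
    set g' : ((Fin 3 → F) × (Fin 3 → F)) ≃ₗ[F] ((Fin 3 → F) × (Fin 3 → F)) :=
      (h.E.trans (LinearEquiv.ofInjectiveEndo s hsinj)).trans h.E.symm with hg'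
    have hg's : h.tr g' = s := h.tr_eq (fun v => by
      rw [← h.E_apply, ← h.E_apply, hg']
      show s (h.E v) = h.E (h.E.symm (s (h.E v)))
      rw [LinearEquiv.apply_symm_apply])
    have hg'M : g' ∈ h.M S := by
      rw [h.mem_M, hg's]
      exact ⟨g, hg, rfl⟩
    obtain ⟨q, a', b', c', d', hq'⟩ := hM.tensor hsc hl0 hl hg'M
    -- the action on the first factor
    set A : Module.End F (Fin 2 → F) :=
      { toFun := fun u => (T.X.f u b * a' + T.X.f a u * b') • a + (T.X.f u b * c' + T.X.f a u * d') • b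
        map_add' := fun u u' => by
          rw [T.X.sesq.add_left, T.X.sesq.add_right]; module
        map_smul' := fun c u => by
          rw [T.X.sesq.smul_left, T.X.smul_r, RingHom.id_apply]; module } with hA
    apply mem_kron_of_tR (by norm_num) (by norm_num) (A := A) (h := fun y => q y)
    intro y
    apply LinearMap.ext; intro u
    rw [LinearMap.comp_apply, LinearMap.comp_apply, tR_apply, tR_apply, ← hs]
    obtain ⟨p, r, rfl⟩ := h.span u
    have e1 : tz (p • a + r • b) y = Ph a b (p • y, r • y) := by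
      rw [Ph_apply, tz_add_l, tz_smul_l, tz_smul_l, tz_smul_r, tz_smul_r]
    rw [e1, ← hg's, h.tr_Ph, hq', Ph_apply]
    simp only [map_smul, tz_add_r, tz_smul_r]
    have e2 : A (p • a + r • b) = (p * a' + r * b') • a + (p * c' + r * d') • b := by
      show (T.X.f (p • a + r • b) b * a' + T.X.f a (p • a + r • b) * b') • a + (T.X.f (p • a + r • b) b * c' + T.X.f a (p • a + r • b) * d') • b = _
      rw [T.X.sesq.add_left, T.X.sesq.add_right, T.X.sesq.smul_left, T.X.sesq.smul_left, T.X.smul_r, T.X.smul_r, h.ab,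
        h.alt.alt, h.alt.alt]
      simp only [mul_one, mul_zero, add_zero, zero_add]
    rw [e2, tz_add_l, tz_smul_l, tz_smul_l]
    module

/-- class 4 in `Sp_6`, `2 ⊗ 3` -/
theorem isMaximalIn_tensor_sp6 [Fintype F] (h2 : (2 : F) ≠ 0) (hq : 5 ≤ Fintype.card F) {m : ℕ}
    (e : (Fin m ⊕ Fin m) ≃ Fin 2 × Fin 3) (P : GL (Fin m ⊕ Fin m) F)
    {f₁ : (Fin 2 → F) → (Fin 2 → F) → F} {f₂ : (Fin 3 → F) → (Fin 3 → F) → F} (hf₁ : IsSymplecticForm f₁)
    (hf₂ : IsSymmetricForm f₂) (hT : IsTensorFormStructure id (Cfsg.sympForm m F) f₁ f₂ e P) :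
    IsMaximalIn (Cfsg.spGL m F) (tensorProductSubgroup 2 3 e P ⊓ Cfsg.spGL m F) := by
  classical
  have hstd := Symp.std m F
  obtain ⟨c, hc0, hc⟩ := form_tp (σ := RingEquiv.refl F) (Asch.isSesq_of_bilinear hf₁.bilinear) (Asch.isSesq_of_bilinear hf₂.bilinear) hT
  set T : TData (RingEquiv.refl F) (Fin 2) (Fin 3) :=
    { X := SF.ofSymp (symp_smul hf₁ hc0)
      W := SF.ofSymm hf₂
      Y := SF.ofSymp (symp_comp hstd (tmap e P))
      tp := by
        intro u w u' w'
        show Cfsg.sympForm m F (tmap e P (tp u w)) (tmap e P (tp u' w')) = c * f₁ u u' * f₂ w w'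
        rw [hc]
        ring
      he := (mul_one _).symm } with hTd
  refine isMaximalIn_of_dich (le_refl 2) (by norm_num) e P (T := T) (fun x y => rfl) fun S hS => ?_
  exact case23 h2 hq (SF.ofSymp_alt (symp_smul hf₁ hc0)) rfl hS (symp_comp hstd (tmap e P))

end Cfsg.Agent.SmallDim.TenB
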