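import Cfsg.Agent.SmallDim.URat0
import Cfsg.Agent.H98.SubfieldMax
import Cfsg.Agent.H98.FrobCyc

/-!
Subfield subgroups of unitary groups: overgroups of `SU_n(q₀)` in `SU_n(q)`.
-/

set_option autoImplicit false
set_option linter.unusedSectionVars false

namespace Cfsg.Agent.SmallDim.URat

open Matrix Cfsg.Geo Module Cfsg.Agent.Uni Cfsg.Agent.H98.UniMax
open scoped MatrixGroups

variable {F : Type*} [Field F] [Fintype F] {n q q₀ : ℕ} {F₀ : Subfield F} [Fintype F₀]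

local notation "⟪" x ", " y "⟫" => Cfsg.hermForm _ _ q x y
local notation "⟪" x ", " y "⟫₀" => Cfsg.hermForm _ _ q₀ x y

/-- inclusion of rational vectors -/
def ee (x : Fin n → F₀) : Fin n → F := fun i => (x i : F)

lemma ee_add (x y : Fin n → F₀) : ee (x + y) = ee x + ee y := rfl
lemma ee_sub (x y : Fin n → F₀) : ee (x - y) = ee x - ee y := rfl
lemma ee_smul (c : F₀) (x : Fin n → F₀) : ee (c • x) = (c : F) • ee x := rfl
lemma ee_zero : ee (0 : Fin n → F₀) = 0 := rfl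
lemma ee_neg (x : Fin n → F₀) : ee (-x) = -ee x := rfl
lemma ee_inj {x y : Fin n → F₀} : ee x = ee y ↔ x = y := by
  constructor
  · intro h; ext i
    exact congrFun h i
  · rintro rfl; rfl
lemma ee_ne_zero {x : Fin n → F₀} (h : x ≠ 0) : ee x ≠ 0 := fun h0 => h (ee_inj.1 (h0.trans ee_zero.symm))

/-- a multiple of a rational nonzero vector in the span of rational vectors -/
lemma ee_smul_rat {c : F} {x y : Fin n → F₀} (hx : x ≠ 0) (h : c • ee x = ee y) : ∃ a : F₀, c = a := by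
  obtain ⟨i, hi⟩ := Function.ne_iff.1 hx
  have h1 := congrFun h i
  have hi' : (x i : F) ≠ 0 := fun h0 => hi (Subtype.ext h0)
  refine ⟨y i / x i, ?_⟩
  have h2 : c * (x i : F) = (y i : F) := h1
  rw [Subfield.coe_div, ← h2, mul_div_assoc, div_self hi', mul_one]

/-- context: `N ≤ SU_n(q)` contains `SU_n(q₀)` -/
structure Ctx (q₀ : ℕ) (F₀ : Subfield F) [Fintype F₀] (N : Subgroup (Cfsg.SU n F q)) : Prop where
  hF : Fintype.card F = q ^ 2
  hn : 6 ≤ n
  hF₀ : Fintype.card F₀ = q₀ ^ 2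
  hq : ∀ a : F₀, (a : F) ^ q = ((a ^ q₀ : F₀) : F)
  hN : ∀ g : Cfsg.SU n F q, (∀ x : Fin n → F₀, ∃ y : Fin n → F₀, act g (ee x) = ee y) → g ∈ N

variable {N : Subgroup (Cfsg.SU n F q)}

namespace Ctx

variable (C : Ctx q₀ F₀ N)
include C

lemma form (x y : Fin n → F₀) : ⟪ee x, ee y⟫ = ((⟪x, y⟫₀ : F₀) : F) := by
  rw [hermForm_def, hermForm_def]
  push_cast
  apply Finset.sum_congr rfl
  intro i _
  change (x i : F) * (y i : F) ^ q = _
  rw [C.hq]
  rfl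

lemma form_zero {x y : Fin n → F₀} (h : ⟪x, y⟫₀ = 0) : ⟪ee x, ee y⟫ = 0 := by rw [C.form, h]; rfl
lemma form_zero_iff {x y : Fin n → F₀} : ⟪ee x, ee y⟫ = 0 ↔ ⟪x, y⟫₀ = 0 := by
  rw [C.form]
  exact ⟨fun h => Subtype.ext h, fun h => by rw [h]; rfl⟩
lemma form_one {x y : Fin n → F₀} (h : ⟪x, y⟫₀ = 1) : ⟪ee x, ee y⟫ = 1 := by rw [C.form, h]; rfl

/-- rational Eichler elements -/
lemma ratE {u w : Fin n → F₀} {s : F₀} (hu : ⟪u, u⟫₀ = 0) (huw : ⟪u, w⟫₀ = 0) (hs : s + s ^ q₀ = -⟪w, w⟫₀) :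
    HasE N (ee u) (ee w) (s : F) := by
  obtain ⟨g, hg⟩ := exists_eich C.hF (ee u) (ee w) (s : F) (C.form_zero hu) (C.form_zero huw) (by
    rw [C.hq, C.form, ← Subfield.coe_neg, ← hs]; rfl)
  refine ⟨g, C.hN g fun x => ?_, hg⟩
  refine ⟨x + ⟪x, u⟫₀ • w - ⟪x, w⟫₀ • u + (s * ⟪x, u⟫₀) • u, ?_⟩
  rw [hg (ee x), C.form, C.form]
  rfl

lemma ratE0 {u w : Fin n → F₀} (hu : ⟪u, u⟫₀ = 0) (huw : ⟪u, w⟫₀ = 0) (hw : ⟪w, w⟫₀ = 0) :
    HasE N (ee u) (ee w) 0 := by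
  have h := C.ratE (s := 0) hu huw (by
    rw [hw, zero_pow (q_ne_zero C.hF₀)]; ring)
  simpa using h

lemma exists_ratE0 {u w : Fin n → F₀} (hu : ⟪u, u⟫₀ = 0) (huw : ⟪u, w⟫₀ = 0) (hw : ⟪w, w⟫₀ = 0) :
    ∃ g ∈ N, ∀ x, act g x = x + ⟪x, ee u⟫ • ee w - ⟪x, ee w⟫ • ee u := by
  obtain ⟨g, hg, hE⟩ := C.ratE0 hu huw hw
  refine ⟨g, hg, fun x => ?_⟩
  rw [hE x, zero_mul, zero_smul, add_zero]

/-- rational transvections -/
lemma exists_ratT {u : Fin n → F₀} (hu : ⟪u, u⟫₀ = 0) : ∃ a : F₀, a ≠ 0 ∧ (a : F) ^ q = -a ∧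
    ∃ g ∈ N, IsEich g (ee u) 0 (a : F) ∧ ∀ x, act g x = x + ((a : F) * ⟪x, ee u⟫) • ee u := by
  obtain ⟨a, ha0, ha⟩ := exists_skew C.hF₀
  have h1 := C.ratE (s := a) hu (hermForm_zero_right C.hF₀ u) (by
    rw [ha, hermForm_zero_left]; ring)
  obtain ⟨g, hg, hE⟩ := h1
  rw [ee_zero] at hE
  refine ⟨a, ha0, by rw [C.hq, ha]; rfl, g, hg, hE, (isEich_zero_iff C.hF g _ _).1 hE⟩

/-- transitivity on pairs -/
theorem move {y z y' z' : Fin n → F₀} (hy : ⟪y, y⟫₀ = 0) (hz : ⟪z, z⟫₀ = 0) (hyz : ⟪y, z⟫₀ = 0)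
    (hy' : ⟪y', y'⟫₀ = 0) (hz' : ⟪z', z'⟫₀ = 0) (hyz' : ⟪y', z'⟫₀ = 0)
    (hl : LinearIndependent F₀ ![y, z]) (hl' : LinearIndependent F₀ ![y', z']) :
    ∃ k ∈ N, act k (ee y) = ee y' ∧ act k (ee z) = ee z' := by
  classical
  have hF₀ := C.hF₀
  have hn := C.hn
  have hzy := (hermForm_eq_zero_comm hF₀).1 hyz
  have hzy' := (hermForm_eq_zero_comm hF₀).1 hyz'
  obtain ⟨g, hg⟩ := exists_GU_of_family hF₀ hl hl' (by
    intro i j
    fin_cases i <;> fin_cases j <;> simp [hy, hz, hyz, hy', hz', hyz', hzy, hzy'])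
  have hgy : gact g y = y' := hg 0
  have hgz : gact g z = z' := hg 1
  obtain ⟨w, hw, hww⟩ := exists_z hF₀ ({y', z'} : Finset (Fin n → F₀)) (by
    have : ({y', z'} : Finset (Fin n → F₀)).card ≤ 2 := Finset.card_le_two
    omega) (one_pow q₀)
  have hwy := (hermForm_eq_zero_comm hF₀).1 (hw y' (by simp))
  have hwz := (hermForm_eq_zero_comm hF₀).1 (hw z' (by simp))
  set δ : F₀ := ((g : GL (Fin n) F₀) : Matrix (Fin n) (Fin n) F₀).det with hδ
  have hδn : δ ^ (q₀ + 1) = 1 := Pres.det_norm hF₀ (GU_pres g)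
  have hδ0 : δ ≠ 0 := by
    intro h
    rw [h, zero_pow (by omega)] at hδn
    exact zero_ne_one hδn
  obtain ⟨g2, hg2, hdet2⟩ := exists_grefl hF₀ hww (a := δ⁻¹) (by rw [inv_pow, hδn, inv_one])
  set g1 : Cfsg.GU n F₀ q₀ := g2 * g with hg1
  have hg1y : gact g1 y = y' := by
    rw [hg1, gact_mul, hgy, hg2, hwy, mul_zero, zero_smul, add_zero]
  have hg1z : gact g1 z = z' := by
    rw [hg1, gact_mul, hgz, hg2, hwz, mul_zero, zero_smul, add_zero]
  set M₀ : Matrix (Fin n) (Fin n) F₀ := ((g1 : GL (Fin n) F₀) : Matrix (Fin n) (Fin n) F₀) with hM₀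
  have hdet1 : M₀.det = 1 := by
    have h1 : M₀ = ((g2 : GL (Fin n) F₀) : Matrix (Fin n) (Fin n) F₀) *
        ((g : GL (Fin n) F₀) : Matrix (Fin n) (Fin n) F₀) := rfl
    rw [h1, Matrix.det_mul]
    rw [detHom_coe] at hdet2
    rw [hdet2, ← hδ, inv_mul_cancel₀ hδ0]
  set M : Matrix (Fin n) (Fin n) F := M₀.map (F₀.subtype : F₀ →+* F) with hM
  have hMee : ∀ x : Fin n → F₀, M *ᵥ ee x = ee (M₀ *ᵥ x) := by
    intro x
    ext i
    exact (RingHom.map_mulVec (F₀.subtype : F₀ →+* F) M₀ x i).symm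
  have hMdet : M.det = 1 := by
    have h2 := RingHom.map_det (F₀.subtype : F₀ →+* F) M₀
    rw [hdet1, map_one] at h2
    exact h2.symm
  have hpres : Pres q M := by
    apply (preserves_iff C.hF M).2
    have h3 := (preserves_iff hF₀ M₀).1 (GU_pres g1)
    intro i j
    have h4 := C.form (fun r => M₀ r i) (fun r => M₀ r j)
    have h5 := h3 i j
    change ⟪ee (fun r => M₀ r i), ee (fun r => M₀ r j)⟫ = _
    rw [h4, h5]
    split_ifs <;> rfl
  refine ⟨mkSU M hpres hMdet, C.hN _ fun x => ⟨M₀ *ᵥ x, hMee x⟩, ?_, ?_⟩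
  · change M *ᵥ ee y = _
    rw [hMee, ← hg1y]; rfl
  · change M *ᵥ ee z = _
    rw [hMee, ← hg1z]; rfl

end Ctx

/-- the condition defining the coefficient ring -/
def InD (q₀ : ℕ) (F₀ : Subfield F) [Fintype F₀] (N : Subgroup (Cfsg.SU n F q)) (c : F) : Prop :=
  ∀ y z : Fin n → F₀, Cfsg.hermForm n F₀ q₀ y y = 0 → Cfsg.hermForm n F₀ q₀ z z = 0 →
    Cfsg.hermForm n F₀ q₀ y z = 0 → LinearIndependent F₀ ![y, z] → HasE N (ee y) (c • ee z) 0

lemma li_of_hyp {y z z' : Fin n → F₀} (_hF₀ : Fintype.card F₀ = q₀ ^ 2) (hy0 : y ≠ 0) (h1 : ⟪y, z'⟫₀ = 0)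
    (h2 : ⟪z, z'⟫₀ ≠ 0) : LinearIndependent F₀ ![y, z] := by
  rw [LinearIndependent.pair_iff]
  intro s t hst
  have h3 : ⟪s • y + t • z, z'⟫₀ = 0 := by rw [hst, hermForm_zero_left]
  rw [hermForm_add_left, hermForm_smul_left, hermForm_smul_left, h1, mul_zero, zero_add, mul_eq_zero] at h3
  have ht : t = 0 := h3.resolve_right h2
  subst ht
  rw [zero_smul, add_zero] at hst
  exact ⟨(smul_eq_zero.1 hst).resolve_right hy0, rfl⟩

lemma li_symm {y z : Fin n → F₀} (h : LinearIndependent F₀ ![y, z]) : LinearIndependent F₀ ![z, y] := by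
  rw [LinearIndependent.pair_iff] at h ⊢
  intro s t hst
  have := h t s (by rw [add_comm]; exact hst)
  exact ⟨this.2, this.1⟩

lemma li_of_notMem {y z : Fin n → F₀} (hy : y ≠ 0) (h : z ∉ Submodule.span F₀ {y}) :
    LinearIndependent F₀ ![y, z] := by
  rw [LinearIndependent.pair_iff]
  intro s t hst
  by_cases ht : t = 0
  · subst ht
    rw [zero_smul, add_zero] at hst
    exact ⟨(smul_eq_zero.1 hst).resolve_right hy, rfl⟩
  · exfalso
    apply h
    rw [Submodule.mem_span_singleton]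
    refine ⟨-(t⁻¹ * s), ?_⟩
    have h1 : t • z = -(s • y) := by rw [eq_neg_iff_add_eq_zero, add_comm]; exact hst
    rw [neg_smul, mul_smul, ← smul_neg, ← h1, smul_smul, inv_mul_cancel₀ ht, one_smul]

lemma ne_of_li {y z : Fin n → F₀} (h : LinearIndependent F₀ ![y, z]) : y ≠ 0 ∧ z ≠ 0 :=
  ⟨by simpa using h.ne_zero 0, by simpa using h.ne_zero 1⟩

lemma notMem_of_li {y z : Fin n → F₀} (h : LinearIndependent F₀ ![y, z]) : z ∉ Submodule.span F₀ {y} := by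
  intro hz
  obtain ⟨c, rfl⟩ := Submodule.mem_span_singleton.1 hz
  have := LinearIndependent.pair_iff.1 h c (-1) (by rw [neg_smul, one_smul, add_neg_cancel])
  exact one_ne_zero (neg_eq_zero.1 this.2)

namespace Ctx

variable (C : Ctx q₀ F₀ N)
include C

theorem inD_of {y z : Fin n → F₀} {c : F} (hy : ⟪y, y⟫₀ = 0) (hz : ⟪z, z⟫₀ = 0) (hyz : ⟪y, z⟫₀ = 0)
    (hl : LinearIndependent F₀ ![y, z]) (h : HasE N (ee y) (c • ee z) 0) : InD q₀ F₀ N c := by
  intro y' z' hy' hz' hyz' hl'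
  obtain ⟨k, hk, h1, h2⟩ := C.move hy hz hyz hy' hz' hyz' hl hl'
  have h3 := h.conj hk
  rwa [h1, act_smul, h2] at h3

theorem inD_mul {c d : F} (hc : InD q₀ F₀ N c) (hd : InD q₀ F₀ N d) : InD q₀ F₀ N (c * d) := by
  classical
  intro y w hy hw hyw hl
  have hn := C.hn
  obtain ⟨z, z', hz, hz', hzz', hzS, hz'S⟩ := exists_hyp_perp C.hF₀ ({y, w} : Finset (Fin n → F₀)) (by
    have : ({y, w} : Finset (Fin n → F₀)).card ≤ 2 := Finset.card_le_two
    omega)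
  obtain ⟨hy0, hw0⟩ := ne_of_li hl
  have zy := hzS y (by simp)
  have zw := hzS w (by simp)
  have z'y := hz'S y (by simp)
  have z'w := hz'S w (by simp)
  have yz := (hermForm_eq_zero_comm C.hF₀).1 zy
  have wz := (hermForm_eq_zero_comm C.hF₀).1 zw
  have yz' := (hermForm_eq_zero_comm C.hF₀).1 z'y
  have wz' := (hermForm_eq_zero_comm C.hF₀).1 z'w
  have hz'z : ⟪z', z⟫₀ = 1 := by rw [← hermForm_symm C.hF₀, hzz', one_pow]
  have h1 := hc y z hy hz yz (li_of_hyp C.hF₀ hy0 yz' (by rw [hzz']; exact one_ne_zero))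
  have h2 := hd z' w hz' hw z'w (li_symm (li_of_hyp C.hF₀ hw0 wz (by rw [hz'z]; exact one_ne_zero)))
  obtain ⟨k, hk, hkE⟩ := h2
  have hkx : ∀ x, act k x = x + ⟪x, ee z'⟫ • (d • ee w) - ⟪x, d • ee w⟫ • ee z' := by
    intro x
    rw [hkE x, zero_mul, zero_smul, add_zero]
  have eyz' := C.form_zero yz'
  have eyw := C.form_zero hyw
  have ezw := C.form_zero zw
  have ewz := C.form_zero wz
  have ezz' := C.form_one hzz'
  have ezz := C.form_zero hz
  have eww := C.form_zero hw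
  have eyz := C.form_zero yz
  have hky : act k (ee y) = ee y := by
    rw [hkx, hermForm_smul_right, eyw, eyz', mul_zero, zero_smul, zero_smul]
    simp
  have hkz : act k (c • ee z) = c • ee z + (c * d) • ee w := by
    rw [hkx, hermForm_smul_left, hermForm_smul_left, hermForm_smul_right, ezw, ezz', mul_zero, mul_zero, zero_smul,
      mul_one, sub_zero, smul_smul]
  have h3 := h1.conj hk
  rw [hky, hkz] at h3
  have h4 := HasE.sub C.hF (C.form_zero hy) (by rw [hermForm_smul_right, eyz, mul_zero])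
    (by rw [hermForm_smul_right, eyw, mul_zero]) (by
      rw [hermForm_smul_left, hermForm_smul_right, ezz, zero_pow (q_ne_zero C.hF)]; ring) h1 h3
  rwa [hermForm_smul_left, hermForm_smul_right, ezw, mul_zero, mul_zero] at h4

theorem inD_add {c d : F} (hc : InD q₀ F₀ N c) (hd : InD q₀ F₀ N d) : InD q₀ F₀ N (c + d) := by
  intro y z hy hz hyz hl
  have h1 := HasE.mul C.hF (C.form_zero hy) (by rw [hermForm_smul_right, C.form_zero hyz, mul_zero])
    (by rw [hermForm_smul_right, C.form_zero hyz, mul_zero]) (hc y z hy hz hyz hl) (hd y z hy hz hyz hl)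
  rwa [hermForm_smul_left, hermForm_smul_right, C.form_zero hz, mul_zero, mul_zero, add_zero, sub_zero,
    ← add_smul] at h1

theorem inD_rat (c : F₀) : InD q₀ F₀ N (c : F) := by
  intro y z hy hz hyz _
  have h1 := C.ratE0 (u := y) (w := c • z) hy (by rw [hermForm_smul_right, hyz, mul_zero])
    (by rw [hermForm_smul_left, hermForm_smul_right, hz, mul_zero, mul_zero])
  rwa [ee_smul] at h1

/-- the coefficient algebra -/
def dAlg : Subalgebra F₀ F where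
  carrier := {c | InD q₀ F₀ N c}
  mul_mem' hc hd := C.inD_mul hc hd
  add_mem' hc hd := C.inD_add hc hd
  algebraMap_mem' c := C.inD_rat c

theorem mem_dAlg {c : F} : c ∈ C.dAlg ↔ InD q₀ F₀ N c := Iff.rfl

end Ctx

end Cfsg.Agent.SmallDim.URat
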