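import Cfsg.Agent.H98.UniGeo

/-!
Existence lemmas in unitary spaces with sharp bounds on the dimension.
-/

set_option autoImplicit false
set_option linter.unusedSectionVars false

namespace Cfsg.Agent.SmallDim.URat

open Matrix Cfsg.Geo Module Cfsg.Agent.Uni Cfsg.Agent.H98.UniMax
open scoped MatrixGroups

variable {F : Type*} [Field F] [Fintype F] {n q : ℕ}

local notation "⟪" x ", " y "⟫" => Cfsg.hermForm _ _ q x y

/-- the form on `W` has rank at least two -/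
def Rk2 (q : ℕ) (W : Submodule F (Fin n → F)) : Prop :=
  finrank F (W ⊓ Uni.perp q W : Submodule F (Fin n → F)) + 2 ≤ finrank F W

lemma rk2_of_card (hF : Fintype.card F = q ^ 2) (S : Finset (Fin n → F)) (hS : 2 * S.card + 2 ≤ n) :
    Rk2 q (Uni.perp q (Submodule.span F (S : Set (Fin n → F)))) := by
  unfold Rk2
  rw [Uni.perp_perp hF]
  have h1 : finrank F (Submodule.span F (S : Set (Fin n → F))) ≤ S.card := finrank_span_finset_le_card S
  have h2 := Uni.finrank_perp hF (Submodule.span F (S : Set (Fin n → F)))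
  have h3 := Submodule.finrank_mono (inf_le_right :
    Uni.perp q (Submodule.span F (S : Set (Fin n → F))) ⊓ Submodule.span F (S : Set (Fin n → F)) ≤ _)
  omega

lemma exists_norm_in (hF : Fintype.card F = q ^ 2) {W : Submodule F (Fin n → F)} (hW : Rk2 q W) {x : Fin n → F}
    (hx : x ∈ W) (hxx : ⟪x, x⟫ ≠ 0) {s : F} (hs : s ^ q = s) : ∃ z ∈ W, ⟪z, x⟫ = 0 ∧ ⟪z, z⟫ = s := by
  by_cases hs0 : s = 0
  · subst hs0
    exact ⟨0, W.zero_mem, Uni.hermForm_zero_left x, Uni.hermForm_zero_left 0⟩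
  by_contra hcon
  push Not at hcon
  have hnd := Uni.nd_span_unit (q := q) hxx
  have hle : Submodule.span F {x} ≤ W := by
    rw [Submodule.span_singleton_le_iff_mem]; exact hx
  have h3 := Uni.finrank_inf_perp hF hnd hle
  have hxne : x ≠ 0 := by
    rintro rfl
    exact hxx (Uni.hermForm_zero_left _)
  rw [finrank_span_singleton hxne] at h3
  have h1 : ∀ u ∈ W ⊓ Uni.perp q (Submodule.span F {x}), ⟪u, u⟫ = 0 := by
    rintro u ⟨huW, hu⟩
    by_contra hne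
    have hfix : (s / ⟪u, u⟫) ^ q = s / ⟪u, u⟫ := by
      rw [div_pow, hs, Uni.hermForm_self_pow_q hF]
    obtain ⟨c, hc⟩ := Uni.exists_norm_eq hF hfix
    apply hcon (c • u) (W.smul_mem _ huW)
    · rw [Uni.hermForm_smul_left, hu x (Submodule.mem_span_singleton_self x), mul_zero]
    · rw [Uni.hermForm_smul_left, Uni.hermForm_smul_right, ← mul_assoc, ← pow_succ', hc, div_mul_cancel₀ _ hne]
  have h2 : W ⊓ Uni.perp q (Submodule.span F {x}) ≤ W ⊓ Uni.perp q W := by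
    intro u hu
    refine ⟨hu.1, fun w hw => ?_⟩
    set w' := w - (⟪w, x⟫ / ⟪x, x⟫) • x with hw'
    have hw'x : ⟪w', x⟫ = 0 := by
      rw [hw', Uni.hermForm_sub_left, Uni.hermForm_smul_left, div_mul_cancel₀ _ hxx, sub_self]
    have hw'm : w' ∈ W ⊓ Uni.perp q (Submodule.span F {x}) := by
      refine ⟨W.sub_mem hw (W.smul_mem _ hx), ?_⟩
      exact (Uni.mem_perp_span hF).2 (by
        intro c hc
        rw [Set.mem_singleton_iff] at hc
        rw [hc]; exact hw'x)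
    have h4 : ⟪u, w'⟫ = 0 := Uni.hermForm_eq_zero_of_self hF _ h1 hu hw'm
    have h5 : ⟪u, x⟫ = 0 := hu.2 x (Submodule.mem_span_singleton_self x)
    have h6 : w = w' + (⟪w, x⟫ / ⟪x, x⟫) • x := by rw [hw']; abel
    rw [h6, Uni.hermForm_add_right hF, h4, Uni.hermForm_smul_right, h5, mul_zero, add_zero]
  have h4 := Submodule.finrank_mono h2
  unfold Rk2 at hW
  omega

lemma decomp_in (hF : Fintype.card F = q ^ 2) {W : Submodule F (Fin n → F)} (hW : Rk2 q W) (x : Fin n → F)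
    (hx : x ∈ W) : ∃ (y y' : Fin n → F) (a b : F), ⟪y, y⟫ = 0 ∧ ⟪y', y'⟫ = 0 ∧ x = a • y + b • y' ∧ y ∈ W ∧ y' ∈ W := by
  by_cases hxx : ⟪x, x⟫ = 0
  · exact ⟨x, 0, 1, 0, hxx, Uni.hermForm_zero_left _, by simp, hx, W.zero_mem⟩
  obtain ⟨z, hz, hzx, hzz⟩ := exists_norm_in hF hW hx hxx (s := -⟪x, x⟫) (by
    rw [Uni.neg_pow_q hF, Uni.hermForm_self_pow_q hF])
  obtain ⟨l, hl, hl2⟩ := Uni.exists_norm_one_sq_ne hF
  have hl1 : l - 1 ≠ 0 := by
    intro h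
    apply hl2
    rw [sub_eq_zero.1 h, one_pow]
  have hxz := (Uni.hermForm_eq_zero_comm hF).1 hzx
  refine ⟨x + z, x + l • z, l / (l - 1), -(1 / (l - 1)), ?_, ?_, ?_, W.add_mem hx hz, W.add_mem hx (W.smul_mem _ hz)⟩
  · rw [Uni.hermForm_add_left, Uni.hermForm_add_right hF, Uni.hermForm_add_right hF, hzx, hxz, hzz]
    ring
  · rw [Uni.hermForm_add_left, Uni.hermForm_add_right hF, Uni.hermForm_add_right hF, Uni.hermForm_smul_left,
      Uni.hermForm_smul_left, Uni.hermForm_smul_right, Uni.hermForm_smul_right, hzx, hxz, hzz]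
    have : l * (l ^ q * -⟪x, x⟫) = (l ^ (q + 1)) * -⟪x, x⟫ := by ring
    rw [this, hl]
    ring
  · ext i
    simp only [Pi.add_apply, Pi.smul_apply, smul_eq_mul]
    field_simp
    ring

lemma iso_one_in (hF : Fintype.card F = q ^ 2) {W : Submodule F (Fin n → F)} (hW : Rk2 q W) (w y : Fin n → F)
    (hy : y ∈ W) (hwy : ⟪w, y⟫ ≠ 0) : ∃ u : Fin n → F, ⟪u, u⟫ = 0 ∧ u ∈ W ∧ ⟪w, u⟫ ≠ 0 := by
  obtain ⟨u, u', a, b, hu, hu', hxy, huW, hu'W⟩ := decomp_in hF hW y hy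
  by_cases h1 : ⟪w, u⟫ = 0
  · refine ⟨u', hu', hu'W, fun h2 => hwy ?_⟩
    rw [hxy, Uni.hermForm_add_right hF, Uni.hermForm_smul_right, Uni.hermForm_smul_right, h1, h2, mul_zero, mul_zero,
      add_zero]
  · exact ⟨u, hu, huW, h1⟩

lemma partner_in (hF : Fintype.card F = q ^ 2) {W : Submodule F (Fin n → F)} (hW : Rk2 q W) (w y : Fin n → F)
    (hy : y ∈ W) (hwy : ⟪w, y⟫ ≠ 0) : ∃ u : Fin n → F, ⟪u, u⟫ = 0 ∧ u ∈ W ∧ ⟪w, u⟫ = 1 := by
  obtain ⟨u, hu, huW, hwu⟩ := iso_one_in hF hW w y hy hwy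
  refine ⟨((⟪w, u⟫)⁻¹ ^ q) • u, ?_, W.smul_mem _ huW, ?_⟩
  · rw [Uni.hermForm_smul_left, Uni.hermForm_smul_right, hu, mul_zero, mul_zero]
  · rw [Uni.hermForm_smul_right, Uni.pow_q_pow_q hF, inv_mul_cancel₀ hwu]

lemma hyp_in (hF : Fintype.card F = q ^ 2) {W : Submodule F (Fin n → F)} (hW : Rk2 q W) :
    ∃ z z' : Fin n → F, ⟪z, z⟫ = 0 ∧ ⟪z', z'⟫ = 0 ∧ ⟪z, z'⟫ = 1 ∧ z ∈ W ∧ z' ∈ W := by
  obtain ⟨x, hx, y, hy, hxy⟩ : ∃ x ∈ W, ∃ y ∈ W, ⟪x, y⟫ ≠ 0 := by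
    by_contra hcon
    push Not at hcon
    have h1 : W ≤ W ⊓ Uni.perp q W := fun x hx => ⟨hx, fun y hy => hcon x hx y hy⟩
    have h2 := Submodule.finrank_mono h1
    unfold Rk2 at hW
    omega
  obtain ⟨u, hu, huW, hxu⟩ := iso_one_in hF hW x y hy hxy
  obtain ⟨u', hu', hu'W, huu'⟩ := partner_in hF hW u x hx (fun h => hxu ((Uni.hermForm_eq_zero_comm hF).1 h))
  exact ⟨u, u', hu, hu', huu', huW, hu'W⟩

lemma mem_perp_finset (hF : Fintype.card F = q ^ 2) {S : Finset (Fin n → F)} {x : Fin n → F} :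
    x ∈ Uni.perp q (Submodule.span F (S : Set (Fin n → F))) ↔ ∀ c ∈ S, ⟪x, c⟫ = 0 := by
  rw [Uni.mem_perp_span hF]
  rfl

/-- isotropic partner -/
lemma exists_partner (hF : Fintype.card F = q ^ 2) (S : Finset (Fin n → F)) (hS : 2 * S.card + 2 ≤ n)
    (w : Fin n → F) (hw : w ∉ Submodule.span F (S : Set (Fin n → F))) :
    ∃ u : Fin n → F, ⟪u, u⟫ = 0 ∧ (∀ c ∈ S, ⟪u, c⟫ = 0) ∧ ⟪w, u⟫ = 1 := by
  obtain ⟨y, hyS, hyw⟩ := exists_perp_ne hF S w hw
  obtain ⟨u, hu, huW, hwu⟩ := partner_in hF (rk2_of_card hF S hS) w y ((mem_perp_finset hF).2 hyS) hyw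
  exact ⟨u, hu, (mem_perp_finset hF).1 huW, hwu⟩

/-- hyperbolic pairs orthogonal to a few vectors -/
lemma exists_hyp_perp (hF : Fintype.card F = q ^ 2) (S : Finset (Fin n → F)) (hS : 2 * S.card + 2 ≤ n) :
    ∃ z z' : Fin n → F, ⟪z, z⟫ = 0 ∧ ⟪z', z'⟫ = 0 ∧ ⟪z, z'⟫ = 1 ∧ (∀ c ∈ S, ⟪z, c⟫ = 0) ∧ (∀ c ∈ S, ⟪z', c⟫ = 0) := by
  obtain ⟨z, z', hz, hz', hzz', hzW, hz'W⟩ := hyp_in hF (rk2_of_card hF S hS)
  exact ⟨z, z', hz, hz', hzz', (mem_perp_finset hF).1 hzW, (mem_perp_finset hF).1 hz'W⟩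

/-- decomposition of a vector as a combination of isotropic ones -/
lemma exists_decomp_S (hF : Fintype.card F = q ^ 2) (S : Finset (Fin n → F)) (hS : 2 * S.card + 2 ≤ n)
    (x : Fin n → F) (hx : ∀ c ∈ S, ⟪x, c⟫ = 0) :
    ∃ (y y' : Fin n → F) (a b : F), ⟪y, y⟫ = 0 ∧ ⟪y', y'⟫ = 0 ∧ x = a • y + b • y' ∧
      (∀ c ∈ S, ⟪y, c⟫ = 0) ∧ (∀ c ∈ S, ⟪y', c⟫ = 0) := by
  obtain ⟨y, y', a, b, hy, hy', hxy, hyW, hy'W⟩ := decomp_in hF (rk2_of_card hF S hS) x ((mem_perp_finset hF).2 hx)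
  exact ⟨y, y', a, b, hy, hy', hxy, (mem_perp_finset hF).1 hyW, (mem_perp_finset hF).1 hy'W⟩

/-- hyperbolic pairs orthogonal to an isotropic vector and a hyperbolic pair -/
lemma exists_hyp_perp3 (hF : Fintype.card F = q ^ 2) (hn : 6 ≤ n) {y u u' : Fin n → F} (huy : ⟪u, y⟫ = 0)
    (hu'y : ⟪u', y⟫ = 0) (hu : ⟪u, u⟫ = 0) (hu' : ⟪u', u'⟫ = 0) (huu' : ⟪u, u'⟫ ≠ 0) :
    ∃ z z' : Fin n → F, ⟪z, z⟫ = 0 ∧ ⟪z', z'⟫ = 0 ∧ ⟪z, z'⟫ = 1 ∧ (∀ c ∈ ({y, u, u'} : Set (Fin n → F)), ⟪z, c⟫ = 0) ∧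
      (∀ c ∈ ({y, u, u'} : Set (Fin n → F)), ⟪z', c⟫ = 0) := by
  have hR : Rk2 q (Uni.perp q (Submodule.span F ({y, u, u'} : Set (Fin n → F)))) := by
    unfold Rk2
    rw [Uni.perp_perp hF]
    have h1 : finrank F (Submodule.span F ({y, u, u'} : Set (Fin n → F))) ≤ 3 := by
      classical
      have h2 : finrank F (Submodule.span F (({y, u, u'} : Finset (Fin n → F)) : Set (Fin n → F))) ≤
        ({y, u, u'} : Finset (Fin n → F)).card := finrank_span_finset_le_card _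
      have h3 : ({y, u, u'} : Finset (Fin n → F)).card ≤ 3 := Finset.card_le_three
      have h4 : (({y, u, u'} : Finset (Fin n → F)) : Set (Fin n → F)) = {y, u, u'} := by simp
      rw [h4] at h2
      omega
    have h2 := Uni.finrank_perp hF (Submodule.span F ({y, u, u'} : Set (Fin n → F)))
    have h3 : Uni.perp q (Submodule.span F ({y, u, u'} : Set (Fin n → F))) ⊓ Submodule.span F ({y, u, u'} : Set (Fin n → F)) ≤
        Submodule.span F {y} := by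
      rintro x ⟨hx1, hx2⟩
      have hx3 := (Uni.mem_perp_span hF).1 hx1
      obtain ⟨a, p, hp, rfl⟩ := Submodule.mem_span_insert.1 hx2
      obtain ⟨b, c, rfl⟩ := Submodule.mem_span_pair.1 hp
      have e1 := hx3 u (by simp)
      have e2 := hx3 u' (by simp)
      have yu := (Uni.hermForm_eq_zero_comm hF).1 huy
      have yu' := (Uni.hermForm_eq_zero_comm hF).1 hu'y
      have u'u : ⟪u', u⟫ ≠ 0 := fun h => huu' ((Uni.hermForm_eq_zero_comm hF).1 h)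
      simp only [Uni.hermForm_add_left, Uni.hermForm_smul_left, yu, hu, yu', hu', mul_zero, zero_add, add_zero,
        mul_eq_zero, or_iff_left u'u, or_iff_left huu'] at e1 e2
      rw [e1, e2, zero_smul, zero_smul, add_zero, add_zero]
      exact Submodule.smul_mem _ _ (Submodule.mem_span_singleton_self y)
    have h4 := Submodule.finrank_mono h3
    have h5 : finrank F (Submodule.span F {y}) ≤ 1 := by
      have := finrank_span_le_card (R := F) ({y} : Set (Fin n → F))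
      simpa using this
    omega
  obtain ⟨z, z', hz, hz', hzz', hzW, hz'W⟩ := hyp_in hF hR
  exact ⟨z, z', hz, hz', hzz', (Uni.mem_perp_span hF).1 hzW, (Uni.mem_perp_span hF).1 hz'W⟩

/-- planes contain isotropic vectors -/
lemma exists_iso_of_two (hF : Fintype.card F = q ^ 2) {W : Submodule F (Fin n → F)} (hW : 2 ≤ finrank F W) :
    ∃ u ∈ W, u ≠ 0 ∧ ⟪u, u⟫ = 0 := by
  by_cases h : Uni.ND q W
  · exact h.exists_isotropic hF hW
  · rw [Uni.nd_iff_inf] at h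
    obtain ⟨x, hx, hx0⟩ := Submodule.exists_mem_ne_zero_of_ne_bot h
    exact ⟨x, hx.1, hx0, hx.2 x hx.1⟩

end Cfsg.Agent.SmallDim.URat
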