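import Cfsg.Agent.SmallDim.URat

/-!
Overgroups of `SU_n(q₀)` in `SU_n(q)` with coefficient ring equal to the subfield: rational up to scalars.
-/

set_option autoImplicit false
set_option linter.unusedSectionVars false

namespace Cfsg.Agent.SmallDim.URat

open Matrix Cfsg.Geo Module Cfsg.Agent.Uni Cfsg.Agent.H98.UniMax
open scoped MatrixGroups

variable {F : Type*} [Field F] [Fintype F] {n q q₀ : ℕ} {F₀ : Subfield F} [Fintype F₀]

local notation "⟪" x ", " y "⟫" => Cfsg.hermForm _ _ q x y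
local notation "⟪" x ", " y "⟫₀" => Cfsg.hermForm _ _ q₀ x y

variable {N : Subgroup (Cfsg.SU n F q)}

lemma mem_span_pair_of {K V : Type*} [Field K] [AddCommGroup V] [Module K V] {a b : V} (s t : K) :
    s • a + t • b ∈ Submodule.span K {a, b} :=
  Submodule.mem_span_pair.2 ⟨s, t, rfl⟩

namespace Ctx

variable (C : Ctx q₀ F₀ N)
include C

/-- if `⟪w, ee u⟫` is rational for all isotropic rational `u ⊥ y` then for all rational `u ⊥ y` -/
lemma rat_of_iso {w : Fin n → F} {y : Fin n → F₀} (h : ∀ u : Fin n → F₀, ⟪u, u⟫₀ = 0 → ⟪u, y⟫₀ = 0 → ⟪w, ee u⟫ ∈ F₀)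
    (x : Fin n → F₀) (hx : ⟪x, y⟫₀ = 0) : ⟪w, ee x⟫ ∈ F₀ := by
  classical
  have hn := C.hn
  obtain ⟨u, u', a, b, hu, hu', hxy, huy, hu'y⟩ := exists_decomp_S C.hF₀ ({y} : Finset (Fin n → F₀)) (by
    rw [Finset.card_singleton]; omega) x (by simpa using hx)
  rw [hxy, ee_add, ee_smul, ee_smul, hermForm_add_right C.hF, hermForm_smul_right, hermForm_smul_right, C.hq, C.hq]
  exact F₀.add_mem (F₀.mul_mem (SetLike.coe_mem _) (h u hu (huy y (by simp))))
    (F₀.mul_mem (SetLike.coe_mem _) (h u' hu' (hu'y y (by simp))))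

/-- linear algebra: rational values on `y^⊥` -/
lemma rat_add {w : Fin n → F} {y : Fin n → F₀} (hy : ⟪y, y⟫₀ = 0) (hy0 : y ≠ 0)
    (h : ∀ x : Fin n → F₀, ⟪x, y⟫₀ = 0 → ⟪w, ee x⟫ ∈ F₀) : ∃ (w₀ : Fin n → F₀) (b : F), w = ee w₀ + b • ee y := by
  classical
  have hn := C.hn
  obtain ⟨y', hy', -, hyy'⟩ := exists_partner C.hF₀ (∅ : Finset (Fin n → F₀)) (by simp; omega) y (by simpa using hy0)
  set b := ⟪w, ee y'⟫ with hb
  set w1 := w - b • ee y with hw1
  have h1 : ⟪w1, ee y'⟫ = 0 := by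
    rw [hw1, hermForm_sub_left, hermForm_smul_left, C.form_one hyy', ← hb]; ring
  have h2 : ∀ x : Fin n → F₀, ⟪w1, ee x⟫ ∈ F₀ := by
    intro x
    set x' := x - (⟪x, y⟫₀) • y' with hx'
    have hy'y : ⟪y', y⟫₀ = 1 := by rw [← hermForm_symm C.hF₀, hyy', one_pow]
    have h3 : ⟪x', y⟫₀ = 0 := by
      rw [hx', hermForm_sub_left, hermForm_smul_left, hy'y]; ring
    have h4 : x = x' + (⟪x, y⟫₀) • y' := by rw [hx']; abel
    have h5 : ⟪ee y, ee x'⟫ = 0 := C.form_zero ((hermForm_eq_zero_comm C.hF₀).1 h3)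
    rw [h4, ee_add, ee_smul, hermForm_add_right C.hF, hermForm_smul_right, h1, mul_zero, add_zero, hw1,
      hermForm_sub_left, hermForm_smul_left, h5, mul_zero, sub_zero]
    exact h x' h3
  have h3 : ∀ i, w1 i ∈ F₀ := by
    intro i
    have h4 := h2 (Pi.single i 1)
    have h5 : (ee (Pi.single i (1 : F₀)) : Fin n → F) = Pi.single i 1 := by
      ext j
      by_cases hj : j = i
      · subst hj; simp [ee]
      · simp [ee, hj]
    rw [h5, hermForm_single_right' C.hF] at h4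
    exact h4
  refine ⟨fun i => ⟨w1 i, h3 i⟩, b, ?_⟩
  have : (ee (fun i => (⟨w1 i, h3 i⟩ : F₀)) : Fin n → F) = w1 := rfl
  rw [this, hw1]; abel

/-- (C2) -/
theorem rat_of_hasE (hbot : ∀ c : F, InD q₀ F₀ N c → c ∈ F₀) {y : Fin n → F₀} (hy : ⟪y, y⟫₀ = 0) (hy0 : y ≠ 0)
    {w : Fin n → F} {s : F} (hyw : ⟪ee y, w⟫ = 0) (hs : s + s ^ q = -⟪w, w⟫) (h : HasE N (ee y) w s) :
    ∃ (w₀ : Fin n → F₀) (b : F), w = ee w₀ + b • ee y := by
  classical
  have hn := C.hn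
  apply C.rat_add hy hy0
  apply C.rat_of_iso
  intro u hu huy
  by_cases hus : u ∈ Submodule.span F₀ {y}
  · obtain ⟨c, rfl⟩ := Submodule.mem_span_singleton.1 hus
    rw [ee_smul, hermForm_smul_right, (hermForm_eq_zero_comm C.hF).1 hyw, mul_zero]
    exact F₀.zero_mem
  obtain ⟨a, ha0, haq, k, hk, -, hkx⟩ := C.exists_ratT hu
  have eyu := C.form_zero ((hermForm_eq_zero_comm C.hF₀).1 huy)
  have h1 := h.conj hk
  rw [hkx, hkx, eyu, mul_zero, zero_smul, add_zero] at h1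
  set c := (a : F) * ⟪w, ee u⟫ with hc
  have h2 := HasE.sub C.hF (C.form_zero hy) hyw (by rw [hermForm_smul_right, eyu, mul_zero]) hs h h1
  set t := ⟪w, c • ee u⟫ with ht
  -- second conjugation
  obtain ⟨u', hu', hu'S, huu'⟩ := exists_partner C.hF₀ ({y} : Finset (Fin n → F₀)) (by
    rw [Finset.card_singleton]; omega) u (by simpa using hus)
  have hu'y : ⟪u', y⟫₀ = 0 := hu'S y (by simp)
  obtain ⟨z, z', hz, hz', hzz', hzS, hz'S⟩ := exists_hyp_perp3 C.hF₀ hn huy hu'y hu hu' (by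
    rw [huu']; exact one_ne_zero)
  have hzy := hzS y (by simp)
  have hzu := hzS u (by simp)
  have hzu' := hzS u' (by simp)
  have hz'y := hz'S y (by simp)
  have hyz := (hermForm_eq_zero_comm C.hF₀).1 hzy
  have hyz' := (hermForm_eq_zero_comm C.hF₀).1 hz'y
  have huz := (hermForm_eq_zero_comm C.hF₀).1 hzu
  obtain ⟨k2, hk2, hk2x⟩ := C.exists_ratE0 hu' ((hermForm_eq_zero_comm C.hF₀).1 hzu') hz
  have h3 := h2.conj hk2
  have e1 : act k2 (ee y) = ee y := by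
    rw [hk2x, C.form_zero ((hermForm_eq_zero_comm C.hF₀).1 hu'y), C.form_zero hyz]; simp
  have e2 : act k2 (c • ee u) = c • ee u + c • ee z := by
    rw [act_smul, hk2x, C.form_one huu', C.form_zero huz, zero_smul, one_smul, sub_zero, smul_add]
  rw [e1, e2] at h3
  have hts : t + t ^ q = -⟪c • ee u, c • ee u⟫ := by
    have e3 : t = -(a : F) * (⟪w, ee u⟫ ^ q * ⟪w, ee u⟫) := by
      rw [ht, hermForm_smul_right, hc, mul_pow, haq]; ring
    have e4 : t ^ q = (a : F) * (⟪w, ee u⟫ * ⟪w, ee u⟫ ^ q) := by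
      rw [e3, mul_pow, mul_pow, pow_q_pow_q C.hF, neg_pow_q C.hF, haq, neg_neg]
    rw [hermForm_smul_left, hermForm_smul_right, C.form_zero hu, mul_zero, mul_zero, neg_zero, e4, e3]
    ring
  have h4 := HasE.sub C.hF (C.form_zero hy) (by rw [hermForm_smul_right, eyu, mul_zero])
    (by rw [hermForm_smul_right, C.form_zero hyz, mul_zero]) hts h2 h3
  rw [hermForm_smul_left, hermForm_smul_right, C.form_zero huz, mul_zero, mul_zero] at h4
  have h5 : InD q₀ F₀ N c := C.inD_of hy hz hyz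
    (li_of_hyp C.hF₀ hy0 hyz' (by rw [hzz']; exact one_ne_zero)) h4
  have h6 := hbot c h5
  have ha0' : (a : F) ≠ 0 := fun h => ha0 (Subtype.ext h)
  have h7 := F₀.mul_mem (F₀.inv_mem (SetLike.coe_mem a)) h6
  rwa [hc, ← mul_assoc, inv_mul_cancel₀ ha0', one_mul] at h7

/-- rational vectors spanning: a vector orthogonal to all rational isotropic vectors of `v^⊥` is a multiple of `v` -/
lemma mem_of_perp {w : Fin n → F} {v : Fin n → F₀} (hv : ⟪v, v⟫₀ = 0) (hv0 : v ≠ 0)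
    (h : ∀ u : Fin n → F₀, ⟪u, u⟫₀ = 0 → ⟪u, v⟫₀ = 0 → ⟪w, ee u⟫ = 0) : ∃ b : F, w = b • ee v := by
  classical
  have hn := C.hn
  have hall : ∀ x : Fin n → F₀, ⟪x, v⟫₀ = 0 → ⟪w, ee x⟫ = 0 := by
    intro x hx
    obtain ⟨u, u', a, b, hu, hu', hxy, huy, hu'y⟩ := exists_decomp_S C.hF₀ ({v} : Finset (Fin n → F₀)) (by
      rw [Finset.card_singleton]; omega) x (by simpa using hx)
    rw [hxy, ee_add, ee_smul, ee_smul, hermForm_add_right C.hF, hermForm_smul_right, hermForm_smul_right,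
      h u hu (huy v (by simp)), h u' hu' (hu'y v (by simp)), mul_zero, mul_zero, add_zero]
  obtain ⟨v', hv', -, hvv'⟩ := exists_partner C.hF₀ (∅ : Finset (Fin n → F₀)) (by simp; omega) v (by simpa using hv0)
  refine ⟨⟪w, ee v'⟫, ?_⟩
  have h1 : ∀ x : Fin n → F₀, ⟪w - ⟪w, ee v'⟫ • ee v, ee x⟫ = 0 := by
    intro x
    set x' := x - (⟪x, v⟫₀) • v' with hx'
    have hv'v : ⟪v', v⟫₀ = 1 := by rw [← hermForm_symm C.hF₀, hvv', one_pow]
    have h3 : ⟪x', v⟫₀ = 0 := by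
      rw [hx', hermForm_sub_left, hermForm_smul_left, hv'v]; ring
    have h4 : x = x' + (⟪x, v⟫₀) • v' := by rw [hx']; abel
    have h5 : ⟪ee v, ee x'⟫ = 0 := C.form_zero ((hermForm_eq_zero_comm C.hF₀).1 h3)
    rw [h4, ee_add, ee_smul, hermForm_add_right C.hF, hermForm_smul_right, hermForm_sub_left, hermForm_smul_left,
      h5, hermForm_sub_left, hermForm_smul_left, C.form_one hvv', hall x' h3]
    ring
  have h2 : w - ⟪w, ee v'⟫ • ee v = 0 := by
    ext i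
    have h4 := h1 (Pi.single i 1)
    have h5 : (ee (Pi.single i (1 : F₀)) : Fin n → F) = Pi.single i 1 := by
      ext j
      by_cases hj : j = i
      · subst hj; simp [ee]
      · simp [ee, hj]
    rw [h5, hermForm_single_right' C.hF] at h4
    exact h4
  exact sub_eq_zero.1 h2

/-- (C3) first half: centre of a transvection in `N`, orthogonal to a rational isotropic `v` -/
lemma centre_aux (hbot : ∀ c : F, InD q₀ F₀ N c → c ∈ F₀) {w : Fin n → F} {a : F} (ha0 : a ≠ 0)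
    (h : HasE N w 0 a) {v : Fin n → F₀} (hv : ⟪v, v⟫₀ = 0) (hv0 : v ≠ 0) (hvw : ⟪ee v, w⟫ = 0) :
    ∃ (κ : F) (w₀ : Fin n → F₀) (b : F), w = κ • (ee w₀ + b • ee v) := by
  classical
  have hn := C.hn
  by_cases hall : ∀ u : Fin n → F₀, ⟪u, u⟫₀ = 0 → ⟪u, v⟫₀ = 0 → ⟪w, ee u⟫ = 0
  · obtain ⟨b, hb⟩ := C.mem_of_perp hv hv0 hall
    exact ⟨1, 0, b, by rw [ee_zero, zero_add, one_smul, hb]⟩
  push Not at hall
  obtain ⟨z, hz, hzv, hwz⟩ := hall
  have hvz := (hermForm_eq_zero_comm C.hF₀).1 hzv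
  have hzw : ⟪ee z, w⟫ ≠ 0 := fun h => hwz ((hermForm_eq_zero_comm C.hF).1 h)
  obtain ⟨k, hk, hkE⟩ := h
  have hkx := (isEich_zero_iff C.hF k w a).1 hkE
  have h1 := C.ratE0 hv hvz hz
  have h2 := h1.conj hk
  rw [hkx, hkx, hvw, mul_zero, zero_smul, add_zero] at h2
  have h3 := HasE.sub C.hF (C.form_zero hv) (C.form_zero hvz) (by rw [hermForm_smul_right, hvw, mul_zero]) (by
    rw [C.form_zero hz, zero_pow (q_ne_zero C.hF)]; ring) h1 h2
  set m := a * ⟪ee z, w⟫ with hm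
  have hm0 : m ≠ 0 := mul_ne_zero ha0 hzw
  have hww : ⟪w, w⟫ * (m ^ q * m) = -(⟪ee z, m • w⟫ + (⟪ee z, m • w⟫) ^ q) := by
    -- from isometry of k on z
    have h4 := act_form k (ee z) (ee z)
    rw [hkx, ← hm, hermForm_add_left, hermForm_add_right C.hF, hermForm_add_right C.hF, C.form_zero hz,
      hermForm_smul_left (u := w) (v := m • w), hermForm_smul_right (v := w) (u := w)] at h4
    have h5 : ⟪m • w, ee z⟫ = (⟪ee z, m • w⟫) ^ q := by rw [hermForm_symm C.hF]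
    rw [h5] at h4
    linear_combination h4
  have h4 := C.rat_of_hasE hbot hv hv0 (by rw [hermForm_smul_right, hvw, mul_zero]) (by
    rw [hermForm_smul_left (u := w) (v := m • w), hermForm_smul_right (v := w) (u := w)]
    linear_combination hww) h3
  obtain ⟨w₀, b, hw⟩ := h4
  refine ⟨m⁻¹, w₀, b, ?_⟩
  rw [← hw, smul_smul, inv_mul_cancel₀ hm0, one_smul]

/-- (C3) -/
theorem centre_rat (hbot : ∀ c : F, InD q₀ F₀ N c → c ∈ F₀) {w : Fin n → F} {a : F} (ha0 : a ≠ 0)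
    (h : HasE N w 0 a) {v : Fin n → F₀} (hv : ⟪v, v⟫₀ = 0) (hv0 : v ≠ 0) (hvw : ⟪ee v, w⟫ = 0) :
    ∃ (κ : F) (w₀ : Fin n → F₀), w = κ • ee w₀ := by
  classical
  have hn := C.hn
  obtain ⟨κ, w₀, b, hw⟩ := C.centre_aux hbot ha0 h hv hv0 hvw
  by_cases hb : b ∈ F₀
  · exact ⟨κ, w₀ + (⟨b, hb⟩ : F₀) • v, by rw [hw, ee_add, ee_smul]⟩
  by_cases hκ : κ = 0
  · exact ⟨0, 0, by rw [hw, hκ, zero_smul, zero_smul]⟩
  obtain ⟨z, z', hz, hz', hzz', hzS, hz'S⟩ := exists_hyp_perp C.hF₀ ({w₀, v} : Finset (Fin n → F₀)) (by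
    have : ({w₀, v} : Finset (Fin n → F₀)).card ≤ 2 := Finset.card_le_two
    omega)
  have hz0 : z ≠ 0 := by
    rintro rfl
    rw [hermForm_zero_left] at hzz'
    exact zero_ne_one hzz'
  have hzw : ⟪ee z, w⟫ = 0 := by
    rw [hw, hermForm_smul_right, hermForm_add_right C.hF, hermForm_smul_right, C.form_zero (hzS w₀ (by simp)),
      C.form_zero (hzS v (by simp)), mul_zero, add_zero, mul_zero]
  obtain ⟨κ', w₁, b', hw'⟩ := C.centre_aux hbot ha0 h hz hz0 hzw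
  -- pairing with `z'`
  have h1 : ⟪w, ee z'⟫ = 0 := by
    rw [hw, hermForm_smul_left, hermForm_add_left, hermForm_smul_left,
      C.form_zero ((hermForm_eq_zero_comm C.hF₀).1 (hz'S w₀ (by simp))),
      C.form_zero ((hermForm_eq_zero_comm C.hF₀).1 (hz'S v (by simp))), mul_zero, add_zero, mul_zero]
  by_cases hκ' : κ' = 0
  · exact ⟨0, 0, by rw [hw', hκ', zero_smul, zero_smul]⟩
  rw [hw', hermForm_smul_left, hermForm_add_left, hermForm_smul_left, C.form_one hzz', mul_one, mul_eq_zero] at h1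
  have h2 := h1.resolve_left hκ'
  have hb' : b' ∈ F₀ := by
    have : b' = -⟪ee w₁, ee z'⟫ := by linear_combination h2
    rw [this, C.form]
    exact F₀.neg_mem (SetLike.coe_mem _)
  exact ⟨κ', w₁ + (⟨b', hb'⟩ : F₀) • z, by rw [hw', ee_add, ee_smul]⟩

end Ctx

end Cfsg.Agent.SmallDim.URat
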