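import Cfsg.Agent.SmallDim.URatD
import Cfsg.Agent.H98.UniSim
import Cfsg.Agent.Uni.Simple

/-!
Overgroups of `SU_n(q₀)` in `SU_n(q)`: full coefficient ring, and maximality of the subfield subgroups.
-/

set_option autoImplicit false
set_option linter.unusedSectionVars false

namespace Cfsg.Agent.SmallDim.URat

open Matrix Cfsg.Geo Module Cfsg.Agent.Uni Cfsg.Agent.H98.UniMax
open scoped MatrixGroups

variable {F : Type*} [Field F] [Fintype F] {n q q₀ : ℕ} {F₀ : Subfield F} [Fintype F₀]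

local notation "⟪" x ", " y "⟫" => Cfsg.hermForm _ _ q x y
local notation "⟪" x ", " y "⟫₀" => Cfsg.hermForm _ _ q₀ x y

variable {N : Subgroup (Cfsg.SU n F q)}

namespace Ctx

variable (C : Ctx q₀ F₀ N)
include C

/-- all transvections with rational centre -/
lemma top_transv (htop : ∀ c : F, InD q₀ F₀ N c) {y : Fin n → F₀} (hy : ⟪y, y⟫₀ = 0) (hy0 : y ≠ 0) {a : F}
    (ha : a ^ q = -a) : HasE N (ee y) 0 a := by
  classical
  have hn := C.hn
  obtain ⟨z, z', hz, hz', hzz', hzS, hz'S⟩ := exists_hyp_perp C.hF₀ ({y} : Finset (Fin n → F₀)) (by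
    rw [Finset.card_singleton]; omega)
  have hyz := (hermForm_eq_zero_comm C.hF₀).1 (hzS y (by simp))
  have hyz' := (hermForm_eq_zero_comm C.hF₀).1 (hz'S y (by simp))
  have hz'z : ⟪z', z⟫₀ = 1 := by rw [← hermForm_symm C.hF₀, hzz', one_pow]
  obtain ⟨c, hc⟩ := exists_sub_eq C.hF (c := -a) (by rw [neg_pow_q C.hF, ha])
  have h1 := htop c y z hy hz hyz (li_of_hyp C.hF₀ hy0 hyz' (by rw [hzz']; exact one_ne_zero))
  have h2 := C.ratE0 hy hyz' hz'
  have h3 := HasE.comm C.hF (C.form_zero hy) (by rw [hermForm_smul_right, C.form_zero hyz, mul_zero])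
    (C.form_zero hyz') (by
      rw [hermForm_smul_left, hermForm_smul_right, C.form_zero hz, zero_pow (q_ne_zero C.hF)]; ring)
    (by rw [C.form_zero hz', zero_pow (q_ne_zero C.hF)]; ring) h1 h2
  rw [hermForm_smul_left, hermForm_smul_right, C.form_one hzz', C.form_one hz'z, mul_one, mul_one] at h3
  have h4 : c - c ^ q = a := by linear_combination -hc
  rwa [h4] at h3

/-- all Eichler elements with rational centre -/
lemma top_eich (htop : ∀ c : F, InD q₀ F₀ N c) {y : Fin n → F₀} (hy : ⟪y, y⟫₀ = 0) (hy0 : y ≠ 0) {w : Fin n → F}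
    {s : F} (hyw : ⟪ee y, w⟫ = 0) (hs : s + s ^ q = -⟪w, w⟫) : HasE N (ee y) w s := by
  classical
  have hn := C.hn
  have hF := C.hF
  have eyy := C.form_zero hy
  -- the group of admissible `w`
  let B : AddSubgroup (Fin n → F) :=
    { carrier := {w | ⟪ee y, w⟫ = 0 ∧ ∃ s, s + s ^ q = -⟪w, w⟫ ∧ HasE N (ee y) w s}
      add_mem' := by
        rintro w w' ⟨h1, s, hs, h2⟩ ⟨h1', s', hs', h2'⟩
        refine ⟨by rw [hermForm_add_right hF, h1, h1', add_zero], _, ?_, HasE.mul hF eyy h1 h1' h2 h2'⟩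
        rw [sub_pow_q hF, add_pow_q hF, hermForm_symm hF, hermForm_add_left, hermForm_add_right hF,
          hermForm_add_right hF]
        linear_combination hs + hs'
      zero_mem' := ⟨hermForm_zero_right hF _, 0, by
        rw [hermForm_zero_left, zero_pow (q_ne_zero hF)]; ring, ⟨1, N.one_mem, isEich_one hF _⟩⟩
      neg_mem' := by
        rintro w ⟨h1, s, hs, h2⟩
        refine ⟨by rw [hermForm_neg_right hF, h1, neg_zero], _, ?_, HasE.inv hF eyy h1 hs h2⟩
        rw [pow_q_pow_q hF, hermForm_neg_left, hermForm_neg_right hF, neg_neg, ← hs, add_comm] }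
  have hB1 : ∀ (c : F) (z : Fin n → F₀), ⟪z, z⟫₀ = 0 → ⟪z, y⟫₀ = 0 → c • ee z ∈ B := by
    intro c z hz hzy
    have hyz := (hermForm_eq_zero_comm C.hF₀).1 hzy
    have e1 : ⟪ee y, c • ee z⟫ = 0 := by rw [hermForm_smul_right, C.form_zero hyz, mul_zero]
    have e2 : ⟪c • ee z, c • ee z⟫ = 0 := by
      rw [hermForm_smul_left, hermForm_smul_right, C.form_zero hz, mul_zero, mul_zero]
    by_cases hzs : z ∈ Submodule.span F₀ {y}
    · obtain ⟨m, rfl⟩ := Submodule.mem_span_singleton.1 hzs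
      refine ⟨e1, 0 - (c * m) + (c * m) ^ q, ?_, ?_⟩
      · rw [e2, add_pow_q hF, sub_pow_q hF, pow_q_pow_q hF, zero_pow (q_ne_zero hF)]; ring
      · have h1 : HasE N (ee y) 0 0 := ⟨1, N.one_mem, isEich_one hF _⟩
        have h2 := hasE_shift (b := c * m) hF h1
        rwa [zero_add, mul_smul, ← ee_smul] at h2
    · exact ⟨e1, 0, by rw [e2, zero_pow (q_ne_zero hF)]; ring, htop c y z hy hz hyz (li_of_notMem hy0 hzs)⟩
  have hB2 : ∀ (c : F) (x : Fin n → F₀), ⟪x, y⟫₀ = 0 → c • ee x ∈ B := by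
    intro c x hx
    obtain ⟨u, u', a, b, hu, hu', hxy, huy, hu'y⟩ := exists_decomp_S C.hF₀ ({y} : Finset (Fin n → F₀)) (by
      rw [Finset.card_singleton]; omega) x (by simpa using hx)
    rw [hxy, ee_add, ee_smul, ee_smul, smul_add, smul_smul, smul_smul]
    exact B.add_mem (hB1 _ u hu (huy y (by simp))) (hB1 _ u' hu' (hu'y y (by simp)))
  have hwB : w ∈ B := by
    let b := Module.finBasis F₀ F
    let X : Fin (finrank F₀ F) → Fin n → F₀ := fun j i => b.repr (w i) j
    have hw : w = ∑ j, b j • ee (X j) := by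
      ext i
      rw [Finset.sum_apply]
      have h1 := b.sum_repr (w i)
      rw [← h1]
      apply Finset.sum_congr rfl
      intro j _
      change (b.repr (w i) j : F₀) • b j = b j * ((b.repr (w i) j : F₀) : F)
      rw [mul_comm]; rfl
    have hXy : ∀ j, ⟪X j, y⟫₀ = 0 := by
      have h1 : ⟪w, ee y⟫ = 0 := (hermForm_eq_zero_comm hF).1 hyw
      rw [hw, hermForm_sum_left] at h1
      have h2 : ∑ j, (⟪X j, y⟫₀ : F₀) • b j = 0 := by
        rw [← h1]
        apply Finset.sum_congr rfl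
        intro j _
        rw [hermForm_smul_left, C.form, mul_comm]; rfl
      exact fun j => Fintype.linearIndependent_iff.1 b.linearIndependent _ h2 j
    rw [hw]
    exact B.sum_mem fun j _ => hB2 _ _ (hXy j)
  obtain ⟨-, s', hs', h1⟩ := hwB
  have h2 := C.top_transv htop hy hy0 (a := s - s') (by
    rw [sub_pow_q hF]
    have e1 : s ^ q = -⟪w, w⟫ - s := by rw [← hs]; ring
    have e2 : s' ^ q = -⟪w, w⟫ - s' := by rw [← hs']; ring
    rw [e1, e2]; ring)
  have h3 := HasE.mul hF eyy hyw (hermForm_zero_right hF _) h1 h2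
  rw [hermForm_zero_left, add_zero, sub_zero] at h3
  have h4 : s' + (s - s') = s := by ring
  rwa [h4] at h3

theorem eq_top (htop : ∀ c : F, InD q₀ F₀ N c) : N = ⊤ := by
  classical
  have hn := C.hn
  have hF := C.hF
  rw [eq_top_iff, ← TT_eq_top (n := n) hF (by omega) (by omega)]
  unfold TT
  rw [Subgroup.closure_le]
  rintro A ⟨v, c, hv, hA⟩
  have hAE : IsEich A v 0 c := (isEich_zero_iff_matrix hF A v c).2 hA
  by_cases hv0 : v = 0
  · subst hv0
    have : A = 1 := by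
      apply act_ext
      intro x
      rw [(isEich_zero_iff hF A _ _).1 hAE, act_one, smul_zero, add_zero]
    rw [this]; exact N.one_mem
  -- `c` is skew
  have hc : c ^ q = -c := by
    obtain ⟨z, hz⟩ := exists_form_ne (q := q) hF hv0
    have hz' : ⟪z, v⟫ ≠ 0 := fun h => hz ((hermForm_eq_zero_comm hF).1 h)
    have h1 := act_form A z z
    rw [(isEich_zero_iff hF A v c).1 hAE, hermForm_add_left, hermForm_add_right hF, hermForm_add_right hF,
      hermForm_smul_left, hermForm_smul_right, hermForm_smul_left, hermForm_smul_right, hv, mul_pow] at h1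
    have h2 : ⟪v, z⟫ = (⟪z, v⟫) ^ q := (hermForm_symm hF _ _).symm
    rw [h2] at h1
    have h3 : (c ^ q + c) * ((⟪z, v⟫) * (⟪z, v⟫) ^ q) = 0 := by linear_combination h1
    have h4 := (mul_eq_zero.1 h3).resolve_right (mul_ne_zero hz' (pow_ne_zero _ hz'))
    linear_combination h4
  -- a rational isotropic vector not orthogonal to `v`
  obtain ⟨y, hy, hvy⟩ : ∃ y : Fin n → F₀, ⟪y, y⟫₀ = 0 ∧ ⟪v, ee y⟫ ≠ 0 := by
    by_contra hcon
    push Not at hcon
    apply hv0
    ext i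
    obtain ⟨u, u', a, b, hu, hu', hxy, -, -⟩ := exists_decomp_S C.hF₀ (∅ : Finset (Fin n → F₀)) (by simp; omega)
      (Pi.single i 1) (by simp)
    have h5 : (ee (Pi.single i (1 : F₀)) : Fin n → F) = Pi.single i 1 := by
      ext j
      by_cases hj : j = i
      · subst hj; simp [ee]
      · simp [ee, hj]
    have h1 : ⟪v, ee (Pi.single i (1 : F₀))⟫ = 0 := by
      rw [hxy, ee_add, ee_smul, ee_smul, hermForm_add_right hF, hermForm_smul_right, hermForm_smul_right,
        hcon u hu, hcon u' hu', mul_zero, mul_zero, add_zero]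
    rw [h5, hermForm_single_right' hF] at h1
    exact h1
  have hy0 : y ≠ 0 := by
    rintro rfl
    rw [ee_zero, hermForm_zero_right hF] at hvy
    exact hvy rfl
  obtain ⟨y', hy', -, hyy'⟩ := exists_partner C.hF₀ (∅ : Finset (Fin n → F₀)) (by simp; omega) y (by simpa using hy0)
  have hy'y : ⟪y', y⟫₀ = 1 := by rw [← hermForm_symm C.hF₀, hyy', one_pow]
  have hy'0 : y' ≠ 0 := by
    rintro rfl
    rw [hermForm_zero_left] at hy'y
    exact zero_ne_one hy'y
  have eyy := C.form_zero hy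
  have ey'y' := C.form_zero hy'
  have eyy' := C.form_one hyy'
  have ey'y := C.form_one hy'y
  set m := ⟪v, ee y⟫ with hm
  -- `v = m • v1` with `⟪v1, y⟫ = 1`
  obtain ⟨v1, hv1⟩ : ∃ v1, v1 = m⁻¹ • v := ⟨_, rfl⟩
  have hv1y : ⟪v1, ee y⟫ = 1 := by rw [hv1, hermForm_smul_left, ← hm, inv_mul_cancel₀ hvy]
  have hyv1 : ⟪ee y, v1⟫ = 1 := by rw [← hermForm_symm hF, hv1y, one_pow]
  have hv1v1 : ⟪v1, v1⟫ = 0 := by
    rw [hv1, hermForm_smul_left, hermForm_smul_right, hv, mul_zero, mul_zero]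
  obtain ⟨t, ht⟩ : ∃ t, t = ⟪v1, ee y'⟫ := ⟨_, rfl⟩
  have hy'v1 : ⟪ee y', v1⟫ = t ^ q := by rw [ht, hermForm_symm hF]
  obtain ⟨w, hw⟩ : ∃ w, w = v1 - ee y' - t • ee y := ⟨_, rfl⟩
  have hyw : ⟪ee y, w⟫ = 0 := by
    rw [hw, hermForm_sub_right hF, hermForm_sub_right hF, hermForm_smul_right, hyv1, eyy', eyy]; ring
  have hwy' : ⟪ee y', w⟫ = 0 := by
    rw [hw, hermForm_sub_right hF, hermForm_sub_right hF, hermForm_smul_right, hy'v1, ey'y', ey'y]; ring
  have hww : t + t ^ q = -⟪w, w⟫ := by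
    have h1 : ⟪w, w⟫ = ⟪v1, w⟫ := by
      have h2 : ⟪w, w⟫ = ⟪v1 - ee y' - t • ee y, w⟫ := by rw [← hw]
      rw [h2, hermForm_sub_left, hermForm_sub_left, hermForm_smul_left, hyw, hwy']; ring
    rw [h1, hw, hermForm_sub_right hF, hermForm_sub_right hF, hermForm_smul_right, hv1v1, hv1y, ← ht]
    ring
  obtain ⟨k, hk, hkE⟩ := C.top_eich htop hy hy0 hyw hww
  have hky' : act k (ee y') = v1 := by
    rw [hkE (ee y'), ey'y, hwy', hw]
    module
  have h1 := (C.top_transv htop hy' hy'0 (a := m ^ (q + 1) * c) (by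
    rw [mul_pow, norm_pow_q hF, hc]; ring)).conj hk
  rw [act_zero, hky'] at h1
  obtain ⟨A', hA', hA'E⟩ := h1
  have h2 : A' = A := by
    apply act_ext
    intro x
    rw [(isEich_zero_iff hF A' _ _).1 hA'E, (isEich_zero_iff hF A _ _).1 hAE, hv1, hermForm_smul_right, smul_smul]
    congr 2
    have hmq : (m⁻¹) ^ q * m ^ q = 1 := by rw [← mul_pow, inv_mul_cancel₀ hvy, one_pow]
    have hmm : m⁻¹ * m = 1 := inv_mul_cancel₀ hvy
    rw [pow_succ]
    linear_combination (c * ⟪x, v⟫) * (m * m⁻¹) * hmq + c * ⟪x, v⟫ * hmm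
  rw [← h2]; exact hA'

end Ctx

/-- the alternative for overgroups -/
theorem Ctx.alternative (C : Ctx q₀ F₀ N) (hp : (finrank F₀ F).Prime) :
    N = ⊤ ∨ ∀ g ∈ N, ∃ d : F, d ≠ 0 ∧ ∀ x : Fin n → F₀, IsRat F₀ (d • act g (ee x)) := by
  have hsimple : IsSimpleOrder (Subalgebra F₀ F) := Subalgebra.isSimpleOrder_of_finrank_prime _ _ hp
  rcases eq_bot_or_eq_top C.dAlg with h | h
  · right
    intro g hg
    refine C.all_rat (fun c hc => ?_) hg
    have h1 : c ∈ C.dAlg := hc
    rw [h, Algebra.mem_bot] at h1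
    obtain ⟨x, rfl⟩ := h1
    exact SetLike.coe_mem x
  · left
    apply C.eq_top
    intro c
    have h1 : c ∈ C.dAlg := by rw [h]; trivial
    exact h1

end Cfsg.Agent.SmallDim.URat
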