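import Cfsg.Agent.SmallDim.TenB

set_option autoImplicit false
set_option linter.unusedSectionVars false
set_option linter.unusedVariables false

/-!
Groups acting on `W × W` containing the unipotent groups with scalars in a subfield: opposite images of
`W × 0` are rational as soon as the unipotent elements over `W × 0` are scalar.
-/

namespace Cfsg.Agent.SmallDim.UT

open Module Cfsg.Agent.SmallDim.TenB

variable {F : Type*} [Field F] {W : Type*} [AddCommGroup W] [Module F W] {k : Subfield F}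

/-- scalar multiple of the identity, scalars in `k` -/
def IsK (k : Subfield F) (z : Module.End F W) : Prop := ∃ c ∈ k, z = c • (1 : Module.End F W)

theorem IsK.add {z z' : Module.End F W} (h : IsK k z) (h' : IsK k z') : IsK k (z + z') := by
  obtain ⟨c, hc, rfl⟩ := h; obtain ⟨c', hc', rfl⟩ := h'
  exact ⟨c + c', k.add_mem hc hc', by rw [add_smul]⟩

theorem IsK.smul {z : Module.End F W} (h : IsK k z) {c : F} (hc : c ∈ k) : IsK k (c • z) := by
  obtain ⟨c', hc', rfl⟩ := h; exact ⟨c * c', k.mul_mem hc hc', by rw [mul_smul]⟩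

theorem IsK.sub {z z' : Module.End F W} (h : IsK k z) (h' : IsK k z') : IsK k (z - z') := by
  obtain ⟨c, hc, rfl⟩ := h; obtain ⟨c', hc', rfl⟩ := h'
  exact ⟨c - c', k.sub_mem hc hc', by rw [sub_smul]⟩

theorem IsK.of_smul {z : Module.End F W} {c : F} (hck : c ∈ k) (hc : c ≠ 0) (h : IsK k (c • z)) : IsK k z := by
  have := h.smul (k.inv_mem hck)
  rwa [smul_smul, inv_mul_cancel₀ hc, one_smul] at this

theorem IsK.inv {B : (Module.End F W)ˣ} (h : IsK k (B : Module.End F W)) :
    IsK k ((B⁻¹ : (Module.End F W)ˣ) : Module.End F W) := by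
  obtain ⟨c, hck, hc⟩ := h
  by_cases hc0 : c = 0
  · refine ⟨0, k.zero_mem, ?_⟩
    have h1 : (B : Module.End F W) * ((B⁻¹ : (Module.End F W)ˣ) : Module.End F W) = 1 := B.mul_inv
    rw [hc, hc0, zero_smul, zero_mul] at h1
    rw [← one_mul ((B⁻¹ : (Module.End F W)ˣ) : Module.End F W), ← h1, zero_mul, zero_smul]
  · refine ⟨c⁻¹, k.inv_mem hck, ?_⟩
    have h1 : (B : Module.End F W) * ((B⁻¹ : (Module.End F W)ˣ) : Module.End F W) = 1 := B.mul_inv
    rw [hc, smul_mul_assoc, one_mul] at h1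
    rw [← h1, smul_smul, inv_mul_cancel₀ hc0, one_smul]

/-- the hypotheses -/
structure Hyp (k : Subfield F) (M : Subgroup ((W × W) ≃ₗ[F] (W × W))) : Prop where
  x : ∀ t : F, t ∈ k → xt (t • (1 : Module.End F W)) ∈ M
  y : ∀ t : F, t ∈ k → yt (t • (1 : Module.End F W)) ∈ M
  sc : ∀ z : Module.End F W, xt z ∈ M → IsK k z

/-- the group attached to the complement `z` -/
def Q (k : Subfield F) (M : Subgroup ((W × W) ≃ₗ[F] (W × W))) (z : Module.End F W) (B : (Module.End F W)ˣ) : Prop :=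
  ∃ g ∈ M, ∃ κ : F, κ ∈ k ∧ κ ≠ 0 ∧ ∀ t : F, t ∈ k → xt z * yt (t • (B : Module.End F W)) * xt (-z) = g * xt ((κ * t) • 1) * g⁻¹

variable {M : Subgroup ((W × W) ≃ₗ[F] (W × W))} {z : Module.End F W} {B : (Module.End F W)ˣ}

theorem Q.mem (hM : Hyp k M) (h : Q k M z B) {t : F} (ht : t ∈ k) : xt z * yt (t • (B : Module.End F W)) * xt (-z) ∈ M := by
  obtain ⟨g, hg, κ, hκ, -, h⟩ := h
  rw [h t ht]
  exact M.mul_mem (M.mul_mem hg (hM.x _ (k.mul_mem hκ ht))) (M.inv_mem hg)

theorem Q.step (hM : Hyp k M) (h : Q k M z B) {s : F} (hsk : s ∈ k) (hs : s ≠ 0) :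
    Q k M (z + s • ((B⁻¹ : (Module.End F W)ˣ) : Module.End F W)) (B ^ 2) := by
  refine ⟨_, h.mem hM (k.inv_mem hsk), -(s ^ 2), k.neg_mem (k.pow_mem hsk 2), neg_ne_zero.2 (pow_ne_zero _ hs), fun t ht => ?_⟩
  set c : Module.End F W := s⁻¹ • (B : Module.End F W) with hc
  set d : Module.End F W := s • ((B⁻¹ : (Module.End F W)ˣ) : Module.End F W) with hd
  have h1 : (B : Module.End F W) * ((B⁻¹ : (Module.End F W)ˣ) : Module.End F W) = 1 := B.mul_inv
  have h2 : ((B⁻¹ : (Module.End F W)ˣ) : Module.End F W) * (B : Module.End F W) = 1 := B.inv_mul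
  have hcd : c * d = 1 := by rw [hc, hd, smul_mul_smul_comm, h1, inv_mul_cancel₀ hs, one_smul]
  have hdc : d * c = 1 := by rw [hc, hd, smul_mul_smul_comm, h2, mul_inv_cancel₀ hs, one_smul]
  have hb := braid hcd hdc (-(s ^ 2) * t)
  have e1 : -((-(s ^ 2) * t) • (c * c)) = t • ((B ^ 2 : (Module.End F W)ˣ) : Module.End F W) := by
    rw [hc, smul_mul_smul_comm, smul_smul, ← neg_smul, Units.val_pow_eq_pow_val, pow_two]
    congr 1
    field_simp
  rw [e1] at hb
  have e2 : (xt z * yt c * xt (-z)) * xt ((-(s ^ 2) * t) • 1) * (xt z * yt c * xt (-z))⁻¹ =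
      xt z * (yt c * xt ((-(s ^ 2) * t) • 1) * yt (-c)) * xt (-z) := by
    rw [mul_inv_rev, mul_inv_rev, xt_inv, xt_inv, yt_inv, neg_neg]
    have e3 : xt (-z) * xt ((-(s ^ 2) * t) • (1 : Module.End F W)) * xt z = xt ((-(s ^ 2) * t) • (1 : Module.End F W)) := by
      rw [xt_mul, xt_mul]; congr 1; abel
    calc _ = xt z * yt c * (xt (-z) * xt ((-(s ^ 2) * t) • (1 : Module.End F W)) * xt z) * yt (-c) * xt (-z) := by group
      _ = _ := by rw [e3]; group
  rw [e2, hb]
  have e4 : xt (-(z + d)) = xt (-d) * xt (-z) := by rw [xt_mul]; congr 1; abel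
  rw [e4, ← xt_mul z d]
  group

theorem Q.add_sc (hM : Hyp k M) (h : Q k M z B) {c : F} (hc : c ∈ k) : Q k M (z + c • 1) B := by
  obtain ⟨g, hg, κ, hκ, hκ0, h⟩ := h
  refine ⟨xt (c • 1) * g, M.mul_mem (hM.x c hc) hg, κ, hκ, hκ0, fun t ht => ?_⟩
  have e4 : xt (-(z + c • 1)) = xt (-z) * xt (-(c • (1 : Module.End F W))) := by rw [xt_mul]; congr 1; abel
  have e5 : xt (z + c • 1) = xt (c • (1 : Module.End F W)) * xt z := by rw [xt_mul]; congr 1; abel
  rw [e4, e5, mul_inv_rev, xt_inv]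
  calc _ = xt (c • (1 : Module.End F W)) * (xt z * yt (t • (B : Module.End F W)) * xt (-z)) * xt (-(c • (1 : Module.End F W))) := by group
    _ = _ := by rw [h t ht]; group

/-- uniqueness of the operator attached to a complement -/
theorem Q.unique (hM : Hyp k M) (h : Q k M z B) {B' : (Module.End F W)ˣ} (h' : Q k M z B') :
    ∃ c : F, c ∈ k ∧ (B' : Module.End F W) = c • (B : Module.End F W) := by
  have hm := h'.mem hM k.one_mem
  rw [one_smul] at hm
  obtain ⟨g, hg, κ, hκ, hκ0, h⟩ := h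
  set g' := xt (-z) * g with hg'
  have hgen : ∀ t : F, t ∈ k → yt (t • (B : Module.End F W)) * g' = g' * xt ((κ * t) • 1) := by
    intro t ht
    have := h t ht
    rw [hg']
    calc _ = xt (-z) * (xt z * yt (t • (B : Module.End F W)) * xt (-z)) * g := by
          have e : xt (-z) * xt z = 1 := by rw [← xt_inv]; exact inv_mul_cancel _
          calc _ = 1 * yt (t • (B : Module.End F W)) * xt (-z) * g := by group
            _ = _ := by rw [← e]; group
      _ = _ := by rw [this]; group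
  -- the blocks of `g'`
  have hBinj : ∀ w, (B : Module.End F W) w = 0 → w = 0 := by
    intro w hw
    have h2 : ((B⁻¹ : (Module.End F W)ˣ) : Module.End F W) * (B : Module.End F W) = 1 := B.inv_mul
    have := LinearMap.congr_fun h2 w
    rw [Module.End.mul_apply, hw, map_zero] at this
    exact this.symm
  have hp : ∀ w, (g' (w, 0)).1 = 0 := by
    intro w
    have h1 := congrArg (fun g : (W × W) ≃ₗ[F] (W × W) => (g (w, 0)).2) (hgen 1 k.one_mem)
    simp only [LinearEquiv.mul_apply, xt_apply, yt_apply, one_smul, map_zero, add_zero] at h1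
    exact hBinj _ (by simpa using h1)
  -- the element
  have hkey : yt (B' : Module.End F W) * g' = g' * (g⁻¹ * (xt z * yt (B' : Module.End F W) * xt (-z)) * g) := by
    have e : xt (-z) * xt z = 1 := by rw [← xt_inv]; exact inv_mul_cancel _
    rw [hg']
    calc _ = 1 * yt (B' : Module.End F W) * xt (-z) * g := by group
      _ = _ := by rw [← e]; group
  set m := g⁻¹ * (xt z * yt (B' : Module.End F W) * xt (-z)) * g with hmd
  have hmM : m ∈ M := M.mul_mem (M.mul_mem (M.inv_mem hg) hm) hg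
  have hginj : Function.Injective g' := g'.injective
  have hm1 : ∀ w, m (w, 0) = (w, 0) := by
    intro w
    apply hginj
    have h1 := congrArg (fun g : (W × W) ≃ₗ[F] (W × W) => g (w, 0)) hkey
    simp only [LinearEquiv.mul_apply, yt_apply] at h1
    rw [← h1, hp, map_zero, add_zero]
    exact Prod.ext (hp w).symm rfl
  have hm2 : ∀ v, (m v).2 = v.2 := by
    intro v
    have h1 := congrArg (fun g : (W × W) ≃ₗ[F] (W × W) => (g v).1) hkey
    simp only [LinearEquiv.mul_apply, yt_apply] at h1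
    -- (g' v).1 = (g' (m v)).1
    have h2 : (g' (m v - v)).1 = 0 := by rw [map_sub, Prod.fst_sub, ← h1, sub_self]
    have h3 : (g' (0, (m v - v).2)).1 = 0 := by
      have : (m v - v) = ((m v - v).1, 0) + (0, (m v - v).2) := by ext <;> simp
      rw [this, map_add, Prod.fst_add, hp, zero_add] at h2
      exact h2
    -- injectivity of the upper right block
    have h4 := congrArg (fun g : (W × W) ≃ₗ[F] (W × W) => g (0, (m v - v).2)) (hgen 1 k.one_mem)
    simp only [LinearEquiv.mul_apply, xt_apply, yt_apply, one_smul, mul_one, h3, map_zero, add_zero, zero_add] at h4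
    have h5 := congrArg (fun v : W × W => v) h4
    have h6 : g' (0, (m v - v).2) = g' ((κ • (1 : Module.End F W)) ((m v - v).2), (m v - v).2) := by
      rw [← h4]
      exact Prod.ext h3 rfl
    have h7 := hginj h6
    have h8 := congrArg Prod.fst h7
    simp only [LinearMap.smul_apply, Module.End.one_apply] at h8
    have h9 := (smul_eq_zero.1 h8.symm).resolve_left hκ0
    rw [Prod.snd_sub, sub_eq_zero] at h9
    exact h9
  set s : Module.End F W := LinearMap.fst F W W ∘ₗ m.toLinearMap ∘ₗ LinearMap.inr F W W with hs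
  have hms : m = xt s := by
    apply LinearEquiv.ext; intro v
    have : v = (v.1, 0) + (0, v.2) := by ext <;> simp
    rw [xt_apply]
    conv_lhs => rw [this]
    rw [map_add, hm1]
    ext
    · simp only [Prod.fst_add]; rfl
    · simp only [Prod.snd_add, hm2, zero_add]
  rw [hms] at hmM
  obtain ⟨c, hck, hc⟩ := hM.sc s hmM
  have hck' : c * κ⁻¹ ∈ k := k.mul_mem hck (k.inv_mem hκ)
  refine ⟨c * κ⁻¹, hck', ?_⟩
  have e1 : yt (B' : Module.End F W) * g' = yt ((c * κ⁻¹) • (B : Module.End F W)) * g' := by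
    rw [hkey, hms, hc, hgen _ hck']
    congr 3
    field_simp
  exact yt_inj (mul_right_cancel e1)

/-- `B ^ 4` is scalar -/
theorem Q.pow4 (hM : Hyp k M) {l : F} (hlk : l ∈ k) (hl0 : l ≠ 0) (hl1 : l ≠ 1) (h : Q k M z B)
    (hcub : ∃ p₀ p₁ p₂ : F, p₀ ∈ k ∧ p₁ ∈ k ∧ p₂ ∈ k ∧ (((B⁻¹ : (Module.End F W)ˣ) : Module.End F W)) ^ 4 =
      p₀ • 1 + p₁ • ((B⁻¹ : (Module.End F W)ˣ) : Module.End F W) + p₂ • ((B⁻¹ : (Module.End F W)ˣ) : Module.End F W) ^ 2) :
    IsK k ((B ^ 4 : (Module.End F W)ˣ) : Module.End F W) := by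
  obtain ⟨p₀, p₁, p₂, hp₀, hp₁, hp₂, hp⟩ := hcub
  set C : Module.End F W := ((B⁻¹ : (Module.End F W)ˣ) : Module.End F W) with hC
  have hex : ∀ p : F, p ∈ k → ∃ s : F, s ∈ k ∧ s ≠ 0 ∧ s + p ≠ 0 := by
    intro p hp
    by_cases h1 : 1 + p = 0
    · exact ⟨l, hlk, hl0, fun h2 => hl1 (by linear_combination h2 - h1)⟩
    · exact ⟨1, k.one_mem, one_ne_zero, h1⟩
  obtain ⟨s, hsk, hs, hsp⟩ := hex p₁ hp₁
  obtain ⟨s', hsk', hs', hsp'⟩ := hex p₂ hp₂
  have c2 : (((B ^ 2)⁻¹ : (Module.End F W)ˣ) : Module.End F W) = C ^ 2 := by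
    rw [← inv_pow, Units.val_pow_eq_pow_val]
  have c4 : ((((B ^ 2) ^ 2)⁻¹ : (Module.End F W)ˣ) : Module.End F W) = C ^ 4 := by
    rw [← inv_pow, ← inv_pow, Units.val_pow_eq_pow_val, Units.val_pow_eq_pow_val, ← pow_mul]
  -- the element in two ways
  have a1 := ((h.step hM hsk hs).step hM hsk' hs').step hM k.one_mem (one_ne_zero (α := F))
  have a2 := (((h.step hM (k.add_mem hsk hp₁) hsp).step hM (k.add_mem hsk' hp₂) hsp').add_sc hM hp₀)
  rw [← hC, c2, c4, hp] at a1
  rw [← hC, c2] at a2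
  have e : z + s • C + s' • C ^ 2 + (1 : F) • (p₀ • (1 : Module.End F W) + p₁ • C + p₂ • C ^ 2) =
      z + (s + p₁) • C + (s' + p₂) • C ^ 2 + p₀ • 1 := by module
  rw [e] at a1
  obtain ⟨c, hck, hc⟩ := a2.unique hM a1
  -- B ^ 8 = c B ^ 4
  have h8 : (B ^ 4 : (Module.End F W)ˣ) * ((B ^ 2) ^ 2 : (Module.End F W)ˣ) = ((B ^ 2) ^ 2) ^ 2 := by
    rw [← pow_mul, ← pow_mul, ← pow_add]
  refine ⟨c, hck, ?_⟩
  have h10 : ((B ^ 4 : (Module.End F W)ˣ) : Module.End F W) * (((B ^ 2) ^ 2 : (Module.End F W)ˣ) : Module.End F W) =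
      (c • (1 : Module.End F W)) * (((B ^ 2) ^ 2 : (Module.End F W)ˣ) : Module.End F W) := by
    rw [← Units.val_mul, h8, hc, smul_mul_assoc, one_mul]
  exact ((B ^ 2) ^ 2).isUnit.mul_right_cancel h10

/-- if `B ^ 2` is scalar -/
theorem Q.scalar_of_sq (hM : Hyp k M) (hS : ∀ (z : Module.End F W) (B : (Module.End F W)ˣ), Q k M z B → IsK k (B : Module.End F W) → IsK k z)
    {l : F} (hlk : l ∈ k) (hl0 : l ≠ 0) (hl1 : l ≠ 1) (h : Q k M z B)
    (hB : IsK k ((B ^ 2 : (Module.End F W)ˣ) : Module.End F W)) : IsK k (B : Module.End F W) ∧ IsK k z := by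
  have key : ∀ s : F, s ∈ k → s ≠ 0 → IsK k (z + s • ((B⁻¹ : (Module.End F W)ˣ) : Module.End F W)) := fun s hsk hs =>
    hS _ _ (h.step hM hsk hs) hB
  have h1 := (key 1 k.one_mem one_ne_zero).sub (key l hlk hl0)
  have e : z + (1 : F) • ((B⁻¹ : (Module.End F W)ˣ) : Module.End F W) - (z + l • ((B⁻¹ : (Module.End F W)ˣ) : Module.End F W)) =
      (1 - l) • ((B⁻¹ : (Module.End F W)ˣ) : Module.End F W) := by module
  rw [e] at h1
  have h2 : IsK k ((B⁻¹ : (Module.End F W)ˣ) : Module.End F W) :=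
    IsK.of_smul (k.sub_mem k.one_mem hlk) (sub_ne_zero.2 (Ne.symm hl1)) h1
  have h3 := h2.inv
  rw [inv_inv] at h3
  refine ⟨h3, ?_⟩
  have h4 := (key 1 k.one_mem one_ne_zero).sub (h2.smul k.one_mem)
  rwa [add_sub_cancel_right] at h4

theorem Q.scalar_of_pow4 (hM : Hyp k M) (hS : ∀ (z : Module.End F W) (B : (Module.End F W)ˣ), Q k M z B → IsK k (B : Module.End F W) → IsK k z)
    {l : F} (hlk : l ∈ k) (hl0 : l ≠ 0) (hl1 : l ≠ 1) (h : Q k M z B)
    (hB : IsK k ((B ^ 4 : (Module.End F W)ˣ) : Module.End F W)) : IsK k (B : Module.End F W) ∧ IsK k z := by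
  have h1 := (h.step hM k.one_mem (one_ne_zero (α := F))).scalar_of_sq hM hS hlk hl0 hl1 (by
    rw [← pow_mul]; exact hB)
  exact h.scalar_of_sq hM hS hlk hl0 hl1 h1.1

/-- the torus argument -/
theorem Q.scalar (hM : Hyp k M) {l : F} (hlk : l ∈ k) (hl0 : l ≠ 0) (hl : l ^ 2 ≠ 1) (h : Q k M z B)
    (hB : IsK k (B : Module.End F W)) (hB0 : (B : Module.End F W) ≠ 0) : IsK k z := by
  obtain ⟨b, hbk, hb⟩ := hB
  have hb0 : b ≠ 0 := fun h0 => hB0 (by rw [hb, h0, zero_smul])
  have hy : ∀ t : F, t ∈ k → xt z * yt (t • (1 : Module.End F W)) * xt (-z) ∈ M := by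
    intro t ht
    have := h.mem hM (k.mul_mem ht (k.inv_mem hbk))
    have e : t * b⁻¹ * b = t := by field_simp
    rwa [hb, smul_smul, e] at this
  have hx : ∀ t : F, t ∈ k → xt z * xt (t • (1 : Module.End F W)) * xt (-z) ∈ M := by
    intro t ht
    have : xt z * xt (t • (1 : Module.End F W)) * xt (-z) = xt (t • (1 : Module.End F W)) := by
      rw [xt_mul, xt_mul]; congr 1; abel
    rw [this]; exact hM.x t ht
  have hlik : l⁻¹ ∈ k := k.inv_mem hlk
  have h1k : (1 : F) ∈ k := k.one_mem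
  have hnk : (-1 : F) ∈ k := k.neg_mem k.one_mem
  have hlink : -l⁻¹ ∈ k := k.neg_mem hlik
  -- the torus element
  set hh : (W × W) ≃ₗ[F] (W × W) := xt (l • (1 : Module.End F W)) * yt ((-l⁻¹) • (1 : Module.End F W)) * xt (l • (1 : Module.End F W)) *
    (xt ((-1 : F) • (1 : Module.End F W)) * yt ((1 : F) • (1 : Module.End F W)) * xt ((-1 : F) • (1 : Module.End F W))) with hhd
  have hh1 : hh ∈ M := by
    rw [hhd]
    exact M.mul_mem (M.mul_mem (M.mul_mem (hM.x _ hlk) (hM.y _ hlink)) (hM.x _ hlk))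
      (M.mul_mem (M.mul_mem (hM.x _ hnk) (hM.y _ h1k)) (hM.x _ hnk))
  have hh2 : xt z * hh * xt (-z) ∈ M := by
    have e : xt (-z) * xt z = 1 := by rw [← xt_inv]; exact inv_mul_cancel _
    have e1 : xt z * hh * xt (-z) = (xt z * xt (l • (1 : Module.End F W)) * xt (-z)) * (xt z * yt ((-l⁻¹) • (1 : Module.End F W)) * xt (-z)) *
        (xt z * xt (l • (1 : Module.End F W)) * xt (-z)) * ((xt z * xt ((-1 : F) • (1 : Module.End F W)) * xt (-z)) *
        (xt z * yt ((1 : F) • (1 : Module.End F W)) * xt (-z)) * (xt z * xt ((-1 : F) • (1 : Module.End F W)) * xt (-z))) := by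
      rw [hhd, ← xt_inv z]
      group
    rw [e1]
    exact M.mul_mem (M.mul_mem (M.mul_mem (hx _ hlk) (hy _ hlink)) (hx _ hlk))
      (M.mul_mem (M.mul_mem (hx _ hnk) (hy _ h1k)) (hx _ hnk))
  have hhv : ∀ v, hh v = (l • v.1, l⁻¹ • v.2) := by
    intro v
    rw [hhd]
    simp only [LinearEquiv.mul_apply, xt_apply, yt_apply, LinearMap.smul_apply, Module.End.one_apply]
    have hll : l * l⁻¹ = 1 := mul_inv_cancel₀ hl0
    ext
    · simp only
      have e1 : l * l⁻¹ = 1 := hll
      match_scalars <;> field_simp <;> ring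
    · simp only
      match_scalars <;> field_simp <;> ring
  have hfin : (xt z * hh * xt (-z)) * hh⁻¹ = xt ((1 - l ^ 2) • z) := by
    rw [mul_inv_eq_iff_eq_mul]
    apply LinearEquiv.ext; intro v
    simp only [LinearEquiv.mul_apply, xt_apply, hhv, LinearMap.smul_apply, LinearMap.neg_apply, map_smul]
    ext
    · simp only
      match_scalars <;> field_simp <;> ring
    · rfl
  have := M.mul_mem hh2 (M.inv_mem hh1)
  rw [hfin] at this
  exact IsK.of_smul (k.sub_mem k.one_mem (k.pow_mem hlk 2)) (sub_ne_zero.2 (Ne.symm hl)) (hM.sc _ this)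

/-- moving a complement by the Weyl element of another complement -/
theorem Q.flip (hM : Hyp k M) {z' d : Module.End F W} {d' : (Module.End F W)ˣ} (hd' : (d' : Module.End F W) = d) (hz : z' = z + d)
    (h : Q k M z 1) (h' : Q k M z' 1) : Q k M (z - ((d'⁻¹ : (Module.End F W)ˣ) : Module.End F W)) (d' ^ 2) := by
  -- the Weyl element
  have hy : ∀ t : F, t ∈ k → xt z * yt (t • (1 : Module.End F W)) * xt (-z) ∈ M := by
    intro t ht
    have := h.mem hM ht
    rwa [Units.val_one] at this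
  have hx : ∀ t : F, t ∈ k → xt z * xt (t • (1 : Module.End F W)) * xt (-z) ∈ M := by
    intro t ht
    have : xt z * xt (t • (1 : Module.End F W)) * xt (-z) = xt (t • (1 : Module.End F W)) := by
      rw [xt_mul, xt_mul]; congr 1; abel
    rw [this]; exact hM.x t ht
  have h1k : (1 : F) ∈ k := k.one_mem
  have hnk : (-1 : F) ∈ k := k.neg_mem k.one_mem
  set n : (W × W) ≃ₗ[F] (W × W) := yt ((1 : F) • (1 : Module.End F W)) * xt ((-1 : F) • (1 : Module.End F W)) * yt ((1 : F) • (1 : Module.End F W)) with hn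
  have hnv : ∀ v, n v = (-v.2, v.1) := by
    intro v
    rw [hn]
    simp only [LinearEquiv.mul_apply, xt_apply, yt_apply, LinearMap.smul_apply, Module.End.one_apply]
    ext
    · simp
    · simp
  have hm : xt z * n * xt (-z) ∈ M := by
    have e1 : xt z * n * xt (-z) = (xt z * yt ((1 : F) • (1 : Module.End F W)) * xt (-z)) * (xt z * xt ((-1 : F) • (1 : Module.End F W)) * xt (-z)) *
        (xt z * yt ((1 : F) • (1 : Module.End F W)) * xt (-z)) := by
      rw [hn, ← xt_inv z]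
      group
    rw [e1]
    exact M.mul_mem (M.mul_mem (hy _ h1k) (hx _ hnk)) (hy _ h1k)
  obtain ⟨g, hg, κ, hκ, hκ0, hQ⟩ := h'
  refine ⟨(xt z * n * xt (-z)) * g, M.mul_mem hm hg, κ, hκ, hκ0, fun t ht => ?_⟩
  have h3 := hQ t ht
  rw [Units.val_one] at h3
  have e0 : ((d'⁻¹ : (Module.End F W)ˣ) : Module.End F W) * d = 1 := by rw [← hd']; exact d'.inv_mul
  have e0' : d * ((d'⁻¹ : (Module.End F W)ˣ) : Module.End F W) = 1 := by rw [← hd']; exact d'.mul_inv
  set c : Module.End F W := ((d'⁻¹ : (Module.End F W)ˣ) : Module.End F W) with hc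
  have hdc : ∀ w, d (c w) = w := fun w => LinearMap.congr_fun e0' w
  have hcd : ∀ w, c (d w) = w := fun w => LinearMap.congr_fun e0 w
  have e5 : xt (z - c) * yt (t • ((d' ^ 2 : (Module.End F W)ˣ) : Module.End F W)) * xt (-(z - c)) * (xt z * n * xt (-z)) =
      (xt z * n * xt (-z)) * (xt z' * yt (t • (1 : Module.End F W)) * xt (-z')) := by
    rw [Units.val_pow_eq_pow_val, hd', hz]
    apply LinearEquiv.ext; intro v
    simp only [LinearEquiv.mul_apply, xt_apply, yt_apply, hnv, LinearMap.smul_apply, LinearMap.neg_apply, LinearMap.add_apply,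
      LinearMap.sub_apply, Module.End.one_apply, pow_two, Module.End.mul_apply, map_add, map_sub, map_neg, map_smul, hcd, hdc]
    ext
    · simp only
      module
    · simp only
      module
  have e6 : xt (z - c) * yt (t • ((d' ^ 2 : (Module.End F W)ˣ) : Module.End F W)) * xt (-(z - c)) =
      (xt z * n * xt (-z)) * (xt z' * yt (t • (1 : Module.End F W)) * xt (-z')) * (xt z * n * xt (-z))⁻¹ := by
    rw [← e5]; group
  rw [e6, h3]
  group

end Cfsg.Agent.SmallDim.UT
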