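import Cfsg.Agent.SmallDim.UT1
import Cfsg.Agent.SmallDim.TenC
import Cfsg.Agent.SmallDim.URat

set_option autoImplicit false
set_option linter.unusedSectionVars false
set_option linter.unusedVariables false

/-!
Groups acting on `W × W`, `W` unitary of dimension three: frames, the form, self-adjoint operators.
-/

namespace Cfsg.Agent.SmallDim.UT

open Module Cfsg.Agent.SmallDim.TenB Cfsg.Agent.Uni

variable {F : Type*} [Field F] [Fintype F] {q : ℕ}

local notation "⟪" x ", " y "⟫" => Cfsg.hermForm 3 F q x y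

/-- the fixed subfield -/
def kq (hF : Fintype.card F = q ^ 2) : Subfield F where
  carrier := {t | t ^ q = t}
  mul_mem' {a b} ha hb := by
    change (a * b) ^ q = a * b
    rw [mul_pow, show a ^ q = a from ha, show b ^ q = b from hb]
  one_mem' := one_pow q
  add_mem' {a b} ha hb := by
    change (a + b) ^ q = a + b
    rw [add_pow_q hF, show a ^ q = a from ha, show b ^ q = b from hb]
  zero_mem' := zero_pow (q_ne_zero hF)
  neg_mem' {a} ha := by
    change (-a) ^ q = -a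
    rw [neg_pow_q hF, show a ^ q = a from ha]
  inv_mem' a ha := by
    change (a⁻¹) ^ q = a⁻¹
    rw [inv_pow, show a ^ q = a from ha]

theorem mem_kq {hF : Fintype.card F = q ^ 2} {t : F} : t ∈ kq hF ↔ t ^ q = t := Iff.rfl

/-- an element of the fixed field different from zero and one -/
theorem exists_l (hF : Fintype.card F = q ^ 2) (hq : 3 ≤ q) : ∃ l : F, l ^ q = l ∧ l ≠ 0 ∧ l ≠ 1 := by
  by_contra hcon
  push Not at hcon
  -- norms are `0` or `1`
  have h1 : ∀ a : F, a ≠ 0 → a ^ (q + 1) = 1 := by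
    intro a ha
    have h2 := hcon (a ^ (q + 1)) (norm_pow_q hF a)
    exact h2 (pow_ne_zero _ ha)
  classical
  have h2 := IsCyclic.card_pow_eq_one_le (α := Fˣ) (n := q + 1) (by omega)
  have h3 : (Finset.univ.filter fun a : Fˣ => a ^ (q + 1) = 1) = Finset.univ := by
    rw [Finset.filter_eq_self]
    intro a _
    apply Units.ext
    rw [Units.val_pow_eq_pow_val, Units.val_one]
    exact h1 a a.ne_zero
  rw [h3, Finset.card_univ, Fintype.card_units, hF] at h2
  have h4 : 3 * q ≤ q ^ 2 := by rw [pow_two]; exact Nat.mul_le_mul_right q hq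
  omega

variable (q) in
/-- self-adjoint operators -/
def SA (z : Module.End F (Fin 3 → F)) : Prop := ∀ u v, ⟪z u, v⟫ = ⟪u, z v⟫

theorem SA.mul_self {z : Module.End F (Fin 3 → F)} (h : SA q z) (n : ℕ) : SA q (z ^ n) := by
  induction n with
  | zero => intro u v; rfl
  | succ n ih =>
    intro u v
    rw [pow_succ, Module.End.mul_apply, ih, h, ← Module.End.mul_apply, ← pow_succ', pow_succ]

theorem SA.inv {B : (Module.End F (Fin 3 → F))ˣ} (h : SA q (B : Module.End F (Fin 3 → F))) :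
    SA q ((B⁻¹ : (Module.End F (Fin 3 → F))ˣ) : Module.End F (Fin 3 → F)) := by
  intro u v
  have h1 : ∀ w, (B : Module.End F (Fin 3 → F)) (((B⁻¹ : (Module.End F (Fin 3 → F))ˣ) : Module.End F (Fin 3 → F)) w) = w :=
    fun w => LinearMap.congr_fun B.mul_inv w
  conv_lhs => rw [← h1 v]
  rw [← h, h1]

theorem ext_form (hF : Fintype.card F = q ^ 2) {u u' : Fin 3 → F} (h : ∀ v, ⟪u, v⟫ = ⟪u', v⟫) : u = u' := by
  rw [← sub_eq_zero]
  apply hermForm_nondeg hF
  intro v
  rw [hermForm_sub_left, h, sub_self]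

/-- fourth powers with coefficients in the fixed field -/
theorem SA.pow4 (hF : Fintype.card F = q ^ 2) {C : Module.End F (Fin 3 → F)} (h : SA q C) :
    ∃ p₀ p₁ p₂ : F, p₀ ∈ kq hF ∧ p₁ ∈ kq hF ∧ p₂ ∈ kq hF ∧ C ^ 4 = p₀ • 1 + p₁ • C + p₂ • C ^ 2 := by
  obtain ⟨p₀, p₁, p₂, hp⟩ := exists_pow4 (F := F) (W := Fin 3 → F) (by rw [finrank_fintype_fun_eq_card, Fintype.card_fin]) C
  have hp' : C ^ 4 = p₀ ^ q • 1 + p₁ ^ q • C + p₂ ^ q • C ^ 2 := by
    apply LinearMap.ext; intro u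
    apply ext_form hF
    intro v
    have e1 : ⟪(C ^ 4) u, v⟫ = ⟪u, (C ^ 4) v⟫ := h.mul_self 4 u v
    have e2 : ⟪(C ^ 2) u, v⟫ = ⟪u, (C ^ 2) v⟫ := h.mul_self 2 u v
    rw [e1, hp]
    simp only [LinearMap.add_apply, LinearMap.smul_apply, Module.End.one_apply, hermForm_add_left, hermForm_add_right hF,
      hermForm_smul_left, hermForm_smul_right, e2, h u v]
  obtain ⟨α, hα⟩ := exists_trace_eq hF (c := (1 : F)) (one_pow q)
  have hmem : ∀ p : F, α * p + (α * p) ^ q ∈ kq hF := by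
    intro p
    rw [mem_kq, add_pow_q hF, pow_q_pow_q hF, add_comm]
  refine ⟨_, _, _, hmem p₀, hmem p₁, hmem p₂, ?_⟩
  have e : C ^ 4 = α • C ^ 4 + α ^ q • C ^ 4 := by rw [← add_smul, hα, one_smul]
  rw [e]
  conv_lhs => rw [show α • C ^ 4 = α • (p₀ • 1 + p₁ • C + p₂ • C ^ 2) by rw [← hp], show α ^ q • C ^ 4 =
    α ^ q • (p₀ ^ q • (1 : Module.End F (Fin 3 → F)) + p₁ ^ q • C + p₂ ^ q • C ^ 2) by rw [← hp']]
  simp only [mul_pow]
  module

/-- the hypotheses -/
structure HypU (hF : Fintype.card F = q ^ 2) (M : Subgroup (((Fin 3 → F) × (Fin 3 → F)) ≃ₗ[F] ((Fin 3 → F) × (Fin 3 → F)))) : Prop where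
  x : ∀ t : F, t ∈ kq hF → xt (t • (1 : Module.End F (Fin 3 → F))) ∈ M
  y : ∀ t : F, t ∈ kq hF → yt (t • (1 : Module.End F (Fin 3 → F))) ∈ M
  iso : ∀ g ∈ M, ∀ v v', ⟪(g v).1, (g v').2⟫ - ⟪(g v).2, (g v').1⟫ = ⟪v.1, v'.2⟫ - ⟪v.2, v'.1⟫
  su : ∀ s : Cfsg.SU 3 F q, ∃ g ∈ M, ∀ v, g v = (act s v.1, act s v.2)

variable {hF : Fintype.card F = q ^ 2}
  {M : Subgroup (((Fin 3 → F) × (Fin 3 → F)) ≃ₗ[F] ((Fin 3 → F) × (Fin 3 → F)))}

theorem HypU.selfadj (hM : HypU hF M) {z : Module.End F (Fin 3 → F)} (h : xt z ∈ M) : SA q z := by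
  intro u v
  have := hM.iso _ h (0, u) (0, v)
  simp only [xt_apply, zero_add, hermForm_zero_left, hermForm_zero_right hF, sub_zero] at this
  exact sub_eq_zero.1 this


theorem HypU.wy_mem (hM : HypU hF M) : (wy : ((Fin 3 → F) × (Fin 3 → F)) ≃ₗ[F] _) ∈ M :=
  M.mul_mem (M.mul_mem (hM.y _ (kq hF).one_mem) (hM.x _ ((kq hF).neg_mem (kq hF).one_mem))) (hM.y _ (kq hF).one_mem)

theorem Q.sa (hM : HypU hF M) {z : Module.End F (Fin 3 → F)} {B : (Module.End F (Fin 3 → F))ˣ} (h : Q (kq hF) M z B) : SA q z := by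
  obtain ⟨g, hg, κ, hκ, hκ0, h⟩ := h
  have h1 := h 1 (kq hF).one_mem
  rw [one_smul, mul_one] at h1
  have h2 : ∀ w, (g⁻¹ (z w, w)).2 = 0 := by
    intro w
    have h3 := congrArg (fun f : ((Fin 3 → F) × (Fin 3 → F)) ≃ₗ[F] _ => g⁻¹ (f (z w, w))) h1
    simp only [LinearEquiv.mul_apply, xt_apply, yt_apply, LinearMap.neg_apply, add_neg_cancel, map_zero, add_zero, zero_add] at h3
    have h4 : ∀ y, g⁻¹ (g y) = y := fun y => by rw [← LinearEquiv.mul_apply, inv_mul_cancel]; rfl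
    rw [h4] at h3
    have h5 := congrArg Prod.fst h3
    simp only [LinearMap.smul_apply, Module.End.one_apply] at h5
    rw [left_eq_add] at h5
    exact (smul_eq_zero.1 h5).resolve_left hκ0
  intro u v
  have h3 := hM.iso _ (M.inv_mem hg) (z u, u) (z v, v)
  rw [h2, h2, hermForm_zero_left, hermForm_zero_right hF, sub_zero] at h3
  exact sub_eq_zero.1 h3.symm

theorem Q.saB (hM : HypU hF M) (hH : Hyp (kq hF) M) {z : Module.End F (Fin 3 → F)} {B : (Module.End F (Fin 3 → F))ˣ}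
    (h : Q (kq hF) M z B) : SA q (B : Module.End F (Fin 3 → F)) := by
  have hz := h.sa hM
  have h1 := h.mem hH (kq hF).one_mem
  rw [one_smul] at h1
  intro u v
  have h2 := hM.iso _ h1 (u, 0) (v, 0)
  simp only [LinearEquiv.mul_apply, xt_apply, yt_apply, LinearMap.neg_apply, map_zero, neg_zero, add_zero, zero_add,
    hermForm_zero_left, hermForm_zero_right hF, sub_zero, hermForm_add_left, hermForm_add_right hF] at h2
  have h3 := hz ((B : Module.End F (Fin 3 → F)) u) ((B : Module.End F (Fin 3 → F)) v)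
  linear_combination -h2 + h3

theorem Q.isK (hM : HypU hF M) (hH : Hyp (kq hF) M)
    (hS : ∀ (z : Module.End F (Fin 3 → F)) (B : (Module.End F (Fin 3 → F))ˣ), Q (kq hF) M z B →
      IsK (kq hF) (B : Module.End F (Fin 3 → F)) → IsK (kq hF) z) (hq : 3 ≤ q)
    {z : Module.End F (Fin 3 → F)} {B : (Module.End F (Fin 3 → F))ˣ} (h : Q (kq hF) M z B) : IsK (kq hF) z := by
  obtain ⟨l, hl, hl0, hl1⟩ := exists_l hF hq
  exact (h.scalar_of_pow4 hH hS hl hl0 hl1 (h.pow4 hH hl hl0 hl1 ((h.saB hM hH).inv.pow4 hF))).2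

/-- opposite images are rational -/
theorem HypU.rational (hM : HypU hF M) (hH : Hyp (kq hF) M)
    (hS : ∀ (z : Module.End F (Fin 3 → F)) (B : (Module.End F (Fin 3 → F))ˣ), Q (kq hF) M z B →
      IsK (kq hF) (B : Module.End F (Fin 3 → F)) → IsK (kq hF) z) (hq : 3 ≤ q)
    {g : ((Fin 3 → F) × (Fin 3 → F)) ≃ₗ[F] ((Fin 3 → F) × (Fin 3 → F))} (hg : g ∈ M)
    (hopp : ∀ w : Fin 3 → F, (g (w, 0)).2 = 0 → w = 0) :
    ∃ c : F, c ∈ kq hF ∧ ∀ w : Fin 3 → F, (g (w, 0)).1 = c • (g (w, 0)).2 := by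
  set p : Module.End F (Fin 3 → F) := LinearMap.fst F _ _ ∘ₗ g.toLinearMap ∘ₗ LinearMap.inl F _ _ with hp
  set r : Module.End F (Fin 3 → F) := LinearMap.snd F _ _ ∘ₗ g.toLinearMap ∘ₗ LinearMap.inl F _ _ with hr
  have hpa : ∀ w, p w = (g (w, 0)).1 := fun w => rfl
  have hra : ∀ w, r w = (g (w, 0)).2 := fun w => rfl
  have hrinj : Function.Injective r := (injective_iff_map_eq_zero r).2 fun w hw => hopp w hw
  obtain ⟨ru, hru⟩ : IsUnit r := (Module.End.isUnit_iff _).2 ⟨hrinj, LinearMap.injective_iff_surjective.1 hrinj⟩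
  set z : Module.End F (Fin 3 → F) := p * ((ru⁻¹ : (Module.End F (Fin 3 → F))ˣ) : Module.End F (Fin 3 → F)) with hz
  have hzr : z * r = p := by rw [hz, mul_assoc, ← hru, Units.inv_mul, mul_one]
  have hzr' : ∀ w, z (r w) = p w := fun w => LinearMap.congr_fun hzr w
  set g' := xt (-z) * g with hg'
  have hg'1 : ∀ w, g' (w, 0) = (0, r w) := by
    intro w
    rw [hg', LinearEquiv.mul_apply, xt_apply, ← hra, ← hpa, LinearMap.neg_apply, hzr', add_neg_cancel]
  set s : Module.End F (Fin 3 → F) := LinearMap.fst F _ _ ∘ₗ g'.toLinearMap ∘ₗ LinearMap.inr F _ _ with hs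
  set u : Module.End F (Fin 3 → F) := LinearMap.snd F _ _ ∘ₗ g'.toLinearMap ∘ₗ LinearMap.inr F _ _ with hu
  have hg'2 : ∀ v : (Fin 3 → F) × (Fin 3 → F), g' v = (s v.2, r v.1 + u v.2) := by
    intro v
    have : v = (v.1, 0) + (0, v.2) := by ext <;> simp
    conv_lhs => rw [this]
    rw [map_add, hg'1]
    ext
    · simp only [Prod.fst_add, zero_add]; rfl
    · simp only [Prod.snd_add]; rfl
  have hssurj : Function.Surjective s := by
    intro w
    obtain ⟨v, hv⟩ := g'.surjective (w, 0)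
    refine ⟨v.2, ?_⟩
    rw [hg'2] at hv
    exact congrArg Prod.fst hv
  obtain ⟨su, hsu⟩ : IsUnit s := (Module.End.isUnit_iff _).2 ⟨LinearMap.injective_iff_surjective.2 hssurj, hssurj⟩
  set B : (Module.End F (Fin 3 → F))ˣ := ru * su⁻¹ with hB
  have hBs : (B : Module.End F (Fin 3 → F)) * s = r := by
    rw [hB, Units.val_mul, mul_assoc, ← hsu, Units.inv_mul, mul_one, hru]
  have hBs' : ∀ w, (B : Module.End F (Fin 3 → F)) (s w) = r w := fun w => LinearMap.congr_fun hBs w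
  have hQ : Q (kq hF) M z B := by
    refine ⟨g, hg, 1, (kq hF).one_mem, one_ne_zero, fun t _ => ?_⟩
    have h1 : yt (t • (B : Module.End F (Fin 3 → F))) * g' = g' * xt (t • 1) := by
      apply LinearEquiv.ext; intro v
      simp only [LinearEquiv.mul_apply, yt_apply, xt_apply, hg'2, LinearMap.smul_apply, Module.End.one_apply, hBs', map_add, map_smul]
      ext i
      · rfl
      · simp only [Pi.add_apply]; ring
    have h2 : g = xt z * g' := by
      rw [hg', ← mul_assoc, xt_mul, add_neg_cancel, xt_zero, one_mul]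
    rw [one_mul, h2, mul_inv_rev, xt_inv]
    calc _ = xt z * (yt (t • (B : Module.End F (Fin 3 → F))) * g') * g'⁻¹ * xt (-z) := by group
      _ = _ := by rw [h1]; group
  obtain ⟨c, hck, hc⟩ := hQ.isK hM hH hS hq
  refine ⟨c, hck, fun w => ?_⟩
  rw [← hpa, ← hra, ← hzr', hc, LinearMap.smul_apply, Module.End.one_apply]

end Cfsg.Agent.SmallDim.UT
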