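import Cfsg.Agent.SmallDim.UT2

set_option autoImplicit false
set_option linter.unusedSectionVars false
set_option linter.unusedVariables false

/-!
Groups acting on `W × W`, `W` unitary of dimension three: if the unipotent elements over `W × 0` are scalar,
the group preserves the tensor decomposition.
-/

namespace Cfsg.Agent.SmallDim.UT

open Module Cfsg.Agent.SmallDim.TenB Cfsg.Agent.Uni

variable {F : Type*} [Field F] [Fintype F] {q : ℕ}

local notation "⟪" x ", " y "⟫" => Cfsg.hermForm 3 F q x y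

variable (q) in
/-- adapted bases -/
structure FrU (e e' x : Fin 3 → F) : Prop where
  ee : ⟪e, e⟫ = 0
  e'e' : ⟪e', e'⟫ = 0
  ee' : ⟪e, e'⟫ = 1
  e'e : ⟪e', e⟫ = 1
  xe : ⟪x, e⟫ = 0
  xe' : ⟪x, e'⟫ = 0
  ex : ⟪e, x⟫ = 0
  e'x : ⟪e', x⟫ = 0
  xx : ⟪x, x⟫ = 1
  span : ∀ w : Fin 3 → F, ∃ α β γ : F, w = α • e + β • e' + γ • x

theorem exists_frU' (hF : Fintype.card F = q ^ 2) {e e' : Fin 3 → F} (hH : Cfsg.Agent.Uni.Hyp q e e') :
    ∃ x, FrU q e e' x := by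
  obtain ⟨x, hx, hxx⟩ := ((hH.nd hF).perp hF).exists_unit hF (by
    intro h
    have h1 := hH.finrank_perp hF
    rw [h, finrank_bot] at h1
    omega)
  obtain ⟨hxe, hxe'⟩ := (Hyp.mem_perp_iff hF).1 hx
  have hex := (hermForm_eq_zero_comm hF).1 hxe
  have he'x := (hermForm_eq_zero_comm hF).1 hxe'
  have he'e := (hH.symm hF).2.2
  have hx0 : x ≠ 0 := by
    rintro rfl
    rw [hermForm_zero_left] at hxx
    exact zero_ne_one hxx
  refine ⟨x, hH.1, hH.2.1, hH.2.2, he'e, hxe, hxe', hex, he'x, hxx, fun w => ?_⟩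
  refine span_three (by rw [Fintype.card_fin]) ?_ w
  intro α β γ h
  have a1 := congrArg (fun y => ⟪y, e'⟫) h
  have a2 := congrArg (fun y => ⟪y, e⟫) h
  have a3 := congrArg (fun y => ⟪y, x⟫) h
  simp only [hermForm_add_left, hermForm_smul_left, hermForm_zero_left, hH.1, hH.2.1, hH.2.2, he'e, hxe, hxe', hex, he'x, hxx] at a1 a2 a3
  exact ⟨by linear_combination a1, by linear_combination a2, by linear_combination a3⟩

theorem exists_frU (hF : Fintype.card F = q ^ 2) {e : Fin 3 → F} (he0 : e ≠ 0) (hee : ⟪e, e⟫ = 0) :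
    ∃ e' x, FrU q e e' x := by
  obtain ⟨e', hH⟩ := exists_hyp' hF he0 hee
  obtain ⟨x, hx⟩ := exists_frU' hF hH
  exact ⟨e', x, hx⟩

variable {hF : Fintype.card F = q ^ 2}
  {M : Subgroup (((Fin 3 → F) × (Fin 3 → F)) ≃ₗ[F] ((Fin 3 → F) × (Fin 3 → F)))}

theorem HypU.ti (hM : HypU hF M) {g : ((Fin 3 → F) × (Fin 3 → F)) ≃ₗ[F] ((Fin 3 → F) × (Fin 3 → F))} (hg : g ∈ M) {v v' : (Fin 3 → F) × (Fin 3 → F)}
    (hv : v ∈ Lm g) (hv' : v' ∈ Lm g) : ⟪v.1, v'.2⟫ = ⟪v.2, v'.1⟫ := by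
  obtain ⟨w, rfl⟩ := hv
  obtain ⟨w', rfl⟩ := hv'
  have := hM.iso g hg (w, 0) (w', 0)
  simp only [hermForm_zero_left, hermForm_zero_right hF, sub_zero] at this
  exact sub_eq_zero.1 this

theorem exists_perp_one (hF : Fintype.card F = q ^ 2) {w c : Fin 3 → F} (hc : c ∉ Submodule.span F {w}) :
    ∃ x, ⟪x, w⟫ = 0 ∧ ⟪x, c⟫ = 1 := by
  obtain ⟨y, hy, hcy⟩ := Cfsg.Agent.H98.UniMax.exists_perp_ne hF ({w} : Finset (Fin 3 → F)) c (by simpa using hc)
  have hyc : ⟪y, c⟫ ≠ 0 := fun h => hcy ((hermForm_eq_zero_comm hF).1 h)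
  refine ⟨(⟪y, c⟫)⁻¹ • y, ?_, ?_⟩
  · rw [hermForm_smul_left, hy w (by simp), mul_zero]
  · rw [hermForm_smul_left, inv_mul_cancel₀ hyc]

/-- an isotropic vector in the two coordinates -/
theorem HypU.bad_one (hM : HypU hF M) {l : F} (hl : l ^ q = l) (hl0 : l ≠ 0) (hl1 : l ≠ 1) {g : ((Fin 3 → F) × (Fin 3 → F)) ≃ₗ[F] ((Fin 3 → F) × (Fin 3 → F))}
    (hg : g ∈ M) (hbad : ∀ γ δ : F, γ ∈ kq hF → δ ∈ kq hF → (γ ≠ 0 ∨ δ ≠ 0) → ∃ w, w ≠ 0 ∧ γ • (g (w, 0)).1 + δ • (g (w, 0)).2 = 0) :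
    ∃ e : Fin 3 → F, e ≠ 0 ∧ ⟪e, e⟫ = 0 ∧ (e, (0 : Fin 3 → F)) ∈ Lm g ∧ ((0 : Fin 3 → F), e) ∈ Lm g := by
  suffices h : ∃ e : Fin 3 → F, e ≠ 0 ∧ (e, (0 : Fin 3 → F)) ∈ Lm g ∧ ((0 : Fin 3 → F), e) ∈ Lm g by
    obtain ⟨e, he0, h1, h2⟩ := h
    refine ⟨e, he0, ?_, h1, h2⟩
    have := hM.ti hg h1 h2
    simpa [hermForm_zero_left] using this
  have hinj : ∀ w, g (w, 0) = 0 → w = 0 := fun w hw => by
    have := g.injective (hw.trans (map_zero g).symm)
    exact congrArg Prod.fst this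
  have h0k := (kq hF).zero_mem
  have h1k := (kq hF).one_mem
  obtain ⟨w₁, hw₁, h₁⟩ := hbad 0 1 h0k h1k (Or.inr one_ne_zero)
  obtain ⟨w₀, hw₀, h₀⟩ := hbad 1 0 h1k h0k (Or.inl one_ne_zero)
  rw [zero_smul, one_smul, zero_add] at h₁
  rw [zero_smul, one_smul, add_zero] at h₀
  have ha0 : (g (w₁, 0)).1 ≠ 0 := fun h => hw₁ (hinj _ (Prod.ext h h₁))
  have hb0 : (g (w₀, 0)).2 ≠ 0 := fun h => hw₀ (hinj _ (Prod.ext h₀ h))
  have ha : ((g (w₁, 0)).1, (0 : Fin 3 → F)) ∈ Lm g := ⟨w₁, Prod.ext rfl h₁⟩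
  have hb : ((0 : Fin 3 → F), (g (w₀, 0)).2) ∈ Lm g := ⟨w₀, Prod.ext h₀ rfl⟩
  generalize (g (w₁, 0)).1 = a at ha ha0
  generalize (g (w₀, 0)).2 = b at hb hb0
  by_cases hab : b ∈ Submodule.span F {a}
  · obtain ⟨c, rfl⟩ := Submodule.mem_span_singleton.1 hab
    have hc : c ≠ 0 := by rintro rfl; exact hb0 (zero_smul _ _)
    refine ⟨a, ha0, ha, ?_⟩
    have := (Lm g).smul_mem c⁻¹ hb
    rwa [Prod.smul_mk, smul_zero, smul_smul, inv_mul_cancel₀ hc, one_smul] at this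
  have hex : ∀ c : F, c ∈ kq hF → ∃ x : Fin 3 → F, x ≠ 0 ∧ (c • x, x) ∈ Lm g := by
    intro c hck
    obtain ⟨w, hw, h⟩ := hbad 1 (-c) h1k ((kq hF).neg_mem hck) (Or.inl one_ne_zero)
    rw [one_smul, neg_smul] at h
    have h1 : (g (w, 0)).1 = c • (g (w, 0)).2 := eq_of_sub_eq_zero (by rw [sub_eq_add_neg]; exact h)
    refine ⟨(g (w, 0)).2, fun h0 => hw (hinj _ (Prod.ext (by rw [h1, h0, smul_zero]; rfl) h0)), ⟨w, Prod.ext h1 rfl⟩⟩
  obtain ⟨x, hx0, hx⟩ := hex 1 h1k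
  obtain ⟨y, hy0, hy⟩ := hex l hl
  rw [one_smul] at hx
  have t1 : ⟪a, x⟫ = 0 := by simpa [hermForm_zero_left] using hM.ti hg ha hx
  have t2 : ⟪b, x⟫ = 0 := by simpa [hermForm_zero_left] using (hM.ti hg hb hx).symm
  have t3 : ⟪a, y⟫ = 0 := by simpa [hermForm_zero_left] using hM.ti hg ha hy
  have t4 : ⟪b, y⟫ = 0 := by
    have := (hM.ti hg hb hy).symm
    simp only [hermForm_zero_left, hermForm_smul_right] at this
    exact (mul_eq_zero.1 this).resolve_left (pow_ne_zero _ hl0)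
  -- `y` is a multiple of `x`
  obtain ⟨p, hp1, hp2⟩ := exists_perp_one hF hab
  obtain ⟨p', hp1', hp2'⟩ := exists_perp_one hF (w := b) (c := a) (by
    intro h
    obtain ⟨c, hc⟩ := Submodule.mem_span_singleton.1 h
    have hc0 : c ≠ 0 := by rintro rfl; rw [zero_smul] at hc; exact ha0 hc.symm
    exact hab (Submodule.mem_span_singleton.2 ⟨c⁻¹, by rw [← hc, smul_smul, inv_mul_cancel₀ hc0, one_smul]⟩))
  have t1' : ⟪x, a⟫ = 0 := (hermForm_eq_zero_comm hF).1 t1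
  have t2' : ⟪x, b⟫ = 0 := (hermForm_eq_zero_comm hF).1 t2
  have t3' : ⟪y, a⟫ = 0 := (hermForm_eq_zero_comm hF).1 t3
  have t4' : ⟪y, b⟫ = 0 := (hermForm_eq_zero_comm hF).1 t4
  obtain ⟨α, β, γ, hy'⟩ := span_three (F := F) (κ := Fin 3) (by rw [Fintype.card_fin]) (a := p) (b := p') (c := x) (by
    intro α β γ h
    have a1 := congrArg (fun y => ⟪y, b⟫) h
    have a2 := congrArg (fun y => ⟪y, a⟫) h
    simp only [hermForm_add_left, hermForm_smul_left, hermForm_zero_left, hp1, hp2, hp1', hp2', t1', t2'] at a1 a2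
    have b1 : α = 0 := by linear_combination a1
    have b2 : β = 0 := by linear_combination a2
    rw [b1, b2, zero_smul, zero_smul, zero_add, zero_add] at h
    exact ⟨b1, b2, (smul_eq_zero.1 h).resolve_right hx0⟩) y
  have b1 := congrArg (fun y => ⟪y, b⟫) hy'
  have b2 := congrArg (fun y => ⟪y, a⟫) hy'
  simp only [hermForm_add_left, hermForm_smul_left, hp1, hp2, hp1', hp2', t1', t2', t3', t4'] at b1 b2
  have c1 : α = 0 := by linear_combination -b1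
  have c2 : β = 0 := by linear_combination -b2
  rw [c1, c2, zero_smul, zero_smul, zero_add, zero_add] at hy'
  have hγ : γ ≠ 0 := by rintro rfl; rw [zero_smul] at hy'; exact hy0 hy'
  have h5 := (Lm g).sub_mem hy ((Lm g).smul_mem γ hx)
  rw [Prod.smul_mk, Prod.mk_sub_mk, hy', sub_self, smul_smul, ← sub_smul] at h5
  have h6 : l * γ - γ ≠ 0 := by
    have : l * γ - γ = (l - 1) * γ := by ring
    rw [this]; exact mul_ne_zero (sub_ne_zero.2 hl1) hγ
  have h7 := (Lm g).smul_mem (l * γ - γ)⁻¹ h5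
  rw [Prod.smul_mk, smul_smul, inv_mul_cancel₀ h6, one_smul, smul_zero] at h7
  refine ⟨x, hx0, h7, ?_⟩
  have h8 := (Lm g).sub_mem hx h7
  rwa [Prod.mk_sub_mk, sub_self, sub_zero] at h8

/-- the normal form of a bad element -/
structure BadU (M : Subgroup (((Fin 3 → F) × (Fin 3 → F)) ≃ₗ[F] ((Fin 3 → F) × (Fin 3 → F)))) (e x : Fin 3 → F)
    (g : ((Fin 3 → F) × (Fin 3 → F)) ≃ₗ[F] ((Fin 3 → F) × (Fin 3 → F))) : Prop where
  mem : g ∈ M
  b1 : (e, (0 : Fin 3 → F)) ∈ Lm g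
  b2 : ((0 : Fin 3 → F), e) ∈ Lm g
  b3 : (x, (0 : Fin 3 → F)) ∈ Lm g

theorem HypU.bad_two (hM : HypU hF M) {g : ((Fin 3 → F) × (Fin 3 → F)) ≃ₗ[F] ((Fin 3 → F) × (Fin 3 → F))} (hg : g ∈ M) {e e' x : Fin 3 → F}
    (hfr : FrU q e e' x) (h1 : (e, (0 : Fin 3 → F)) ∈ Lm g) (h2 : ((0 : Fin 3 → F), e) ∈ Lm g) : ∃ g', BadU M e x g' := by
  -- a third vector
  have hspan : ¬ Lm g ≤ Submodule.span F {(e, (0 : Fin 3 → F)), ((0 : Fin 3 → F), e)} := by
    intro h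
    have h4 := Submodule.finrank_mono h
    have h5 : finrank F (Submodule.span F ({(e, (0 : Fin 3 → F)), ((0 : Fin 3 → F), e)} : Set ((Fin 3 → F) × (Fin 3 → F)))) ≤ 2 := by
      classical
      have := finrank_span_finset_le_card (R := F) ({(e, (0 : Fin 3 → F)), ((0 : Fin 3 → F), e)} : Finset ((Fin 3 → F) × (Fin 3 → F)))
      rw [Finset.coe_pair] at this
      exact this.trans (Finset.card_le_two)
    rw [finrank_Lm, Fintype.card_fin] at h4
    omega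
  obtain ⟨v, hv, hvn⟩ := Set.not_subset.1 hspan
  have t1 : ⟪e, v.2⟫ = 0 := by simpa [hermForm_zero_left] using hM.ti hg h1 hv
  have t2 : ⟪e, v.1⟫ = 0 := by simpa [hermForm_zero_left] using (hM.ti hg h2 hv).symm
  obtain ⟨α, β, γ, h4⟩ := hfr.span v.1
  obtain ⟨α', β', γ', h5⟩ := hfr.span v.2
  have hβ : β = 0 := by
    rw [h4, hermForm_add_right hF, hermForm_add_right hF, hermForm_smul_right, hermForm_smul_right, hermForm_smul_right,
      hfr.ee, hfr.ee', hfr.ex, mul_zero, mul_zero, zero_add, add_zero, mul_one] at t2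
    exact pow_eq_zero_iff (q_ne_zero hF) |>.1 t2
  have hβ' : β' = 0 := by
    rw [h5, hermForm_add_right hF, hermForm_add_right hF, hermForm_smul_right, hermForm_smul_right, hermForm_smul_right,
      hfr.ee, hfr.ee', hfr.ex, mul_zero, mul_zero, zero_add, add_zero, mul_one] at t1
    exact pow_eq_zero_iff (q_ne_zero hF) |>.1 t1
  rw [hβ, zero_smul, add_zero] at h4
  rw [hβ', zero_smul, add_zero] at h5
  have h6 : (γ • x, γ' • x) ∈ Lm g := by
    have := (Lm g).sub_mem ((Lm g).sub_mem hv ((Lm g).smul_mem α h1)) ((Lm g).smul_mem α' h2)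
    convert this using 1
    ext i
    · simp [h4]
    · simp [h5]
  have hne : γ ≠ 0 ∨ γ' ≠ 0 := by
    by_contra hcon
    push Not at hcon
    apply hvn
    have : v = α • (e, (0 : Fin 3 → F)) + α' • ((0 : Fin 3 → F), e) := by
      ext i
      · simp [h4, hcon.1]
      · simp [h5, hcon.2]
    rw [this]
    exact Submodule.add_mem _ (Submodule.smul_mem _ _ (Submodule.subset_span (by simp)))
      (Submodule.smul_mem _ _ (Submodule.subset_span (by simp)))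
  by_cases hγ' : γ' = 0
  · have hγ : γ ≠ 0 := hne.resolve_right (fun h => h hγ')
    refine ⟨g, hg, h1, h2, ?_⟩
    have := (Lm g).smul_mem γ⁻¹ h6
    rwa [hγ', zero_smul, Prod.smul_mk, smul_zero, smul_smul, inv_mul_cancel₀ hγ, one_smul] at this
  · have hρ : (γ / γ') ∈ kq hF := by
      have h7 := hM.ti hg h6 h6
      simp only [hermForm_smul_left, hermForm_smul_right, hfr.xx, mul_one] at h7
      rw [mem_kq, div_pow, div_eq_div_iff (pow_ne_zero _ hγ') hγ']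
      linear_combination -h7
    set n := wy * xt ((-(γ / γ')) • (1 : Module.End F (Fin 3 → F))) with hn
    have hnM : n ∈ M := M.mul_mem hM.wy_mem (hM.x _ ((kq hF).neg_mem hρ))
    have hnv : ∀ v : (Fin 3 → F) × (Fin 3 → F), n v = (-v.2, v.1 - (γ / γ') • v.2) := by
      intro v
      rw [hn, LinearEquiv.mul_apply, wy_apply, xt_apply, LinearMap.smul_apply, Module.End.one_apply]
      ext i <;> simp [sub_eq_add_neg]
    have a1 := mem_Lm_mul (h := n) h1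
    have a2 := mem_Lm_mul (h := n) h2
    have a3 := mem_Lm_mul (h := n) h6
    rw [hnv] at a1 a2 a3
    simp only [neg_zero, smul_zero, sub_zero, zero_sub] at a1 a2
    refine ⟨n * g, M.mul_mem hnM hg, ?_, a1, ?_⟩
    · have := (Lm (n * g)).sub_mem ((Lm (n * g)).neg_mem a2) ((Lm (n * g)).smul_mem (γ / γ') a1)
      convert this using 1
      ext i <;> simp
    · have e1 : γ • x - (γ / γ') • γ' • x = 0 := by
        rw [smul_smul, div_mul_cancel₀ _ hγ', sub_self]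
      simp only [e1] at a3
      have := (Lm (n * g)).smul_mem (-γ'⁻¹) a3
      convert this using 1
      rw [Prod.smul_mk, smul_zero, smul_neg, neg_smul, neg_neg, smul_smul, inv_mul_cancel₀ hγ', one_smul]

theorem BadU.fst (hM : HypU hF M) {g : ((Fin 3 → F) × (Fin 3 → F)) ≃ₗ[F] ((Fin 3 → F) × (Fin 3 → F))} {e e' x : Fin 3 → F}
    (hfr : FrU q e e' x) (hb : BadU M e x g) {v : (Fin 3 → F) × (Fin 3 → F)} (hv : v ∈ Lm g) :
    ⟪e, v.1⟫ = 0 ∧ ∃ α : F, v.2 = α • e := by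
  have t1 : ⟪e, v.2⟫ = 0 := by simpa [hermForm_zero_left] using hM.ti hb.mem hb.b1 hv
  have t2 : ⟪e, v.1⟫ = 0 := by simpa [hermForm_zero_left] using (hM.ti hb.mem hb.b2 hv).symm
  have t3 : ⟪x, v.2⟫ = 0 := by simpa [hermForm_zero_left] using hM.ti hb.mem hb.b3 hv
  refine ⟨t2, ?_⟩
  obtain ⟨α', β', γ', h5⟩ := hfr.span v.2
  have hβ' : β' = 0 := by
    rw [h5, hermForm_add_right hF, hermForm_add_right hF, hermForm_smul_right, hermForm_smul_right, hermForm_smul_right,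
      hfr.ee, hfr.ee', hfr.ex, mul_zero, mul_zero, zero_add, add_zero, mul_one] at t1
    exact pow_eq_zero_iff (q_ne_zero hF) |>.1 t1
  have hγ' : γ' = 0 := by
    rw [h5, hermForm_add_right hF, hermForm_add_right hF, hermForm_smul_right, hermForm_smul_right, hermForm_smul_right,
      hfr.xe, hfr.xe', hfr.xx, mul_zero, mul_zero, zero_add, zero_add, mul_one] at t3
    exact pow_eq_zero_iff (q_ne_zero hF) |>.1 t3
  exact ⟨α', by rw [h5, hβ', hγ', zero_smul, zero_smul, add_zero, add_zero]⟩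

end Cfsg.Agent.SmallDim.UT
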