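import Cfsg.Agent.SmallDim.UT3

set_option autoImplicit false
set_option linter.unusedSectionVars false
set_option linter.unusedVariables false

/-!
Groups acting on `W × W`, `W` unitary of dimension three: if the unipotent elements over `W × 0` are scalar,
the group preserves the tensor decomposition.
-/

namespace Cfsg.Agent.SmallDim.UT

open Module Cfsg.Agent.SmallDim.TenB Cfsg.Agent.Uni

variable {F : Type*} [Field F] [Fintype F] {q : ℕ}

local notation "⟪" x ", " y "⟫" => Cfsg.hermForm 3 F q x y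

variable {hF : Fintype.card F = q ^ 2}
  {M : Subgroup (((Fin 3 → F) × (Fin 3 → F)) ≃ₗ[F] ((Fin 3 → F) × (Fin 3 → F)))}

theorem HypU.no_bad (hM : HypU hF M) (hH : Hyp (kq hF) M)
    (hS : ∀ (z : Module.End F (Fin 3 → F)) (B : (Module.End F (Fin 3 → F))ˣ), Q (kq hF) M z B →
      IsK (kq hF) (B : Module.End F (Fin 3 → F)) → IsK (kq hF) z) (hq : 3 ≤ q)
    {g : ((Fin 3 → F) × (Fin 3 → F)) ≃ₗ[F] ((Fin 3 → F) × (Fin 3 → F))} {e e' x : Fin 3 → F}
    (hfr : FrU q e e' x) (hb : BadU M e x g) : False := by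
  have hx0 : x ≠ 0 := by
    rintro rfl
    have := hfr.xx
    rw [hermForm_zero_left] at this
    exact zero_ne_one this
  have he0 : e ≠ 0 := by
    rintro rfl
    have := hfr.ee'
    rw [hermForm_zero_left] at this
    exact zero_ne_one this
  -- the elements
  have key : ∀ t : F, t ≠ 0 → t ^ q = -t → ∃ (n : ((Fin 3 → F) × (Fin 3 → F)) ≃ₗ[F] ((Fin 3 → F) × (Fin 3 → F))) (f : Fin 3 → F) (c : F),
      n ∈ M ∧ f = e + t • e' ∧ (∀ v ∈ Lm (n * g), (∃ β : F, v.1 = β • f) ∧ ⟪f, v.2⟫ = 0) ∧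
      (∀ y, ⟪f, y⟫ = 0 → ((0 : Fin 3 → F), y) ∈ Lm (n * g)) ∧ (f, (0 : Fin 3 → F)) ∈ Lm (n * g) ∧
      (∀ v ∈ Lm (n * g), (g⁻¹ v).1 = c • (g⁻¹ v).2) ∧
      (∀ s, (c • s, s) ∈ Lm (g⁻¹ * (n * g))) := by
    intro t ht htq
    obtain ⟨s₀, hs₀⟩ := exists_eich hF e' 0 t hfr.e'e' (hermForm_zero_right hF _) (by
      rw [hermForm_zero_left, htq]; ring)
    have hs₀' := (isEich_zero_iff hF s₀ e' t).1 hs₀
    obtain ⟨d, hd, hdv⟩ := hM.su s₀
    set f := act s₀ e with hf
    have hfe : f = e + t • e' := by rw [hf, hs₀', hfr.ee', mul_one]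
    have hne : ⟪e, f⟫ ≠ 0 := by
      rw [hfe, hermForm_add_right hF, hermForm_smul_right, hfr.ee, hfr.ee', zero_add, mul_one]
      exact pow_ne_zero _ ht
    have hne' : ⟪f, e⟫ ≠ 0 := fun h => hne ((hermForm_eq_zero_comm hF).1 h)
    set n := wy * d with hn
    have hnM : n ∈ M := M.mul_mem hM.wy_mem hd
    have hnv : ∀ v, n v = (-(act s₀ v.2), act s₀ v.1) := by
      intro v; rw [hn, LinearEquiv.mul_apply, hdv, wy_apply]
    have hAn : ∀ v, (n * g) v = (-(act s₀ (g v).2), act s₀ (g v).1) := fun v => by rw [LinearEquiv.mul_apply, hnv]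
    have p1 : ∀ v ∈ Lm (n * g), (∃ β : F, v.1 = β • f) ∧ ⟪f, v.2⟫ = 0 := by
      rintro _ ⟨w, rfl⟩
      have h4 := BadU.fst hM hfr hb (v := g (w, 0)) ⟨w, rfl⟩
      show (∃ β : F, ((n * g) (w, 0)).1 = β • f) ∧ ⟪f, ((n * g) (w, 0)).2⟫ = 0
      rw [hAn]
      obtain ⟨α, hα⟩ := h4.2
      refine ⟨⟨-α, ?_⟩, ?_⟩
      · simp only [hα, act_smul, neg_smul, hf]
      · simp only [hf, act_form]; exact h4.1
    have hmem : ∀ {v : (Fin 3 → F) × (Fin 3 → F)}, v ∈ Lm g → (-(act s₀ v.2), act s₀ v.1) ∈ Lm (n * g) := by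
      rintro _ ⟨w, rfl⟩
      exact ⟨w, hAn _⟩
    have p2 : ∀ y, ⟪f, y⟫ = 0 → ((0 : Fin 3 → F), y) ∈ Lm (n * g) := by
      intro y hy
      have h4 : ⟪e, act s₀⁻¹ y⟫ = 0 := by
        rw [← act_form s₀, act_act_inv]; exact hy
      obtain ⟨α, β, γ, h5⟩ := hfr.span (act s₀⁻¹ y)
      have hβ : β = 0 := by
        rw [h5, hermForm_add_right hF, hermForm_add_right hF, hermForm_smul_right, hermForm_smul_right, hermForm_smul_right,
          hfr.ee, hfr.ee', hfr.ex, mul_zero, mul_zero, zero_add, add_zero, mul_one] at h4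
        exact pow_eq_zero_iff (q_ne_zero hF) |>.1 h4
      rw [hβ, zero_smul, add_zero] at h5
      have h6 : (act s₀⁻¹ y, (0 : Fin 3 → F)) ∈ Lm g := by
        rw [h5]
        have := (Lm g).add_mem ((Lm g).smul_mem α hb.b1) ((Lm g).smul_mem γ hb.b3)
        rwa [Prod.smul_mk, Prod.smul_mk, smul_zero, smul_zero, Prod.mk_add_mk, add_zero] at this
      have := hmem h6
      simpa only [act_zero, neg_zero, act_act_inv] using this
    have p3 : (f, (0 : Fin 3 → F)) ∈ Lm (n * g) := by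
      have := hmem hb.b2
      simp only [act_zero] at this
      have h5 := (Lm (n * g)).neg_mem this
      rwa [Prod.neg_mk, neg_neg, neg_zero] at h5
    have hm : g⁻¹ * (n * g) ∈ M := M.mul_mem (M.inv_mem hb.mem) (M.mul_mem hnM hb.mem)
    have hgg : ∀ v, g ((g⁻¹ * (n * g)) v) = (n * g) v := fun v => by
      rw [← LinearEquiv.mul_apply, ← mul_assoc, mul_inv_cancel, one_mul]
    have hopp : ∀ w : Fin 3 → F, ((g⁻¹ * (n * g)) (w, 0)).2 = 0 → w = 0 := by
      intro w hw
      obtain ⟨v, hv⟩ : ∃ v, v = (g⁻¹ * (n * g)) (w, 0) := ⟨_, rfl⟩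
      rw [← hv] at hw
      have h4 : g v = (n * g) (w, 0) := by rw [hv, hgg]
      have h5 : g v ∈ Lm g := ⟨v.1, by
        have hv2 : ((v.1, (0 : Fin 3 → F)) : (Fin 3 → F) × (Fin 3 → F)) = v := Prod.ext rfl hw.symm
        exact congrArg g hv2⟩
      have h6 : g v ∈ Lm (n * g) := ⟨w, h4.symm⟩
      obtain ⟨a1, α, a2⟩ := BadU.fst hM hfr hb h5
      obtain ⟨⟨β, b1⟩, b2⟩ := p1 _ h6
      have c1 : (g v).1 = 0 := by
        rw [b1, hermForm_smul_right] at a1
        have h7 : β = 0 := (pow_eq_zero_iff (q_ne_zero hF)).1 ((mul_eq_zero.1 a1).resolve_right hne)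
        rw [b1, h7, zero_smul]
      have c2 : (g v).2 = 0 := by
        rw [a2, hermForm_smul_right] at b2
        have h7 : α = 0 := (pow_eq_zero_iff (q_ne_zero hF)).1 ((mul_eq_zero.1 b2).resolve_right hne')
        rw [a2, h7, zero_smul]
      have c3 : g v = 0 := Prod.ext c1 c2
      rw [h4] at c3
      have c4 := (n * g).injective (c3.trans (map_zero _).symm)
      exact congrArg Prod.fst c4
    obtain ⟨c, hck, hc⟩ := hM.rational hH hS hq hm hopp
    refine ⟨n, f, c, hnM, hfe, p1, p2, p3, ?_, fun s => ?_⟩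
    · rintro _ ⟨w, rfl⟩
      exact hc w
    · -- surjectivity of the second component
      set r : Module.End F (Fin 3 → F) := LinearMap.snd F _ _ ∘ₗ (g⁻¹ * (n * g)).toLinearMap ∘ₗ LinearMap.inl F _ _ with hr
      have hrinj : Function.Injective r := (injective_iff_map_eq_zero r).2 fun w hw => hopp w hw
      obtain ⟨w, hw⟩ := LinearMap.injective_iff_surjective.1 hrinj s
      refine ⟨w, Prod.ext ?_ hw⟩
      have := hc w
      rw [show ((g⁻¹ * (n * g)) (w, 0)).2 = s from hw] at this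
      exact this
  obtain ⟨l, hl, hl0, hl1⟩ := exists_l hF hq
  obtain ⟨a, ha0, haq⟩ := exists_skew hF
  obtain ⟨n, f, c, hn, hfe, p1, p2, p3, p4, p5⟩ := key a ha0 haq
  obtain ⟨n', f', c', hn', hfe', p1', p2', p3', p4', p5'⟩ := key (l * a) (mul_ne_zero hl0 ha0) (by rw [mul_pow, hl, haq]; ring)
  -- a common vector
  have hcc : c = c' := by
    obtain ⟨y, hy0, hy1, hy2⟩ : ∃ y : Fin 3 → F, y ≠ 0 ∧ ⟪f, y⟫ = 0 ∧ ⟪f', y⟫ = 0 := by
      refine ⟨x, hx0, ?_, ?_⟩
      · rw [hfe, hermForm_add_left, hermForm_smul_left, hfr.ex, hfr.e'x, mul_zero, add_zero]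
      · rw [hfe', hermForm_add_left, hermForm_smul_left, hfr.ex, hfr.e'x, mul_zero, add_zero]
    have h1 := p4 _ (p2 y hy1)
    have h4 := p4' _ (p2' y hy2)
    have h5 : (g⁻¹ ((0 : Fin 3 → F), y)).2 ≠ 0 := by
      intro h
      rw [h, smul_zero] at h1
      have : g⁻¹ ((0 : Fin 3 → F), y) = 0 := Prod.ext h1 h
      have h6 := (g⁻¹).injective (this.trans (map_zero _).symm)
      exact hy0 (congrArg Prod.snd h6)
    have h6 : (c - c') • (g⁻¹ ((0 : Fin 3 → F), y)).2 = 0 := by rw [sub_smul, ← h1, ← h4, sub_self]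
    exact sub_eq_zero.1 ((smul_eq_zero.1 h6).resolve_right h5)
  -- the two images coincide
  have h1 := p4 _ p3
  rw [hcc] at h1
  obtain ⟨w, hw⟩ := p5' (g⁻¹ (f, (0 : Fin 3 → F))).2
  have h4 : (f, (0 : Fin 3 → F)) ∈ Lm (n' * g) := by
    refine ⟨w, ?_⟩
    have h5 : (g⁻¹ * (n' * g)) (w, 0) = g⁻¹ (f, (0 : Fin 3 → F)) := hw.trans (Prod.ext h1.symm rfl)
    have h6 := congrArg g h5
    rw [← LinearEquiv.mul_apply g, ← mul_assoc, mul_inv_cancel, one_mul, ← LinearEquiv.mul_apply g, mul_inv_cancel] at h6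
    exact h6
  obtain ⟨⟨β, hβ⟩, -⟩ := p1' _ h4
  rw [hfe, hfe'] at hβ
  have a1 := congrArg (fun y => ⟪y, e'⟫) hβ
  have a2 := congrArg (fun y => ⟪y, e⟫) hβ
  simp only [hermForm_add_left, hermForm_smul_left, hfr.ee, hfr.ee', hfr.e'e', hfr.e'e] at a1 a2
  have a3 : β = 1 := by linear_combination -a1
  rw [a3] at a2
  have a4 : (l - 1) * a = 0 := by linear_combination -a2
  exact (mul_ne_zero (sub_ne_zero.2 hl1) ha0) a4

/-- the image of `W × 0` is rational -/
theorem HypU.good (hM : HypU hF M) (hH : Hyp (kq hF) M)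
    (hS : ∀ (z : Module.End F (Fin 3 → F)) (B : (Module.End F (Fin 3 → F))ˣ), Q (kq hF) M z B →
      IsK (kq hF) (B : Module.End F (Fin 3 → F)) → IsK (kq hF) z) (hq : 3 ≤ q)
    {g : ((Fin 3 → F) × (Fin 3 → F)) ≃ₗ[F] ((Fin 3 → F) × (Fin 3 → F))} (hg : g ∈ M) :
    ∃ (p : Module.End F (Fin 3 → F)) (a b : F), Function.Injective p ∧ ∀ w, g (w, 0) = (a • p w, b • p w) := by
  obtain ⟨l, hl, hl0, hl1⟩ := exists_l hF hq
  by_cases hbad : ∀ γ δ : F, γ ∈ kq hF → δ ∈ kq hF → (γ ≠ 0 ∨ δ ≠ 0) → ∃ w, w ≠ 0 ∧ γ • (g (w, 0)).1 + δ • (g (w, 0)).2 = 0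
  · exfalso
    obtain ⟨e, he0, hee, h1, h2⟩ := hM.bad_one hl hl0 hl1 hg hbad
    obtain ⟨e', x, hfr⟩ := exists_frU hF he0 hee
    obtain ⟨g', hg'⟩ := hM.bad_two hg hfr h1 h2
    exact hM.no_bad hH hS hq hfr hg'
  push Not at hbad
  obtain ⟨γ, δ, hγk, hδk, hne, hinj⟩ := hbad
  set p : Module.End F (Fin 3 → F) := LinearMap.fst F _ _ ∘ₗ g.toLinearMap ∘ₗ LinearMap.inl F _ _ with hp
  set r : Module.End F (Fin 3 → F) := LinearMap.snd F _ _ ∘ₗ g.toLinearMap ∘ₗ LinearMap.inl F _ _ with hr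
  have hpa : ∀ w, (g (w, 0)).1 = p w := fun w => rfl
  have hra : ∀ w, (g (w, 0)).2 = r w := fun w => rfl
  by_cases hδ : δ = 0
  · have hγ : γ ≠ 0 := hne.resolve_right (fun h => h hδ)
    have hpinj : Function.Injective p := by
      rw [injective_iff_map_eq_zero]
      intro w hw
      by_contra hw0
      apply hinj w hw0
      rw [hδ, zero_smul, add_zero, hpa, hw, smul_zero]
    obtain ⟨c, -, hc⟩ := hM.rational hH hS hq (M.mul_mem hM.wy_mem hg) (fun w hw => by
      rw [LinearEquiv.mul_apply, wy_apply] at hw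
      exact hpinj (hw.trans (map_zero p).symm))
    refine ⟨p, 1, -c, hpinj, fun w => ?_⟩
    have h4 := hc w
    rw [LinearEquiv.mul_apply, wy_apply] at h4
    simp only [hpa, hra] at h4
    refine Prod.ext ?_ ?_
    · rw [hpa, one_smul]
    · rw [hra, neg_smul, ← h4, neg_neg]
  · set c' := γ / δ with hc'
    have hck' : c' ∈ kq hF := (kq hF).div_mem hγk hδk
    set p' : Module.End F (Fin 3 → F) := r + c' • p with hp'
    have hqinj : Function.Injective p' := by
      rw [injective_iff_map_eq_zero]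
      intro w hw
      by_contra hw0
      apply hinj w hw0
      rw [hpa, hra]
      have h4 : γ • p w + δ • r w = δ • p' w := by
        rw [hp', LinearMap.add_apply, LinearMap.smul_apply, smul_add, smul_smul, hc', mul_div_cancel₀ _ hδ, add_comm]
      rw [h4, hw, smul_zero]
    obtain ⟨c, -, hc⟩ := hM.rational hH hS hq (M.mul_mem (hM.y c' hck') hg) (fun w hw => by
      rw [LinearEquiv.mul_apply, yt_apply] at hw
      exact hqinj (Eq.trans hw (map_zero p').symm))
    have h5 : ∀ w, p w = c • p' w := by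
      intro w
      have h4 := hc w
      rw [LinearEquiv.mul_apply, yt_apply] at h4
      exact h4
    refine ⟨p', c, 1 - c' * c, hqinj, fun w => Prod.ext (h5 w) ?_⟩
    rw [hra]
    have h6 : r w = p' w - c' • p w := by rw [hp', LinearMap.add_apply, LinearMap.smul_apply, add_sub_cancel_right]
    rw [h6, h5]
    module

/-- all elements preserve the tensor decomposition -/
theorem HypU.tensor (hM : HypU hF M) (hH : Hyp (kq hF) M)
    (hS : ∀ (z : Module.End F (Fin 3 → F)) (B : (Module.End F (Fin 3 → F))ˣ), Q (kq hF) M z B →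
      IsK (kq hF) (B : Module.End F (Fin 3 → F)) → IsK (kq hF) z) (hq : 3 ≤ q)
    {g : ((Fin 3 → F) × (Fin 3 → F)) ≃ₗ[F] ((Fin 3 → F) × (Fin 3 → F))} (hg : g ∈ M) :
    ∃ (p : Module.End F (Fin 3 → F)) (a b c d : F), ∀ v, g v = (a • p v.1 + b • p v.2, c • p v.1 + d • p v.2) := by
  obtain ⟨w0, hw0⟩ : ∃ w : Fin 3 → F, w ≠ 0 := ⟨fun _ => 1, fun h => one_ne_zero (congrFun h 0)⟩
  obtain ⟨p, a, c, hq', h1⟩ := hM.good hH hS hq hg
  obtain ⟨p₂, b, d, hq₂, h2⟩ := hM.good hH hS hq (M.mul_mem hg hM.wy_mem)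
  obtain ⟨p₃, x, y, hq₃, h3⟩ := hM.good hH hS hq (M.mul_mem hg (hM.y 1 (kq hF).one_mem))
  have h2' : ∀ w, g (0, w) = (b • p₂ w, d • p₂ w) := by
    intro w
    have := h2 w
    rw [LinearEquiv.mul_apply, wy_apply] at this
    simpa only [neg_zero] using this
  have h3' : ∀ w, g (w, w) = (x • p₃ w, y • p₃ w) := by
    intro w
    have := h3 w
    rw [LinearEquiv.mul_apply, yt_apply, one_smul] at this
    simpa only [zero_add, Module.End.one_apply] using this
  have hgv : ∀ v : (Fin 3 → F) × (Fin 3 → F), g v = (a • p v.1 + b • p₂ v.2, c • p v.1 + d • p₂ v.2) := by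
    intro v
    have : v = (v.1, 0) + (0, v.2) := by ext <;> simp
    conv_lhs => rw [this]
    rw [map_add, h1, h2', Prod.mk_add_mk]
  have e1 : ∀ w, a • p w + b • p₂ w = x • p₃ w := fun w => by
    have := (hgv (w, w)).symm.trans (h3' w)
    exact congrArg Prod.fst this
  have e2 : ∀ w, c • p w + d • p₂ w = y • p₃ w := fun w => by
    have := (hgv (w, w)).symm.trans (h3' w)
    exact congrArg Prod.snd this
  have e3 : ∀ w, (y * a - x * c) • p w + (y * b - x * d) • p₂ w = 0 := by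
    intro w
    have h4 : y • (a • p w + b • p₂ w) - x • (c • p w + d • p₂ w) = 0 := by rw [e1, e2]; module
    rw [← h4]; module
  have hq0 : p w0 ≠ 0 := fun h => hw0 (hq' (h.trans (map_zero p).symm))
  have hq20 : p₂ w0 ≠ 0 := fun h => hw0 (hq₂ (h.trans (map_zero p₂).symm))
  -- `(x, y) ≠ 0`
  have hxy : x ≠ 0 ∨ y ≠ 0 := by
    by_contra hcon
    push Not at hcon
    have h4 := h3' w0
    rw [hcon.1, hcon.2, zero_smul] at h4
    have h5 := g.injective (h4.trans (map_zero g).symm)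
    exact hw0 (congrArg Prod.fst h5)
  have hne : y * b - x * d ≠ 0 := by
    intro h0
    have h4 := e3 w0
    rw [h0, zero_smul, add_zero] at h4
    have h5 : y * a - x * c = 0 := (smul_eq_zero.1 h4).resolve_right hq0
    -- the image is too small
    have h6 : ∀ v : (Fin 3 → F) × (Fin 3 → F), y • (g v).1 = x • (g v).2 := by
      intro v
      rw [hgv]
      simp only [smul_add, smul_smul]
      rw [show y * a = x * c by linear_combination h5, show y * b = x * d by linear_combination h0]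
    rcases hxy with hx | hy
    · obtain ⟨v, hv⟩ := g.surjective (0, w0)
      have := h6 v
      rw [hv] at this
      simp only [smul_zero] at this
      exact hw0 ((smul_eq_zero.1 this.symm).resolve_left hx)
    · obtain ⟨v, hv⟩ := g.surjective (w0, 0)
      have := h6 v
      rw [hv] at this
      simp only [smul_zero] at this
      exact hw0 ((smul_eq_zero.1 this).resolve_left hy)
  set s := -(y * a - x * c) / (y * b - x * d) with hs
  have h7 : ∀ w, p₂ w = s • p w := by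
    intro w
    have h4 := e3 w
    have h5 : (y * b - x * d) • p₂ w = (-(y * a - x * c)) • p w := by
      rw [neg_smul]
      exact eq_neg_of_add_eq_zero_right h4
    have h6 := congrArg (fun v => (y * b - x * d)⁻¹ • v) h5
    simp only [smul_smul] at h6
    rw [inv_mul_cancel₀ hne, one_smul] at h6
    rw [h6, hs]
    congr 1
    field_simp
  refine ⟨p, a, b * s, c, d * s, fun v => ?_⟩
  rw [hgv, h7, smul_smul, smul_smul]

end Cfsg.Agent.SmallDim.UT
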