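import Cfsg.Agent.SmallDim.UT3
import Cfsg.Agent.Orth.Basic

set_option autoImplicit false
set_option linter.unusedSectionVars false
set_option linter.unusedVariables false

/-!
Groups acting on `W × W`, `W` unitary of dimension three: the unipotent elements over `W × 0`
are scalar, or there are transvections.
-/

namespace Cfsg.Agent.SmallDim.UT

open Module Cfsg.Agent.SmallDim.TenB Cfsg.Agent.Uni

variable {F : Type*} [Field F] [Fintype F] {q : ℕ}

local notation "⟪" x ", " y "⟫" => Cfsg.hermForm 3 F q x y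

variable {hF : Fintype.card F = q ^ 2}
  {M : Subgroup (((Fin 3 → F) × (Fin 3 → F)) ≃ₗ[F] ((Fin 3 → F) × (Fin 3 → F)))}

theorem HypU.add (hM : HypU hF M) {z z' : Module.End F (Fin 3 → F)} (h : xt z ∈ M) (h' : xt z' ∈ M) : xt (z + z') ∈ M := by
  rw [← xt_mul]; exact M.mul_mem h h'

theorem HypU.neg (hM : HypU hF M) {z : Module.End F (Fin 3 → F)} (h : xt z ∈ M) : xt (-z) ∈ M := by
  rw [← xt_inv]; exact M.inv_mem h

/-- the torus -/
theorem HypU.sq (hM : HypU hF M) {z : Module.End F (Fin 3 → F)} (h : xt z ∈ M) {l : F} (hlk : l ∈ kq hF) (hl0 : l ≠ 0) : xt ((l ^ 2) • z) ∈ M := by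
  have hlik : l⁻¹ ∈ kq hF := (kq hF).inv_mem hlk
  have h1k : (1 : F) ∈ kq hF := (kq hF).one_mem
  have hnk : (-1 : F) ∈ kq hF := (kq hF).neg_mem (kq hF).one_mem
  have hlink : -l⁻¹ ∈ kq hF := (kq hF).neg_mem hlik
  set hh : ((Fin 3 → F) × (Fin 3 → F)) ≃ₗ[F] ((Fin 3 → F) × (Fin 3 → F)) := xt (l • (1 : Module.End F (Fin 3 → F))) * yt ((-l⁻¹) • (1 : Module.End F (Fin 3 → F))) * xt (l • (1 : Module.End F (Fin 3 → F))) *
    (xt ((-1 : F) • (1 : Module.End F (Fin 3 → F))) * yt ((1 : F) • (1 : Module.End F (Fin 3 → F))) * xt ((-1 : F) • (1 : Module.End F (Fin 3 → F)))) with hhd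
  have hh1 : hh ∈ M := by
    rw [hhd]
    exact M.mul_mem (M.mul_mem (M.mul_mem (hM.x _ hlk) (hM.y _ hlink)) (hM.x _ hlk))
      (M.mul_mem (M.mul_mem (hM.x _ hnk) (hM.y _ h1k)) (hM.x _ hnk))
  have hhv : ∀ v, hh v = (l • v.1, l⁻¹ • v.2) := by
    intro v
    rw [hhd]
    simp only [LinearEquiv.mul_apply, xt_apply, yt_apply, LinearMap.smul_apply, Module.End.one_apply]
    ext i
    · simp only [Pi.add_apply, Pi.smul_apply, smul_eq_mul]
      field_simp; ring
    · simp only [Pi.add_apply, Pi.smul_apply, smul_eq_mul]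
      field_simp; ring
  have hfin : hh * xt z * hh⁻¹ = xt ((l ^ 2) • z) := by
    rw [mul_inv_eq_iff_eq_mul]
    apply LinearEquiv.ext; intro v
    simp only [LinearEquiv.mul_apply, xt_apply, hhv, LinearMap.smul_apply, map_smul]
    ext i
    · simp only [Pi.add_apply, Pi.smul_apply, smul_eq_mul]
      field_simp
    · rfl
  rw [← hfin]
  exact M.mul_mem (M.mul_mem hh1 h) (M.inv_mem hh1)

theorem HypU.smul (hM : HypU hF M) {z : Module.End F (Fin 3 → F)} (h : xt z ∈ M) {c : F} (hc : c ∈ kq hF) : xt (c • z) ∈ M := by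
  have hsq : ∀ t : F, t ∈ kq hF → xt ((t ^ 2) • z) ∈ M := by
    intro t htk
    by_cases ht : t = 0
    · rw [ht, zero_pow two_ne_zero, zero_smul, xt_zero]; exact M.one_mem
    · exact hM.sq h htk ht
  by_cases h2 : (2 : F) = 0
  · have hev : Even q := by
      by_contra ho
      rw [Nat.not_even_iff_odd] at ho
      exact Cfsg.Agent.Orth.two_ne_zero_of_odd (F := F) (by rw [hF]; exact ho.pow) h2
    obtain ⟨m, hm⟩ := hev
    have h3 := hsq (c ^ m) ((kq hF).pow_mem hc m)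
    rwa [← pow_mul, show m * 2 = q by omega, mem_kq.1 hc] at h3
  · have h2k : (2 : F) ∈ kq hF := by
      have := (kq hF).add_mem (kq hF).one_mem (kq hF).one_mem
      rwa [one_add_one_eq_two] at this
    have e : c • z = ((c + 1) / 2) ^ 2 • z + -(((c - 1) / 2) ^ 2 • z) := by
      apply LinearMap.ext; intro w
      rw [LinearMap.add_apply, LinearMap.neg_apply, LinearMap.smul_apply, LinearMap.smul_apply, LinearMap.smul_apply,
        ← sub_eq_add_neg, ← sub_smul]
      congr 1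
      field_simp
      ring
    rw [e]
    exact hM.add (hsq _ ((kq hF).div_mem ((kq hF).add_mem hc (kq hF).one_mem) h2k))
      (hM.neg (hsq _ ((kq hF).div_mem ((kq hF).sub_mem hc (kq hF).one_mem) h2k)))

theorem HypU.conj (hM : HypU hF M) {z z' : Module.End F (Fin 3 → F)} (h : xt z ∈ M) {s : Cfsg.SU 3 F q}
    (hs : ∀ w, z' (act s w) = act s (z w)) : xt z' ∈ M := by
  obtain ⟨d, hd, hdv⟩ := hM.su s
  have h2 : d * xt z * d⁻¹ = xt z' := by
    rw [mul_inv_eq_iff_eq_mul]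
    apply LinearEquiv.ext; intro v
    simp only [LinearEquiv.mul_apply, xt_apply, hdv, act_add, hs]
  rw [← h2]
  exact M.mul_mem (M.mul_mem hd h) (M.inv_mem hd)

variable (q) in
/-- the rank one operator -/
def Eu (u : Fin 3 → F) : Module.End F (Fin 3 → F) where
  toFun x := ⟪x, u⟫ • u
  map_add' x y := by rw [hermForm_add_left, add_smul]
  map_smul' c x := by rw [hermForm_smul_left, RingHom.id_apply, mul_smul]

@[simp] theorem Eu_apply (u x : Fin 3 → F) : Eu q u x = ⟪x, u⟫ • u := rfl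

theorem SA.self_mem (hF : Fintype.card F = q ^ 2) {z : Module.End F (Fin 3 → F)} (h : SA q z) (u : Fin 3 → F) :
    (⟪z u, u⟫) ^ q = ⟪z u, u⟫ := by
  rw [hermForm_symm hF, h]

/-- root elements -/
theorem HypU.Eu_mem (hM : HypU hF M) (hq : 3 ≤ q) {z : Module.End F (Fin 3 → F)} (h : xt z ∈ M) {u : Fin 3 → F} (hu : ⟪u, u⟫ = 0)
    (hzu : ⟪z u, u⟫ ≠ 0) {c : F} (hc : c ∈ kq hF) : xt (c • Eu q u) ∈ M := by
  have hsa := hM.selfadj h
  obtain ⟨l, hl, hl0, hl1⟩ := exists_l hF hq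
  obtain ⟨a, ha0, haq⟩ := exists_skew hF
  -- the elements
  have key : ∀ s : F, s ∈ kq hF → xt (s • (a • (Eu q u * z - z * Eu q u)) - s ^ 2 • ((a ^ 2 * ⟪z u, u⟫) • Eu q u)) ∈ M := by
    intro s hs
    obtain ⟨g, hg⟩ := exists_eich hF u 0 (s * a) hu (hermForm_zero_right hF _) (by
      rw [hermForm_zero_left, mul_pow, mem_kq.1 hs, haq]; ring)
    have hg' := (isEich_zero_iff hF g u _).1 hg
    have h1 := hM.conj (z' := z + (s • (a • (Eu q u * z - z * Eu q u)) - s ^ 2 • ((a ^ 2 * ⟪z u, u⟫) • Eu q u))) h (s := g) (by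
      intro w
      rw [hg', hg']
      simp only [LinearMap.add_apply, LinearMap.sub_apply, LinearMap.smul_apply, Module.End.mul_apply, Eu_apply, map_add, map_smul,
        hermForm_add_left, hermForm_smul_left, hu]
      module)
    have h2 := hM.add h1 (hM.neg h)
    rwa [add_right_comm, add_neg_cancel, zero_add] at h2
  set A := a • (Eu q u * z - z * Eu q u) with hA
  set b := a ^ 2 * ⟪z u, u⟫ with hb
  have k1 := hM.smul (key 1 (kq hF).one_mem) hl
  have k2 := hM.neg (key l hl)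
  have k3 := hM.add k1 k2
  have e : l • ((1 : F) • A - (1 : F) ^ 2 • (b • Eu q u)) + -(l • A - l ^ 2 • (b • Eu q u)) = ((l ^ 2 - l) * b) • Eu q u := by
    module
  rw [e] at k3
  have hbk : b ∈ kq hF := by
    refine (kq hF).mul_mem ?_ (hsa.self_mem hF u)
    rw [mem_kq, ← pow_mul, mul_comm, pow_mul, haq, neg_sq]
  have hlk : l ^ 2 - l ∈ kq hF := (kq hF).sub_mem ((kq hF).pow_mem hl 2) hl
  have hne : (l ^ 2 - l) * b ≠ 0 := by
    refine mul_ne_zero ?_ (mul_ne_zero (pow_ne_zero _ ha0) hzu)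
    have : l ^ 2 - l = l * (l - 1) := by ring
    rw [this]; exact mul_ne_zero hl0 (sub_ne_zero.2 hl1)
  have k4 := hM.smul k3 ((kq hF).mul_mem hc ((kq hF).inv_mem ((kq hF).mul_mem hlk hbk)))
  rwa [smul_smul, mul_assoc, inv_mul_cancel₀ hne, mul_one] at k4

/-- self-adjoint operators vanishing on isotropic vectors are scalar -/
theorem SA.scalar_of_iso (hF : Fintype.card F = q ^ 2) {z : Module.End F (Fin 3 → F)} (hz : SA q z)
    (h : ∀ u, ⟪u, u⟫ = 0 → ⟪z u, u⟫ = 0) : IsK (kq hF) z := by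
  obtain ⟨e, he0, hee⟩ := exists_isotropic (F := F) (n := 3) hF (by norm_num)
  obtain ⟨e', x, fr⟩ := exists_frU hF he0 hee
  have hsym : ∀ u v, ⟪z v, u⟫ = (⟪z u, v⟫) ^ q := fun u v => by rw [hermForm_symm hF, hz]
  obtain ⟨A, hA⟩ : ∃ A, A = ⟪z e, e'⟫ := ⟨_, rfl⟩
  obtain ⟨B, hB⟩ : ∃ B, B = ⟪z e, x⟫ := ⟨_, rfl⟩
  obtain ⟨C, hC⟩ : ∃ C, C = ⟪z x, e'⟫ := ⟨_, rfl⟩
  obtain ⟨D, hD⟩ : ∃ D, D = ⟪z x, x⟫ := ⟨_, rfl⟩
  have z1 := h e fr.ee
  have z2 := h e' fr.e'e'
  have hA' : ⟪z e', e⟫ = A ^ q := by rw [hA]; exact hsym _ _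
  have hB' : ⟪z x, e⟫ = B ^ q := by rw [hB]; exact hsym _ _
  have hC' : ⟪z e', x⟫ = C ^ q := by rw [hC]; exact hsym _ _
  -- the general isotropic vector
  have key : ∀ t s : F, s + s ^ q + t ^ (q + 1) = 0 →
      t ^ q * B + t * B ^ q + s ^ q * A + s * A ^ q + t ^ (q + 1) * D + t * s ^ q * C + s * t ^ q * C ^ q = 0 := by
    intro t s hts
    have h1 := h (e + t • x + s • e') (by
      simp only [hermForm_add_left, hermForm_add_right hF, hermForm_smul_left, hermForm_smul_right, fr.ee, fr.ee', fr.e'e', fr.e'e,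
        fr.xe, fr.ex, fr.xe', fr.e'x, fr.xx]
      linear_combination hts)
    simp only [map_add, map_smul, hermForm_add_left, hermForm_add_right hF, hermForm_smul_left, hermForm_smul_right, z1, z2, hA', hB', hC',
      ← hA, ← hB, ← hC, ← hD] at h1
    linear_combination h1
  obtain ⟨a, ha0, haq⟩ := exists_skew hF
  have hAq : A ^ q = A := by
    have h1 := key 0 a (by rw [haq, zero_pow (by omega)]; ring)
    rw [zero_pow (q_ne_zero hF), zero_pow (by omega), haq] at h1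
    have h2 : a * (A ^ q - A) = 0 := by linear_combination h1
    exact sub_eq_zero.1 ((mul_eq_zero.1 h2).resolve_left ha0)
  -- `C = 0`
  have hC1 : ∀ t : F, t * C = t ^ q * C ^ q := by
    intro t
    obtain ⟨s, hs⟩ := exists_trace_eq hF (c := -t ^ (q + 1)) (by rw [neg_pow_q hF, norm_pow_q hF])
    have h1 := key t s (by rw [hs]; ring)
    have h2 := key t (s + a) (by rw [add_pow_q hF, haq]; linear_combination hs)
    rw [add_pow_q hF, haq, hAq] at h2
    rw [hAq] at h1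
    have h3 : a * (t ^ q * C ^ q - t * C) = 0 := by linear_combination h2 - h1
    have h4 := (mul_eq_zero.1 h3).resolve_left ha0
    linear_combination -h4
  have hC0 : C = 0 := by
    obtain ⟨θ, hθ⟩ := exists_pow_q_ne hF
    have h1 := hC1 1
    rw [one_pow, one_mul, one_mul] at h1
    have h2 := hC1 θ
    rw [← h1] at h2
    have h3 : (θ ^ q - θ) * C = 0 := by linear_combination -h2
    exact (mul_eq_zero.1 h3).resolve_left (sub_ne_zero.2 hθ)
  -- `B = 0`
  have hB1 : ∀ t : F, t ^ q * B + t * B ^ q + t ^ (q + 1) * (D - A) = 0 := by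
    intro t
    obtain ⟨s, hs⟩ := exists_trace_eq hF (c := -t ^ (q + 1)) (by rw [neg_pow_q hF, norm_pow_q hF])
    have h1 := key t s (by rw [hs]; ring)
    rw [hC0, hAq, zero_pow (q_ne_zero hF)] at h1
    linear_combination h1 - A * hs
  obtain ⟨θ, hθ, hθ2⟩ := exists_norm_one_sq_ne hF
  have hθ0 : θ ≠ 0 := by
    rintro rfl
    rw [zero_pow (by omega)] at hθ
    exact zero_ne_one hθ
  have hθ1 : θ ≠ 1 := by rintro rfl; exact hθ2 (one_pow 2)
  have hθq : θ ^ q * θ = 1 := by rw [← pow_succ]; exact hθ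
  have b1 := hB1 1
  have b2 := hB1 θ
  have b3 := hB1 (θ ^ 2)
  have e3 : (θ ^ 2) ^ (q + 1) = 1 := by rw [← pow_mul, mul_comm, pow_mul, hθ, one_pow]
  have e4 : (θ ^ 2) ^ q = (θ ^ q) ^ 2 := by rw [← pow_mul, mul_comm, pow_mul]
  rw [one_pow, one_pow, one_mul, one_mul, one_mul] at b1
  rw [hθ, one_mul] at b2
  rw [e3, e4, one_mul] at b3
  have hB0 : B = 0 := by
    -- multiply by `θ`, `θ ^ 2`
    have c2 : (θ - 1) * (θ * B ^ q - B) = 0 := by linear_combination θ * b2 - θ * b1 - B * hθq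
    have c3 : (θ ^ 2 - 1) * (θ ^ 2 * B ^ q - B) = 0 := by
      linear_combination θ ^ 2 * b3 - θ ^ 2 * b1 - B * (θ ^ q * θ + 1) * hθq
    have d2 := (mul_eq_zero.1 c2).resolve_left (sub_ne_zero.2 hθ1)
    have d3 := (mul_eq_zero.1 c3).resolve_left (sub_ne_zero.2 hθ2)
    have d4 : (θ - 1) * B = 0 := by linear_combination d3 - θ * d2
    exact (mul_eq_zero.1 d4).resolve_left (sub_ne_zero.2 hθ1)
  have hDA : D = A := by
    rw [hB0, zero_pow (q_ne_zero hF)] at b1
    linear_combination b1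
  refine ⟨A, hAq, ?_⟩
  apply LinearMap.ext; intro w
  rw [LinearMap.smul_apply, Module.End.one_apply]
  apply ext_form hF
  intro v
  obtain ⟨α, β, γ, rfl⟩ := fr.span w
  obtain ⟨α', β', γ', rfl⟩ := fr.span v
  simp only [map_add, map_smul, hermForm_add_left, hermForm_add_right hF, hermForm_smul_left, hermForm_smul_right, z1, z2, hA', hB', hC',
    ← hA, ← hB, ← hC, ← hD, fr.ee, fr.ee', fr.e'e', fr.e'e, fr.xe, fr.ex, fr.xe', fr.e'x, fr.xx, hB0, hC0, hDA, hAq,
    zero_pow (q_ne_zero hF)]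
  ring

/-- the dichotomy -/
theorem HypU.dich (hM : HypU hF M) (hq : 3 ≤ q) :
    Hyp (kq hF) M ∨ ∃ u : Fin 3 → F, u ≠ 0 ∧ ⟪u, u⟫ = 0 ∧ ∀ c : F, c ∈ kq hF → xt (c • Eu q u) ∈ M := by
  by_cases h : ∀ z : Module.End F (Fin 3 → F), xt z ∈ M → ∀ u, ⟪u, u⟫ = 0 → ⟪z u, u⟫ = 0
  · exact Or.inl ⟨hM.x, hM.y, fun z hz => (hM.selfadj hz).scalar_of_iso hF (h z hz)⟩
  · right
    push Not at h
    obtain ⟨z, hz, u, hu, hzu⟩ := h
    have hu0 : u ≠ 0 := by rintro rfl; rw [map_zero, hermForm_zero_left] at hzu; exact hzu rfl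
    exact ⟨u, hu0, hu, fun c hc => hM.Eu_mem hq hz hu hzu hc⟩

/-- the torus argument, `q ≥ 4` -/
theorem HypU.scalar4 (hM : HypU hF M) (hH : Hyp (kq hF) M) (hq : 4 ≤ q) (z : Module.End F (Fin 3 → F)) (B : (Module.End F (Fin 3 → F))ˣ)
    (h : Q (kq hF) M z B) (hB : IsK (kq hF) (B : Module.End F (Fin 3 → F))) : IsK (kq hF) z := by
  obtain ⟨l, hl, hl0, hl2⟩ : ∃ l : F, l ^ q = l ∧ l ≠ 0 ∧ l ^ 2 ≠ 1 := by
    by_contra hcon
    push Not at hcon
    have h1 : ∀ a : F, a ≠ 0 → a ^ ((q + 1) * 2) = 1 := by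
      intro a ha
      rw [pow_mul]
      exact hcon (a ^ (q + 1)) (norm_pow_q hF a) (pow_ne_zero _ ha)
    classical
    have h2 := IsCyclic.card_pow_eq_one_le (α := Fˣ) (n := (q + 1) * 2) (by omega)
    have h3 : (Finset.univ.filter fun a : Fˣ => a ^ ((q + 1) * 2) = 1) = Finset.univ := by
      rw [Finset.filter_eq_self]
      intro a _
      apply Units.ext
      rw [Units.val_pow_eq_pow_val, Units.val_one]
      exact h1 a a.ne_zero
    rw [h3, Finset.card_univ, Fintype.card_units, hF] at h2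
    have h4 : 4 * q ≤ q ^ 2 := by rw [pow_two]; exact Nat.mul_le_mul_right q hq
    omega
  have hn : Nontrivial (Module.End F (Fin 3 → F)) := inferInstance
  exact h.scalar hH hl hl0 hl2 hB B.ne_zero

end Cfsg.Agent.SmallDim.UT
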