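import Cfsg.Agent.SmallDim.UT5
import Cfsg.Agent.Uni.Stab

set_option autoImplicit false
set_option linter.unusedSectionVars false
set_option linter.unusedVariables false

/-!
Groups acting on `W × W`, `W` unitary of dimension three over the field of nine elements.
-/

namespace Cfsg.Agent.SmallDim.UT

open Module Cfsg.Agent.SmallDim.TenB Cfsg.Agent.Uni

variable {F : Type*} [Field F] [Fintype F] {q : ℕ}

local notation "⟪" x ", " y "⟫" => Cfsg.hermForm 3 F q x y

/-- common isotropic vectors of two hermitian forms -/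
theorem exists_common (hF : Fintype.card F = q ^ 2) {z : Module.End F (Fin 3 → F)} (hz : SA q z) :
    ∃ u : Fin 3 → F, u ≠ 0 ∧ ⟪u, u⟫ = 0 ∧ ⟪z u, u⟫ = 0 := by
  classical
  by_contra hcon
  push Not at hcon
  have hq2 := two_le_q hF
  set m := LinearMap.toMatrix' z with hm
  have hzm : ∀ u i, z u i = ∑ j, m i j * u j := by
    intro u i
    have : z u = Matrix.mulVec m u := by rw [hm, ← Matrix.toLin'_apply, Matrix.toLin'_toMatrix']
    rw [this]; rfl
  let A : MvPolynomial (Fin 3) F := ∑ i, MvPolynomial.X i * MvPolynomial.X i ^ q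
  let G : MvPolynomial (Fin 3) F := ∑ i, (∑ j, MvPolynomial.C (m i j) * MvPolynomial.X j) * MvPolynomial.X i ^ q
  let P : MvPolynomial (Fin 3) F := (1 - A ^ (q - 1)) * (1 - G ^ (q - 1))
  have hXq : ∀ i : Fin 3, (MvPolynomial.X i ^ q : MvPolynomial (Fin 3) F).totalDegree ≤ q := by
    intro i
    exact (MvPolynomial.totalDegree_X_pow i q).le
  have hA : A.totalDegree ≤ q + 1 := by
    apply MvPolynomial.totalDegree_finsetSum_le
    intro i _
    refine (MvPolynomial.totalDegree_mul _ _).trans ?_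
    have h1 : (MvPolynomial.X i : MvPolynomial (Fin 3) F).totalDegree ≤ 1 := (MvPolynomial.totalDegree_X i).le
    have h2 := hXq i
    omega
  have hG : G.totalDegree ≤ q + 1 := by
    apply MvPolynomial.totalDegree_finsetSum_le
    intro i _
    refine (MvPolynomial.totalDegree_mul _ _).trans ?_
    have h1 : (∑ j, MvPolynomial.C (m i j) * MvPolynomial.X j : MvPolynomial (Fin 3) F).totalDegree ≤ 1 := by
      apply MvPolynomial.totalDegree_finsetSum_le
      intro j _
      refine (MvPolynomial.totalDegree_mul _ _).trans ?_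
      have h3 : (MvPolynomial.X j : MvPolynomial (Fin 3) F).totalDegree ≤ 1 := (MvPolynomial.totalDegree_X j).le
      have h4 : (MvPolynomial.C (m i j) : MvPolynomial (Fin 3) F).totalDegree = 0 := MvPolynomial.totalDegree_C _
      omega
    have h2 := hXq i
    omega
  have hone : ∀ T : MvPolynomial (Fin 3) F, T.totalDegree ≤ q + 1 → (1 - T ^ (q - 1)).totalDegree ≤ (q - 1) * (q + 1) := by
    intro T hT
    refine (MvPolynomial.totalDegree_sub _ _).trans ?_
    have h1 : (1 : MvPolynomial (Fin 3) F).totalDegree = 0 := MvPolynomial.totalDegree_one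
    have h2 : (T ^ (q - 1)).totalDegree ≤ (q - 1) * (q + 1) :=
      (MvPolynomial.totalDegree_pow _ _).trans (Nat.mul_le_mul_left _ hT)
    rw [h1]
    exact max_le (Nat.zero_le _) h2
  have hP : P.totalDegree < (Fintype.card F - 1) * Fintype.card (Fin 3) := by
    have h1 : P.totalDegree ≤ (q - 1) * (q + 1) + (q - 1) * (q + 1) :=
      (MvPolynomial.totalDegree_mul _ _).trans (Nat.add_le_add (hone A hA) (hone G hG))
    have h2 : Fintype.card F - 1 = (q - 1) * (q + 1) := by
      rw [hF]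
      obtain ⟨r, rfl⟩ : ∃ r, q = r + 1 := ⟨q - 1, by omega⟩
      have : (r + 1) ^ 2 = (r + 1 - 1) * (r + 1 + 1) + 1 := by
        rw [Nat.add_sub_cancel]; ring
      omega
    have h3 : 0 < (q - 1) * (q + 1) := Nat.mul_pos (by omega) (by omega)
    rw [h2, Fintype.card_fin]
    omega
  have hsum := MvPolynomial.sum_eval_eq_zero P hP
  have hev : ∀ x : Fin 3 → F, MvPolynomial.eval x P = (1 - ⟪x, x⟫ ^ (q - 1)) * (1 - ⟪z x, x⟫ ^ (q - 1)) := by
    intro x
    have e1 : MvPolynomial.eval x A = ⟪x, x⟫ := by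
      simp only [A, map_sum, map_mul, map_pow, MvPolynomial.eval_X]
      rfl
    have e2 : MvPolynomial.eval x G = ⟪z x, x⟫ := by
      rw [hermForm_def]
      simp only [G, map_sum, map_mul, map_pow, MvPolynomial.eval_X, MvPolynomial.eval_C, hzm]
    simp only [P, map_mul, map_sub, map_one, map_pow, e1, e2]
  have hval : ∀ c : F, c ^ q = c → c ≠ 0 → (1 : F) - c ^ (q - 1) = 0 := by
    intro c hc hc0
    have h1 : c * c ^ (q - 1) = c * 1 := by
      rw [← pow_succ', show q - 1 + 1 = q by omega, hc, mul_one]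
    rw [mul_left_cancel₀ hc0 h1, sub_self]
  have hzero : ∀ x : Fin 3 → F, x ≠ 0 → MvPolynomial.eval x P = 0 := by
    intro x hx
    rw [hev]
    by_cases h1 : ⟪x, x⟫ = 0
    · rw [hval _ (hz.self_mem hF x) (hcon x hx h1), mul_zero]
    · rw [hval _ (hermForm_self_pow_q hF x) h1, zero_mul]
  rw [Finset.sum_eq_single 0 (fun x _ hx => hzero x hx) (fun h => absurd (Finset.mem_univ _) h), hev, map_zero,
    hermForm_zero_left, zero_pow (by omega), sub_zero, one_mul] at hsum
  exact one_ne_zero hsum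

/-- transitivity -/
theorem exists_su (hF : Fintype.card F = q ^ 2) {n k : ℕ} {x y : Fin k → Fin n → F} (hx : LinearIndependent F x)
    (hy : LinearIndependent F y) (hxy : ∀ i j, Cfsg.hermForm n F q (x i) (x j) = Cfsg.hermForm n F q (y i) (y j)) {w : Fin n → F}
    (hw : Cfsg.hermForm n F q w w = 1) (hwy : ∀ i, Cfsg.hermForm n F q (y i) w = 0) :
    ∃ s : Cfsg.SU n F q, ∀ i, act s (x i) = y i := by
  obtain ⟨g, hg⟩ := exists_GU_of_family hF hx hy hxy
  set δ : F := ((g : GL (Fin n) F) : Matrix (Fin n) (Fin n) F).det with hδ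
  have hδn : δ ^ (q + 1) = 1 := Pres.det_norm hF (GU_pres g)
  have hδ0 : δ ≠ 0 := by
    intro h
    rw [h, zero_pow (by omega)] at hδn
    exact zero_ne_one hδn
  obtain ⟨g2, hg2, hdet2⟩ := exists_grefl hF hw (a := δ⁻¹) (by rw [inv_pow, hδn, inv_one])
  set g1 : Cfsg.GU n F q := g2 * g with hg1
  have hg1y : ∀ i, gact g1 (x i) = y i := by
    intro i
    have h1 : gact g (x i) = y i := hg i
    rw [hg1, gact_mul, h1, hg2, hwy, mul_zero, zero_smul, add_zero]
  set M₀ : Matrix (Fin n) (Fin n) F := ((g1 : GL (Fin n) F) : Matrix (Fin n) (Fin n) F) with hM₀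
  have hdet1 : M₀.det = 1 := by
    have h1 : M₀ = ((g2 : GL (Fin n) F) : Matrix (Fin n) (Fin n) F) *
        ((g : GL (Fin n) F) : Matrix (Fin n) (Fin n) F) := rfl
    rw [h1, Matrix.det_mul]
    rw [detHom_coe] at hdet2
    rw [hdet2, ← hδ, inv_mul_cancel₀ hδ0]
  exact ⟨mkSU M₀ (GU_pres g1) hdet1, fun i => hg1y i⟩

/-- the torus element -/
theorem exists_torus (hF : Fintype.card F = q ^ 2) {e e' x : Fin 3 → F} (fr : FrU q e e' x) {μ : F} (hμ : μ ≠ 0) :
    ∃ (s : Cfsg.SU 3 F q) (ν : F), ν ≠ 0 ∧ act s e = (μ ^ q)⁻¹ • e ∧ act s e' = μ • e' ∧ act s x = ν • x := by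
  have hq0 : μ ^ q ≠ 0 := pow_ne_zero _ hμ
  have hli : ∀ a b : F, a ≠ 0 → b ≠ 0 → LinearIndependent F ![a • e, b • e'] := by
    intro a b ha hb
    rw [LinearIndependent.pair_iff]
    intro s t hst
    have h1 := congrArg (fun y => ⟪y, e'⟫) hst
    have h2 := congrArg (fun y => ⟪y, e⟫) hst
    simp only [hermForm_add_left, hermForm_smul_left, hermForm_zero_left, fr.ee, fr.ee', fr.e'e', fr.e'e] at h1 h2
    constructor
    · have : s * a = 0 := by linear_combination h1
      exact (mul_eq_zero.1 this).resolve_right ha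
    · have : t * b = 0 := by linear_combination h2
      exact (mul_eq_zero.1 this).resolve_right hb
  obtain ⟨s, hs⟩ := exists_su hF (x := ![(1 : F) • e, (1 : F) • e']) (y := ![(μ ^ q)⁻¹ • e, μ • e']) (hli 1 1 one_ne_zero one_ne_zero)
    (hli _ _ (inv_ne_zero hq0) hμ) (by
      intro i j
      have e1 : ((μ ^ q)⁻¹) ^ q = μ⁻¹ := by rw [inv_pow, pow_q_pow_q hF]
      fin_cases i <;> fin_cases j
      · simp [hermForm_smul_left, hermForm_smul_right, fr.ee]
      · simp [hermForm_smul_left, hermForm_smul_right, fr.ee', hq0]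
      · simp only [Fin.mk_one, Fin.zero_eta, Matrix.cons_val_one, Matrix.cons_val_zero, hermForm_smul_left, hermForm_smul_right, fr.e'e, e1,
          one_pow, mul_one]
        exact (inv_mul_cancel₀ hμ).symm
      · simp [hermForm_smul_left, hermForm_smul_right, fr.e'e']) (w := x) fr.xx (by
      intro i
      fin_cases i
      · simp [hermForm_smul_left, fr.ex]
      · simp [hermForm_smul_left, fr.e'x])
  have h1 : act s e = (μ ^ q)⁻¹ • e := by simpa using hs 0
  have h2 : act s e' = μ • e' := by simpa using hs 1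
  obtain ⟨α, β, γ, h3⟩ := fr.span (act s x)
  have h4 : ⟪act s x, act s e⟫ = 0 := by rw [act_form, fr.xe]
  have h5 : ⟪act s x, act s e'⟫ = 0 := by rw [act_form, fr.xe']
  rw [h1, h3] at h4
  rw [h2, h3] at h5
  simp only [hermForm_add_left, hermForm_smul_left, hermForm_smul_right, fr.ee, fr.e'e, fr.xe, fr.ee', fr.e'e', fr.xe'] at h4 h5
  have h6 : β = 0 := by
    have : ((μ ^ q)⁻¹) ^ q * β = 0 := by linear_combination h4
    exact (mul_eq_zero.1 this).resolve_left (pow_ne_zero _ (inv_ne_zero hq0))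
  have h7 : α = 0 := by
    have : μ ^ q * α = 0 := by linear_combination h5
    exact (mul_eq_zero.1 this).resolve_left hq0
  rw [h6, h7, zero_smul, zero_smul, zero_add, zero_add] at h3
  refine ⟨s, γ, ?_, h1, h2, h3⟩
  rintro rfl
  rw [zero_smul] at h3
  have h8 := act_form s x x
  rw [h3, hermForm_zero_left, fr.xx] at h8
  exact zero_ne_one h8

variable {hF : Fintype.card F = q ^ 2}
  {M : Subgroup (((Fin 3 → F) × (Fin 3 → F)) ≃ₗ[F] ((Fin 3 → F) × (Fin 3 → F)))}

theorem Q.one_of_scalar {z : Module.End F (Fin 3 → F)} {B : (Module.End F (Fin 3 → F))ˣ} (h : Q (kq hF) M z B) {b : F} (hbk : b ∈ kq hF)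
    (hb0 : b ≠ 0) (hb : (B : Module.End F (Fin 3 → F)) = b • 1) : Q (kq hF) M z 1 := by
  obtain ⟨g, hg, κ, hκ, hκ0, h⟩ := h
  refine ⟨g, hg, κ * b⁻¹, (kq hF).mul_mem hκ ((kq hF).inv_mem hbk), mul_ne_zero hκ0 (inv_ne_zero hb0), fun t ht => ?_⟩
  have h1 := h (b⁻¹ * t) ((kq hF).mul_mem ((kq hF).inv_mem hbk) ht)
  rw [hb, smul_smul] at h1
  rw [Units.val_one]
  have e1 : b⁻¹ * t * b = t := by field_simp
  have e2 : κ * b⁻¹ * t = κ * (b⁻¹ * t) := by ring
  rw [e1] at h1
  rw [e2]; exact h1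

theorem Q.conj_su (hM : HypU hF M) {z z' : Module.End F (Fin 3 → F)} (h : Q (kq hF) M z 1) {s : Cfsg.SU 3 F q}
    (hs : ∀ w, z' (act s w) = act s (z w)) : Q (kq hF) M z' 1 := by
  obtain ⟨d, hd, hdv⟩ := hM.su s
  obtain ⟨g, hg, κ, hκ, hκ0, h⟩ := h
  refine ⟨d * g, M.mul_mem hd hg, κ, hκ, hκ0, fun t ht => ?_⟩
  have h1 := h t ht
  rw [Units.val_one] at h1 ⊢
  have h2 : xt z' * yt (t • (1 : Module.End F (Fin 3 → F))) * xt (-z') * d = d * (xt z * yt (t • (1 : Module.End F (Fin 3 → F))) * xt (-z)) := by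
    apply LinearEquiv.ext; intro v
    simp only [LinearEquiv.mul_apply, xt_apply, yt_apply, hdv, LinearMap.neg_apply, LinearMap.smul_apply, Module.End.one_apply, map_add,
      map_smul, map_neg, act_add, act_smul, act_neg, hs]
  have h3 : xt z' * yt (t • (1 : Module.End F (Fin 3 → F))) * xt (-z') = d * (xt z * yt (t • (1 : Module.End F (Fin 3 → F))) * xt (-z)) * d⁻¹ := by
    rw [← h2]; group
  rw [h3, h1]; group

/-- nilpotent differences vanish -/
theorem Q.nil (hM : HypU hF M) (hH : Hyp (kq hF) M) (hq : q = 3) {z z' : Module.End F (Fin 3 → F)} (h : Q (kq hF) M z 1)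
    (h' : Q (kq hF) M z' 1) (hD : (z' - z) ^ 3 = 0) : z' = z := by
  have hchar : (3 : F) = 0 := by
    have h1 : ((Fintype.card F : ℕ) : F) = 0 := FiniteField.cast_card_eq_zero F
    rw [hF, hq] at h1
    have h2 : (3 : F) * 3 = 0 := by
      have : ((3 ^ 2 : ℕ) : F) = 3 * 3 := by norm_num
      rw [← this]; exact h1
    exact (mul_self_eq_zero.1 h2)
  set D := z' - z with hDd
  have h3 : (3 : Module.End F (Fin 3 → F)) = 0 := by
    have : (3 : Module.End F (Fin 3 → F)) = (3 : F) • 1 := by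
      rw [show (3 : F) = 1 + 1 + 1 by norm_num, add_smul, add_smul, one_smul]; norm_num
    rw [this, hchar, zero_smul]
  have hcube : (1 + D) ^ 3 = 1 := by
    have : (1 + D) ^ 3 = 1 + D ^ 3 + 3 * (D + D ^ 2) := by noncomm_ring
    rw [this, hD, h3, zero_mul, add_zero, add_zero]
  let d : (Module.End F (Fin 3 → F))ˣ := ⟨1 + D, (1 + D) ^ 2, by rw [← pow_succ']; exact hcube, by rw [← pow_succ]; exact hcube⟩
  have h4 := h'.add_sc hH (kq hF).one_mem
  obtain ⟨l, hl, hl0, hl1⟩ := exists_l hF (by omega)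
  have h5 := Q.flip hH (d := 1 + D) (d' := d) rfl (by rw [hDd]; module) h h4
  obtain ⟨c, hc, h6⟩ := h5.pow4 hH hl hl0 hl1 ((h5.saB hM hH).inv.pow4 hF)
  have h7 : (1 + D) ^ 2 = c • 1 := by
    rw [← h6, ← pow_mul, Units.val_pow_eq_pow_val]
    change _ = (1 + D) ^ 8
    have : (1 + D) ^ 8 = (1 + D) ^ 3 * (1 + D) ^ 3 * (1 + D) ^ 2 := by rw [← pow_add, ← pow_add]
    rw [this, hcube, one_mul, one_mul]
  have h8 : 1 + D = (c * c) • 1 := by
    have : 1 + D = (1 + D) ^ 3 * (1 + D) := by rw [hcube, one_mul]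
    rw [this, ← pow_succ, show 3 + 1 = 2 + 2 by rfl, pow_add, h7, smul_mul_smul_comm, one_mul]
  have h9 : D = (c * c - 1) • (1 : Module.End F (Fin 3 → F)) := by
    have : D = (1 + D) - 1 := by abel
    rw [this, h8]; module
  have h10 : (c * c - 1) ^ 3 = 0 := by
    have h11 : (c * c - 1) ^ 3 • (1 : Module.End F (Fin 3 → F)) = 0 := by
      rw [← hD, h9, smul_pow, one_pow]
    have h12 := congrFun (LinearMap.congr_fun h11 (fun _ => 1)) 0
    simpa using h12
  rw [pow_eq_zero_iff (by norm_num)] at h10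
  rw [h10, zero_smul] at h9
  exact sub_eq_zero.1 h9

/-- the scalar step for the field of nine elements -/
theorem HypU.scalar3 (hM : HypU hF M) (hH : Hyp (kq hF) M) (hq : q = 3) (z : Module.End F (Fin 3 → F)) (B : (Module.End F (Fin 3 → F))ˣ)
    (h : Q (kq hF) M z B) (hB : IsK (kq hF) (B : Module.End F (Fin 3 → F))) : IsK (kq hF) z := by
  obtain ⟨b, hbk, hb⟩ := hB
  have hb0 : b ≠ 0 := by
    rintro rfl
    rw [zero_smul] at hb
    exact B.ne_zero hb
  have hz1 := h.one_of_scalar hbk hb0 hb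
  have hsa := h.sa hM
  -- conjugates by elements of `SU`
  have hinvl : ∀ (s : Cfsg.SU 3 F q) w, act s⁻¹ (act s w) = w := fun s w => act_inv_act s w
  have hcj : ∀ s : Cfsg.SU 3 F q, ∃ z' : Module.End F (Fin 3 → F), (∀ w, z' w = act s (z (act s⁻¹ w))) ∧ Q (kq hF) M z' 1 := by
    intro s
    let z' : Module.End F (Fin 3 → F) :=
      { toFun := fun w => act s (z (act s⁻¹ w))
        map_add' := fun a b => by simp only [act_add, map_add]
        map_smul' := fun c a => by simp only [act_smul, map_smul, RingHom.id_apply] }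
    exact ⟨z', fun w => rfl, hz1.conj_su hM (s := s) fun w => by
      change act s (z (act s⁻¹ (act s w))) = _
      rw [hinvl]⟩
  obtain ⟨e, he0, hee, hze⟩ := exists_common hF hsa
  obtain ⟨e', x, fr⟩ := exists_frU hF he0 hee
  obtain ⟨a, ha0, haq⟩ := exists_skew hF
  -- `e` is an eigenvector
  obtain ⟨lam, heig, hlamq⟩ : ∃ lam : F, z e = lam • e ∧ lam ^ q = lam := by
    obtain ⟨g, hg⟩ := exists_eich hF e 0 a hee (hermForm_zero_right hF _) (by
      rw [hermForm_zero_left, haq]; ring)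
    have hg' := (isEich_zero_iff hF g e a).1 hg
    have hgi : ∀ w, act g⁻¹ w = w + (-a * ⟪w, e⟫) • e := by
      intro w
      have h1 : act g (w + (-a * ⟪w, e⟫) • e) = w := by
        rw [hg', hermForm_add_left, hermForm_smul_left, hee]
        module
      conv_lhs => rw [← h1]
      rw [hinvl]
    obtain ⟨z', hz', hQz'⟩ := hcj g
    have hDv : ∀ w, (z' - z) w = (a * ⟪z w, e⟫) • e - (a * ⟪w, e⟫) • z e := by
      intro w
      rw [LinearMap.sub_apply, hz', hgi, map_add, map_smul, hg', hermForm_add_left, hermForm_smul_left, hze]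
      module
    have hD2 : ∀ w, (z' - z) ((z' - z) w) = (-(a * ⟪w, e⟫) * (a * ⟪z (z e), e⟫)) • e := by
      intro w
      rw [hDv w, map_sub, map_smul, map_smul, hDv e, hDv (z e), hze, hee]
      module
    have hD3 : (z' - z) ^ 3 = 0 := by
      apply LinearMap.ext; intro w
      rw [pow_succ, pow_two, Module.End.mul_apply, Module.End.mul_apply, hD2, hDv w, hermForm_sub_left, hermForm_smul_left, hermForm_smul_left,
        hee, hze]
      simp
    have hzz := Q.nil hM hH hq hz1 hQz' hD3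
    have h1 := hDv e'
    rw [hzz, sub_self, LinearMap.zero_apply, fr.e'e] at h1
    have h2 : z e = ⟪z e', e⟫ • e := by
      have h3 : a • (⟪z e', e⟫ • e - z e) = 0 := by rw [h1]; module
      exact (sub_eq_zero.1 ((smul_eq_zero.1 h3).resolve_left ha0)).symm
    refine ⟨_, h2, ?_⟩
    rw [hermForm_symm hF, ← hsa, h2, hermForm_smul_left, fr.ee', mul_one]
  have hzxe : ∀ w, ⟪z w, e⟫ = lam * ⟪w, e⟫ := by
    intro w
    rw [hsa, heig, hermForm_smul_right, hlamq]
  obtain ⟨l, hl, hl0, hl1⟩ := exists_l hF (by omega)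
  obtain ⟨μ, hμ⟩ := exists_norm_eq hF hl
  have hμ0 : μ ≠ 0 := by
    rintro rfl
    rw [zero_pow (by omega)] at hμ
    exact hl0 hμ.symm
  -- all isotropic vectors
  have hpair : ∀ e' x, FrU q e e' x → ⟪z e', e'⟫ = 0 := by
    intro e' x fr
    obtain ⟨s, ν, hν, hs1, hs2, hs3⟩ := exists_torus hF fr hμ0
    have hi1 : act s⁻¹ e = μ ^ q • e := by
      have h1 : e = act s (μ ^ q • e) := by rw [act_smul, hs1, smul_smul, mul_inv_cancel₀ (pow_ne_zero _ hμ0), one_smul]
      conv_lhs => rw [h1]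
      rw [hinvl]
    have hi2 : act s⁻¹ e' = μ⁻¹ • e' := by
      have h1 : e' = act s (μ⁻¹ • e') := by rw [act_smul, hs2, smul_smul, inv_mul_cancel₀ hμ0, one_smul]
      conv_lhs => rw [h1]
      rw [hinvl]
    have hi3 : act s⁻¹ x = ν⁻¹ • x := by
      have h1 : x = act s (ν⁻¹ • x) := by rw [act_smul, hs3, smul_smul, inv_mul_cancel₀ hν, one_smul]
      conv_lhs => rw [h1]
      rw [hinvl]
    obtain ⟨z', hz', hQz'⟩ := hcj s
    obtain ⟨α, β, γ, hzx⟩ := fr.span (z x)
    obtain ⟨α', β', γ', hze'⟩ := fr.span (z e')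
    have hβ : β = 0 := by
      have h1 := hzxe x
      rw [hzx, hermForm_add_left, hermForm_add_left, hermForm_smul_left, hermForm_smul_left, hermForm_smul_left, fr.ee, fr.e'e, fr.xe] at h1
      linear_combination h1
    have hβ' : β' = lam := by
      have h1 := hzxe e'
      rw [hze', hermForm_add_left, hermForm_add_left, hermForm_smul_left, hermForm_smul_left, hermForm_smul_left, fr.ee, fr.e'e, fr.xe] at h1
      linear_combination h1
    have hDe : (z' - z) e = 0 := by
      rw [LinearMap.sub_apply, hz', hi1, map_smul, heig, act_smul, act_smul, hs1, smul_smul, smul_smul]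
      have : μ ^ q * lam * (μ ^ q)⁻¹ = lam := by
        field_simp
      rw [this, sub_self]
    obtain ⟨c₁, hDx⟩ : ∃ c₁ : F, (z' - z) x = c₁ • e := by
      refine ⟨ν⁻¹ * α * (μ ^ q)⁻¹ - α, ?_⟩
      rw [LinearMap.sub_apply, hz', hi3, map_smul, hzx, hβ, act_smul, act_add, act_add, act_smul, act_smul, act_smul, hs1, hs2, hs3]
      have e1 : ν⁻¹ * ν = 1 := inv_mul_cancel₀ hν
      have e2 : ν⁻¹ • (α • (μ ^ q)⁻¹ • e + (0 : F) • μ • e' + γ • ν • x) = (ν⁻¹ * α * (μ ^ q)⁻¹) • e + (γ * (ν⁻¹ * ν)) • x := by module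
      rw [e2, e1]
      module
    obtain ⟨c₂, c₃, hDe'⟩ : ∃ c₂ c₃ : F, (z' - z) e' = c₂ • e + c₃ • x := by
      refine ⟨μ⁻¹ * α' * (μ ^ q)⁻¹ - α', μ⁻¹ * γ' * ν - γ', ?_⟩
      rw [LinearMap.sub_apply, hz', hi2, map_smul, hze', hβ', act_smul, act_add, act_add, act_smul, act_smul, act_smul, hs1, hs2, hs3]
      have e1 : μ⁻¹ * μ = 1 := inv_mul_cancel₀ hμ0
      have e2 : μ⁻¹ • (α' • (μ ^ q)⁻¹ • e + lam • μ • e' + γ' • ν • x) =
          (μ⁻¹ * α' * (μ ^ q)⁻¹) • e + (lam * (μ⁻¹ * μ)) • e' + (μ⁻¹ * γ' * ν) • x := by module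
      rw [e2, e1]
      module
    have hD3 : (z' - z) ^ 3 = 0 := by
      apply LinearMap.ext; intro w
      obtain ⟨p, p', r, rfl⟩ := fr.span w
      rw [pow_succ, pow_two, Module.End.mul_apply, Module.End.mul_apply]
      simp only [map_add, map_smul, hDe, hDx, hDe', smul_zero, add_zero, zero_add, LinearMap.zero_apply]
    have hzz := Q.nil hM hH hq hz1 hQz' hD3
    have h1 : z (act s e') = act s (z e') := by
      have := hz' (act s e')
      rw [hzz, hinvl] at this
      exact this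
    have h2 := act_form s (z e') e'
    rw [← h1, hs2, map_smul, hermForm_smul_left, hermForm_smul_right, ← mul_assoc, ← pow_succ', hμ] at h2
    have h3 : (l - 1) * ⟪z e', e'⟫ = 0 := by linear_combination h2
    exact (mul_eq_zero.1 h3).resolve_left (sub_ne_zero.2 hl1)
  apply hsa.scalar_of_iso hF
  intro u hu
  by_cases heu : ⟪e, u⟫ = 0
  · obtain ⟨α, β, γ, hu'⟩ := fr.span u
    have h1 : β = 0 := by
      rw [hu', hermForm_add_right hF, hermForm_add_right hF, hermForm_smul_right, hermForm_smul_right, hermForm_smul_right,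
        fr.ee, fr.ee', fr.ex, mul_zero, mul_zero, zero_add, add_zero, mul_one] at heu
      exact pow_eq_zero_iff (q_ne_zero hF) |>.1 heu
    rw [h1, zero_smul, add_zero] at hu'
    have h2 : γ = 0 := by
      rw [hu'] at hu
      simp only [hermForm_add_left, hermForm_add_right hF, hermForm_smul_left, hermForm_smul_right, fr.ee, fr.ex, fr.xe, fr.xx] at hu
      have : γ ^ (q + 1) = 0 := by rw [pow_succ]; linear_combination hu
      exact pow_eq_zero_iff (by omega) |>.1 this
    rw [h2, zero_smul, add_zero] at hu'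
    rw [hu', map_smul, hermForm_smul_left, hermForm_smul_right, hze, mul_zero, mul_zero]
  · have hm0 : (⟪e, u⟫)⁻¹ ^ q ≠ 0 := pow_ne_zero _ (inv_ne_zero heu)
    have hH2 : Cfsg.Agent.Uni.Hyp q e (((⟪e, u⟫)⁻¹ ^ q) • u) := ⟨hee, by
      rw [hermForm_smul_left, hermForm_smul_right, hu, mul_zero, mul_zero], by
      rw [hermForm_smul_right, pow_q_pow_q hF, inv_mul_cancel₀ heu]⟩
    obtain ⟨x', fr'⟩ := exists_frU' hF hH2
    have h1 := hpair _ _ fr'
    rw [map_smul, hermForm_smul_left, hermForm_smul_right, mul_eq_zero, or_iff_right hm0, mul_eq_zero,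
      or_iff_right (pow_ne_zero _ hm0)] at h1
    exact h1

end Cfsg.Agent.SmallDim.UT
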