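import Cfsg.Agent.SmallDim.UT4
import Cfsg.Agent.SmallDim.UT6

set_option autoImplicit false
set_option linter.unusedSectionVars false
set_option linter.unusedVariables false

/-!
Groups acting on `W × W`, `W` unitary of dimension three: generation by transvections.
-/

namespace Cfsg.Agent.SmallDim.UT

open Module Cfsg.Agent.SmallDim.TenB Cfsg.Agent.Uni

variable {F : Type*} [Field F] [Fintype F] {q : ℕ}

local notation "⟪" x ", " y "⟫" => Cfsg.hermForm 3 F q x y

variable (q) in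
/-- the form on `W × W` -/
def HH (v w : (Fin 3 → F) × (Fin 3 → F)) : F := ⟪v.1, w.2⟫ - ⟪v.2, w.1⟫

/-- centres of transvections -/
def XM (hF : Fintype.card F = q ^ 2) (M : Subgroup (((Fin 3 → F) × (Fin 3 → F)) ≃ₗ[F] ((Fin 3 → F) × (Fin 3 → F)))) :
    Set ((Fin 3 → F) × (Fin 3 → F)) :=
  {v | ∀ t : F, t ∈ kq hF → ∃ g ∈ M, ∀ x, g x = x + (t * HH q x v) • v}

variable {hF : Fintype.card F = q ^ 2}
  {M : Subgroup (((Fin 3 → F) × (Fin 3 → F)) ≃ₗ[F] ((Fin 3 → F) × (Fin 3 → F)))}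

theorem HypU.hh (hM : HypU hF M) {g : ((Fin 3 → F) × (Fin 3 → F)) ≃ₗ[F] ((Fin 3 → F) × (Fin 3 → F))} (hg : g ∈ M)
    (v w : (Fin 3 → F) × (Fin 3 → F)) : HH q (g v) (g w) = HH q v w := hM.iso g hg v w

theorem HypU.xm_conj (hM : HypU hF M) {g : ((Fin 3 → F) × (Fin 3 → F)) ≃ₗ[F] ((Fin 3 → F) × (Fin 3 → F))} (hg : g ∈ M)
    {v : (Fin 3 → F) × (Fin 3 → F)} (hv : v ∈ XM hF M) : g v ∈ XM hF M := by
  intro t ht
  obtain ⟨m, hm, hmx⟩ := hv t ht
  refine ⟨g * m * g⁻¹, M.mul_mem (M.mul_mem hg hm) (M.inv_mem hg), fun x => ?_⟩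
  have h1 : ∀ y, g (g⁻¹ y) = y := fun y => by rw [← LinearEquiv.mul_apply, mul_inv_cancel]; rfl
  rw [LinearEquiv.mul_apply, LinearEquiv.mul_apply, hmx, map_add, map_smul, h1]
  have h2 : HH q (g⁻¹ x) v = HH q x (g v) := by rw [← hM.hh hg, h1]
  rw [h2]

theorem hh_smul_right (c : F) (v w : (Fin 3 → F) × (Fin 3 → F)) : HH q v (c • w) = c ^ q * HH q v w := by
  unfold HH
  rw [Prod.smul_fst, Prod.smul_snd, hermForm_smul_right, hermForm_smul_right]; ring

theorem xm_smul {v : (Fin 3 → F) × (Fin 3 → F)} (hv : v ∈ XM hF M) (c : F) : c • v ∈ XM hF M := by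
  intro t ht
  obtain ⟨m, hm, hmx⟩ := hv (t * c ^ (q + 1)) ((kq hF).mul_mem ht (norm_pow_q hF c))
  refine ⟨m, hm, fun x => ?_⟩
  rw [hmx, hh_smul_right, smul_smul]
  congr 2
  ring

theorem HypU.xm_line (hM : HypU hF M) {v w : (Fin 3 → F) × (Fin 3 → F)} (hv : v ∈ XM hF M) (hw : w ∈ XM hF M) {t : F} (ht : t ∈ kq hF) :
    v + (t * HH q v w) • w ∈ XM hF M := by
  obtain ⟨m, hm, hmx⟩ := hw t ht
  rw [← hmx]
  exact hM.xm_conj hm hv

/-- transitivity on vectors of a given norm -/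
theorem exists_su_one (hF : Fintype.card F = q ^ 2) {u u' : Fin 3 → F} (hu : u ≠ 0) (hu' : u' ≠ 0) (h : ⟪u, u⟫ = ⟪u', u'⟫) :
    ∃ s : Cfsg.SU 3 F q, act s u = u' := by
  obtain ⟨w, hw, hww⟩ := Cfsg.Agent.H98.UniMax.exists_z hF ({u'} : Finset (Fin 3 → F)) (by rw [Finset.card_singleton]; norm_num) (one_pow q)
  obtain ⟨s, hs⟩ := exists_su hF (x := ![u]) (y := ![u']) (LinearIndependent.of_subsingleton 0 (by simpa using hu))
    (LinearIndependent.of_subsingleton 0 (by simpa using hu')) (by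
      intro i j
      fin_cases i; fin_cases j
      simpa using h) (w := w) hww (by
      intro i
      fin_cases i
      simpa using (hermForm_eq_zero_comm hF).1 (hw u' (by simp)))
  exact ⟨s, by simpa using hs 0⟩

theorem HypU.xm_all (hM : HypU hF M) (hq : 3 ≤ q) {u : Fin 3 → F} (hu0 : u ≠ 0) (hu : ⟪u, u⟫ = 0)
    (huM : ∀ c : F, c ∈ kq hF → xt (c • Eu q u) ∈ M) {v : (Fin 3 → F) × (Fin 3 → F)} (hv : HH q v v = 0) : v ∈ XM hF M := by
  have hwy : ∀ a : Fin 3 → F, (a, (0 : Fin 3 → F)) ∈ XM hF M → ((0 : Fin 3 → F), a) ∈ XM hF M := by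
    intro a ha
    have := hM.xm_conj hM.wy_mem ha
    rwa [wy_apply, neg_zero] at this
  have hwy' : ∀ a : Fin 3 → F, ((0 : Fin 3 → F), a) ∈ XM hF M → (a, (0 : Fin 3 → F)) ∈ XM hF M := by
    intro a ha
    have := hM.xm_conj hM.wy_mem ha
    rw [wy_apply] at this
    have h1 := xm_smul this (-1)
    rwa [Prod.smul_mk, neg_one_smul, neg_one_smul, neg_neg, neg_zero] at h1
  have hzero : ((0 : Fin 3 → F), (0 : Fin 3 → F)) ∈ XM hF M := by
    intro t ht
    exact ⟨1, M.one_mem, fun x => by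
      have : ((0 : Fin 3 → F), (0 : Fin 3 → F)) = 0 := rfl
      rw [this, smul_zero, add_zero]; rfl⟩
  have hsu : ∀ (s : Cfsg.SU 3 F q) (a : Fin 3 → F), (a, (0 : Fin 3 → F)) ∈ XM hF M → (act s a, (0 : Fin 3 → F)) ∈ XM hF M := by
    intro s a ha
    obtain ⟨d, hd, hdv⟩ := hM.su s
    have := hM.xm_conj hd ha
    rwa [hdv, act_zero] at this
  have huX : (u, (0 : Fin 3 → F)) ∈ XM hF M := by
    intro t ht
    refine ⟨_, huM (-t) ((kq hF).neg_mem ht), fun x => ?_⟩
    unfold HH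
    rw [xt_apply, LinearMap.smul_apply, Eu_apply, hermForm_zero_right hF, zero_sub]
    ext i
    · simp only [Pi.add_apply, Prod.fst_add, Prod.smul_fst, Pi.smul_apply, smul_eq_mul]; ring
    · simp
  have hiso : ∀ a : Fin 3 → F, ⟪a, a⟫ = 0 → (a, (0 : Fin 3 → F)) ∈ XM hF M := by
    intro a ha
    by_cases ha0 : a = 0
    · rw [ha0]; exact hzero
    · obtain ⟨s, hs⟩ := exists_su_one hF hu0 ha0 (by rw [hu, ha])
      rw [← hs]; exact hsu s u huX
  obtain ⟨l, hl, hl0, hl1⟩ := exists_l hF hq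
  obtain ⟨e', x, fr⟩ := exists_frU hF hu0 hu
  -- vectors `(0, b)`
  have hall2 : ∀ b : Fin 3 → F, ((0 : Fin 3 → F), b) ∈ XM hF M := by
    intro b
    by_cases hb : ⟪b, b⟫ = 0
    · exact hwy _ (hiso b hb)
    obtain ⟨β, hβ⟩ := exists_norm_eq hF (c := ⟪b, b⟫ / l) (by rw [div_pow, hermForm_self_pow_q hF, hl])
    obtain ⟨α, hα⟩ := exists_trace_eq hF (c := -β ^ (q + 1)) (by rw [neg_pow_q hF, norm_pow_q hF])
    obtain ⟨y, hy⟩ : ∃ y, y = e' + α • u + β • x := ⟨_, rfl⟩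
    have hyy : ⟪y, y⟫ = 0 := by
      rw [hy]
      simp only [hermForm_add_left, hermForm_add_right hF, hermForm_smul_left, hermForm_smul_right, fr.ee, fr.ee', fr.e'e', fr.e'e,
        fr.xe, fr.ex, fr.xe', fr.e'x, fr.xx]
      rw [pow_succ] at hα
      linear_combination hα
    have huy : ⟪u, y⟫ = 1 := by
      rw [hy]
      simp only [hermForm_add_right hF, hermForm_smul_right, fr.ee, fr.ee', fr.ex]
      ring
    have hye' : ⟪y, e'⟫ = α := by
      rw [hy]
      simp only [hermForm_add_left, hermForm_smul_left, fr.ee', fr.e'e', fr.xe']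
      ring
    have he'y : ⟪e', y⟫ = α ^ q := by rw [← hye', hermForm_symm hF]
    have p1 : (u, e') ∈ XM hF M := by
      have := hM.xm_line (hiso u hu) (hwy _ (hiso e' fr.e'e')) (kq hF).one_mem
      unfold HH at this
      simp only [fr.ee', hermForm_zero_left, sub_zero, one_mul, one_smul, Prod.mk_add_mk, add_zero, zero_add] at this
      exact this
    have p2 : (u, l • y) ∈ XM hF M := by
      have := hM.xm_line (hiso u hu) (hwy _ (hiso y hyy)) hl
      unfold HH at this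
      simp only [huy, hermForm_zero_left, sub_zero, mul_one, Prod.smul_mk, smul_zero, Prod.mk_add_mk, add_zero, zero_add] at this
      exact this
    have hH : HH q (u, e') (u, l • y) = l - 1 := by
      unfold HH
      simp only
      rw [hermForm_smul_right, huy, hl, fr.e'e, mul_one]
    have p3 : ((0 : Fin 3 → F), e' - l • y) ∈ XM hF M := by
      have hlk : -(l - 1)⁻¹ ∈ kq hF := (kq hF).neg_mem ((kq hF).inv_mem ((kq hF).sub_mem hl (kq hF).one_mem))
      have h1 := hM.xm_line p1 p2 hlk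
      rw [hH, neg_mul, inv_mul_cancel₀ (sub_ne_zero.2 hl1), neg_one_smul, ← sub_eq_add_neg, Prod.mk_sub_mk, sub_self] at h1
      exact h1
    have hnorm : ⟪e' - l • y, e' - l • y⟫ = ⟪b, b⟫ := by
      rw [hermForm_sub_left, hermForm_sub_right hF, hermForm_sub_right hF, hermForm_smul_left, hermForm_smul_left, hermForm_smul_right,
        hermForm_smul_right, fr.e'e', hyy, hye', he'y, hl]
      have h1 : l * β ^ (q + 1) = ⟪b, b⟫ := by rw [hβ]; field_simp
      linear_combination h1 - l * hα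
    have hb0 : b ≠ 0 := by
      rintro rfl
      exact hb (hermForm_zero_left _)
    have hb1 : e' - l • y ≠ 0 := by
      intro h
      rw [h, hermForm_zero_left] at hnorm
      exact hb hnorm.symm
    obtain ⟨s, hs⟩ := exists_su_one hF hb1 hb0 hnorm
    rw [← hs]
    exact hwy _ (hsu s _ (hwy' _ p3))
  have hall1 : ∀ b : Fin 3 → F, (b, (0 : Fin 3 → F)) ∈ XM hF M := fun b => hwy' _ (hall2 b)
  -- vectors with nonzero product
  have hne : ∀ a b : Fin 3 → F, ⟪a, b⟫ ∈ kq hF → ⟪a, b⟫ ≠ 0 → (a, b) ∈ XM hF M := by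
    intro a b hab hab0
    have h1 := hM.xm_line (hall1 a) (hall2 b) ((kq hF).inv_mem hab)
    unfold HH at h1
    simp only [hermForm_zero_left, sub_zero, inv_mul_cancel₀ hab0, one_smul, Prod.mk_add_mk, add_zero, zero_add] at h1
    exact h1
  obtain ⟨a, b⟩ := v
  have hab : ⟪a, b⟫ ∈ kq hF := by
    unfold HH at hv
    rw [mem_kq, hermForm_symm hF]
    exact (sub_eq_zero.1 hv).symm
  by_cases hab0 : ⟪a, b⟫ = 0
  · by_cases ha0 : a = 0
    · rw [ha0]; exact hall2 b
    obtain ⟨y, hy⟩ := exists_form_ne (q := q) hF ha0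
    obtain ⟨b', hb'⟩ : ∃ b', ⟪a, b'⟫ = 1 := by
      refine ⟨((⟪a, y⟫)⁻¹ ^ q) • y, ?_⟩
      rw [hermForm_smul_right, pow_q_pow_q hF, inv_mul_cancel₀ hy]
    have h1 := hne a b' (by rw [hb']; exact (kq hF).one_mem) (by rw [hb']; exact one_ne_zero)
    have h2 := hM.xm_line h1 (hall2 (b - b')) ((kq hF).neg_mem (kq hF).one_mem)
    have h3 : HH q (a, b') ((0 : Fin 3 → F), b - b') = -1 := by
      unfold HH
      simp only
      rw [hermForm_sub_right hF, hab0, hb', hermForm_zero_right hF]; ring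
    rw [h3, neg_mul_neg, one_mul, one_smul, Prod.mk_add_mk, add_zero, add_sub_cancel] at h2
    exact h2
  · exact hne a b hab hab0

/-- the dichotomy for `W × W` -/
theorem HypU.main (hM : HypU hF M) (hq : 3 ≤ q) : (∀ v, HH q v v = 0 → v ∈ XM hF M) ∨
    ∀ g ∈ M, ∃ (p : Module.End F (Fin 3 → F)) (a b c d : F), ∀ v, g v = (a • p v.1 + b • p v.2, c • p v.1 + d • p v.2) := by
  rcases hM.dich hq with hH | ⟨u, hu0, hu, huM⟩
  · right
    intro g hg
    refine hM.tensor hH ?_ hq hg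
    intro z B hQ hB
    by_cases h4 : 4 ≤ q
    · exact hM.scalar4 hH h4 z B hQ hB
    · exact hM.scalar3 hH (by omega) z B hQ hB
  · left
    intro v hv
    exact hM.xm_all hq hu0 hu huM hv

end Cfsg.Agent.SmallDim.UT
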