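import Cfsg.Agent.SmallDim.UT7
import Cfsg.Agent.UTP.Final

set_option autoImplicit false
set_option linter.unusedSectionVars false
set_option linter.unusedVariables false

/-!
Tensor decompositions `2 ⊗ 3` in `SU_6(q)`, `q ≥ 3`.
-/

namespace Cfsg.Agent.SmallDim.UT

open scoped Matrix Kronecker
open Cfsg.Agent.Uni Cfsg.Geo Module
open Cfsg.Agent.UCase (SG suHom suHom_coe suHom_mem suHom_range not_le_tensorProductSubgroup)
open Matrix (GeneralLinearGroup)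
open Cfsg.Agent.SmallDim.TenB (xt yt xt_apply yt_apply)
open Cfsg.Agent.UTP (io io_add io_smul io_zero ioH_io io_ip kr_io InK KN XX IsPure rk starF dot_star vm_mulVec sg_le_of_transv
  exists_unitary_frame mem_tensor_iff mem_GU_iff reindex_mulVec')

variable {F : Type*} [Field F] [Fintype F] [StarRing F] {q : ℕ}

/-- the coordinates -/
def Ph (s₁ s₂ : Fin 2 → F) : ((Fin 3 → F) × (Fin 3 → F)) →ₗ[F] (Fin 2 × Fin 3 → F) where
  toFun v := io (Fin 2) v.1 *ᵥ s₁ + io (Fin 2) v.2 *ᵥ s₂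
  map_add' v v' := by
    rw [Prod.fst_add, Prod.snd_add, io_add, io_add, Matrix.add_mulVec, Matrix.add_mulVec]; abel
  map_smul' c v := by
    rw [Prod.smul_fst, Prod.smul_snd, io_smul, io_smul, Matrix.smul_mulVec, Matrix.smul_mulVec, RingHom.id_apply, smul_add]

theorem Ph_apply (s₁ s₂ : Fin 2 → F) (v : (Fin 3 → F) × (Fin 3 → F)) :
    Ph s₁ s₂ v = io (Fin 2) v.1 *ᵥ s₁ + io (Fin 2) v.2 *ᵥ s₂ := rfl

/-- the frame for the first factor -/
structure Fr2 (q : ℕ) (s₁ s₂ : Fin 2 → F) (ζ : F) : Prop where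
  f11 : Cfsg.hermForm 2 F q s₁ s₁ = 0
  f22 : Cfsg.hermForm 2 F q s₂ s₂ = 0
  f12 : Cfsg.hermForm 2 F q s₁ s₂ = ζ
  f21 : Cfsg.hermForm 2 F q s₂ s₁ = -ζ
  ne : ζ ≠ 0
  sk : ζ ^ q = -ζ

theorem exists_fr2 (hF : Fintype.card F = q ^ 2) : ∃ (s₁ s₂ : Fin 2 → F) (ζ : F), Fr2 q s₁ s₂ ζ := by
  obtain ⟨u, hu0, hu⟩ := exists_isotropic (F := F) (n := 2) hF (le_refl 2)
  obtain ⟨v, hH⟩ := exists_hyp' hF hu0 hu
  obtain ⟨ζ, hζ0, hζ⟩ := exists_skew hF
  refine ⟨ζ • u, v, ζ, ?_, hH.2.1, ?_, ?_, hζ0, hζ⟩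
  · rw [hermForm_smul_left, hermForm_smul_right, hH.1, mul_zero, mul_zero]
  · rw [hermForm_smul_left, hH.2.2, mul_one]
  · rw [hermForm_smul_right, (hH.symm hF).2.2, mul_one, hζ]

variable {s₁ s₂ : Fin 2 → F} {ζ : F}

theorem Fr2.form (hs : ∀ x : F, star x = x ^ q) (h : Fr2 q s₁ s₂ ζ) (v v' : (Fin 3 → F) × (Fin 3 → F)) :
    Ph s₁ s₂ v ⬝ᵥ star (Ph s₁ s₂ v') = ζ * HH q v v' := by
  rw [Ph_apply, Ph_apply, star_add, dotProduct_add, add_dotProduct, add_dotProduct, io_ip hs, io_ip hs, io_ip hs, io_ip hs,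
    dot_star hs, dot_star hs, dot_star hs, dot_star hs, h.f11, h.f22, h.f12, h.f21]
  unfold HH
  ring

theorem Fr2.inj (hs : ∀ x : F, star x = x ^ q) (hF : Fintype.card F = q ^ 2) (h : Fr2 q s₁ s₂ ζ) :
    Function.Injective (Ph s₁ s₂) := by
  rw [injective_iff_map_eq_zero]
  intro v hv
  have h1 : ∀ v', HH q v v' = 0 := by
    intro v'
    have h2 := h.form hs v v'
    rw [hv, zero_dotProduct] at h2
    exact (mul_eq_zero.1 h2.symm).resolve_left h.ne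
  ext1
  · apply hermForm_nondeg hF
    intro w
    have := h1 (0, w)
    unfold HH at this
    simpa [hermForm_zero_right hF] using this
  · apply hermForm_nondeg hF
    intro w
    have := h1 (w, 0)
    unfold HH at this
    simpa [hermForm_zero_right hF] using this

/-- the coordinates as an equivalence -/
noncomputable def Fr2.E (hs : ∀ x : F, star x = x ^ q) (hF : Fintype.card F = q ^ 2) (h : Fr2 q s₁ s₂ ζ) :
    ((Fin 3 → F) × (Fin 3 → F)) ≃ₗ[F] (Fin 2 × Fin 3 → F) :=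
  LinearEquiv.ofInjectiveOfFinrankEq (Ph s₁ s₂) (h.inj hs hF) (by
    rw [Module.finrank_prod, finrank_fintype_fun_eq_card, finrank_fintype_fun_eq_card, Fintype.card_prod, Fintype.card_fin,
      Fintype.card_fin])

theorem Fr2.E_apply (hs : ∀ x : F, star x = x ^ q) (hF : Fintype.card F = q ^ 2) (h : Fr2 q s₁ s₂ ζ) (v : (Fin 3 → F) × (Fin 3 → F)) :
    h.E hs hF v = Ph s₁ s₂ v := rfl

/-- the transported group -/
def MM (s₁ s₂ : Fin 2 → F) (K : Subgroup (GL (Fin 2 × Fin 3) F)) : Subgroup (((Fin 3 → F) × (Fin 3 → F)) ≃ₗ[F] ((Fin 3 → F) × (Fin 3 → F))) where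
  carrier := {g | ∃ G ∈ K, ∀ v, (G : Matrix (Fin 2 × Fin 3) (Fin 2 × Fin 3) F) *ᵥ Ph s₁ s₂ v = Ph s₁ s₂ (g v)}
  one_mem' := ⟨1, K.one_mem, fun v => by rw [Units.val_one, Matrix.one_mulVec]; rfl⟩
  mul_mem' := by
    rintro g g' ⟨G, hG, h⟩ ⟨G', hG', h'⟩
    exact ⟨G * G', K.mul_mem hG hG', fun v => by rw [Units.val_mul, ← Matrix.mulVec_mulVec, h', h]; rfl⟩
  inv_mem' := by
    rintro g ⟨G, hG, h⟩
    refine ⟨G⁻¹, K.inv_mem hG, fun v => ?_⟩
    have h1 := h (g⁻¹ v)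
    have h2 : g (g⁻¹ v) = v := by rw [← LinearEquiv.mul_apply, mul_inv_cancel]; rfl
    rw [h2] at h1
    rw [← h1, Matrix.mulVec_mulVec, ← Units.val_mul, inv_mul_cancel, Units.val_one, Matrix.one_mulVec]

theorem kr_Ph (A : Matrix (Fin 2) (Fin 2) F) (B : Matrix (Fin 3) (Fin 3) F) (v : (Fin 3 → F) × (Fin 3 → F)) :
    (A ⊗ₖ B) *ᵥ Ph s₁ s₂ v = io (Fin 2) (B *ᵥ v.1) *ᵥ (A *ᵥ s₁) + io (Fin 2) (B *ᵥ v.2) *ᵥ (A *ᵥ s₂) := by
  rw [Ph_apply, Matrix.mulVec_add, Matrix.mulVec_mulVec, Matrix.mulVec_mulVec, kr_io, kr_io, ← Matrix.mulVec_mulVec, ← Matrix.mulVec_mulVec]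

/-- the action of an element of `SU` on `W × W` -/
def dgE (s : Cfsg.SU 3 F q) : ((Fin 3 → F) × (Fin 3 → F)) ≃ₗ[F] ((Fin 3 → F) × (Fin 3 → F)) where
  toFun v := (act s v.1, act s v.2)
  invFun v := (act s⁻¹ v.1, act s⁻¹ v.2)
  map_add' v v' := by ext1 <;> exact act_add _ _ _
  map_smul' c v := by ext1 <;> exact act_smul _ _ _
  left_inv v := by ext1 <;> exact act_inv_act _ _
  right_inv v := by ext1 <;> exact act_act_inv _ _

theorem hypU (hs : ∀ x : F, star x = x ^ q) (hF : Fintype.card F = q ^ 2) (h : Fr2 q s₁ s₂ ζ) {K : Subgroup (GL (Fin 2 × Fin 3) F)}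
    (huni : ∀ g ∈ K, (g : Matrix (Fin 2 × Fin 3) (Fin 2 × Fin 3) F)ᴴ * (g : Matrix (Fin 2 × Fin 3) (Fin 2 × Fin 3) F) = 1)
    (hU : ∀ s : SU 2 F q, InK K (((s : Matrix.SpecialLinearGroup (Fin 2) F) : Matrix (Fin 2) (Fin 2) F) ⊗ₖ (1 : Matrix (Fin 3) (Fin 3) F)))
    (hW : ∀ s : SU 3 F q, InK K ((1 : Matrix (Fin 2) (Fin 2) F) ⊗ₖ ((s : Matrix.SpecialLinearGroup (Fin 3) F) : Matrix (Fin 3) (Fin 3) F))) :
    HypU hF (MM s₁ s₂ K) where
  x t ht := by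
    obtain ⟨s, hs'⟩ := exists_eich hF s₁ 0 (-(t * ζ⁻¹)) h.f11 (hermForm_zero_right hF _) (by
      rw [hermForm_zero_left, neg_pow_q hF, mul_pow, inv_pow, h.sk, mem_kq.1 ht, inv_neg]; ring)
    have hsx := (isEich_zero_iff hF s s₁ _).1 hs'
    obtain ⟨G, hG, hGe⟩ := hU s
    refine ⟨G, hG, fun v => ?_⟩
    have e1 : act s s₁ = s₁ := by rw [hsx, h.f11, mul_zero, zero_smul, add_zero]
    have e2 : act s s₂ = s₂ + t • s₁ := by
      rw [hsx, h.f21]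
      congr 2
      have := h.ne
      field_simp
    rw [hGe, kr_Ph, Matrix.one_mulVec, Matrix.one_mulVec]
    change io (Fin 2) v.1 *ᵥ (act s s₁) + io (Fin 2) v.2 *ᵥ (act s s₂) = _
    rw [e1, e2, Ph_apply, xt_apply, LinearMap.smul_apply, Module.End.one_apply]
    simp only
    rw [io_add, io_smul, Matrix.mulVec_add, Matrix.mulVec_smul, Matrix.add_mulVec, Matrix.smul_mulVec]
    abel
  y t ht := by
    obtain ⟨s, hs'⟩ := exists_eich hF s₂ 0 (t * ζ⁻¹) h.f22 (hermForm_zero_right hF _) (by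
      rw [hermForm_zero_left, mul_pow, inv_pow, h.sk, mem_kq.1 ht, inv_neg]; ring)
    have hsx := (isEich_zero_iff hF s s₂ _).1 hs'
    obtain ⟨G, hG, hGe⟩ := hU s
    refine ⟨G, hG, fun v => ?_⟩
    have e1 : act s s₂ = s₂ := by rw [hsx, h.f22, mul_zero, zero_smul, add_zero]
    have e2 : act s s₁ = s₁ + t • s₂ := by
      rw [hsx, h.f12]
      congr 2
      have := h.ne
      field_simp
    rw [hGe, kr_Ph, Matrix.one_mulVec, Matrix.one_mulVec]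
    change io (Fin 2) v.1 *ᵥ (act s s₁) + io (Fin 2) v.2 *ᵥ (act s s₂) = _
    rw [e1, e2, Ph_apply, yt_apply, LinearMap.smul_apply, Module.End.one_apply]
    simp only
    rw [io_add, io_smul, Matrix.mulVec_add, Matrix.mulVec_smul, Matrix.add_mulVec, Matrix.smul_mulVec]
    abel
  iso g hg v v' := by
    obtain ⟨G, hG, hGv⟩ := hg
    have h1 : ∀ x y : Fin 2 × Fin 3 → F, ((G : Matrix (Fin 2 × Fin 3) (Fin 2 × Fin 3) F) *ᵥ x) ⬝ᵥ star ((G : Matrix (Fin 2 × Fin 3) (Fin 2 × Fin 3) F) *ᵥ y) =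
        x ⬝ᵥ star y := by
      intro x y
      rw [Matrix.star_mulVec, dotProduct_comm, ← Matrix.dotProduct_mulVec, Matrix.mulVec_mulVec, huni G hG,
        Matrix.one_mulVec, dotProduct_comm]
    have h2 := h1 (Ph s₁ s₂ v) (Ph s₁ s₂ v')
    rw [hGv, hGv, h.form hs, h.form hs] at h2
    exact mul_left_cancel₀ h.ne h2
  su s := by
    refine ⟨dgE s, ?_, fun v => rfl⟩
    obtain ⟨G, hG, hGe⟩ := hW s
    refine ⟨G, hG, fun v => ?_⟩
    rw [hGe, kr_Ph, Matrix.one_mulVec, Matrix.one_mulVec]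
    rfl

/-- the dichotomy -/
theorem main23 (hs : ∀ x : F, star x = x ^ q) (hF : Fintype.card F = q ^ 2) (hq : 3 ≤ q) {K : Subgroup (GL (Fin 2 × Fin 3) F)}
    (huni : ∀ g ∈ K, (g : Matrix (Fin 2 × Fin 3) (Fin 2 × Fin 3) F)ᴴ * (g : Matrix (Fin 2 × Fin 3) (Fin 2 × Fin 3) F) = 1)
    (hU : ∀ s : SU 2 F q, InK K (((s : Matrix.SpecialLinearGroup (Fin 2) F) : Matrix (Fin 2) (Fin 2) F) ⊗ₖ (1 : Matrix (Fin 3) (Fin 3) F)))
    (hW : ∀ s : SU 3 F q, InK K ((1 : Matrix (Fin 2) (Fin 2) F) ⊗ₖ ((s : Matrix.SpecialLinearGroup (Fin 3) F) : Matrix (Fin 3) (Fin 3) F))) :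
    (∀ v : Fin 2 × Fin 3 → F, v ⬝ᵥ star v = 0 → v ∈ XX q K) ∨ ∀ G, InK K G → IsPure G := by
  obtain ⟨s₁, s₂, ζ, h⟩ := exists_fr2 hF
  have hM := hypU hs hF h huni hU hW
  have hsurj : Function.Surjective (Ph s₁ s₂) := (h.E hs hF).surjective
  rcases hM.main hq with hall | hall
  · left
    intro v hv c hc
    obtain ⟨w, rfl⟩ := hsurj v
    rw [h.form hs] at hv
    have hw := hall w ((mul_eq_zero.1 hv).resolve_left h.ne)
    obtain ⟨g, ⟨G, hG, hGv⟩, hg⟩ := hw (c * ζ) (by rw [mem_kq, mul_pow, hc, h.sk, neg_mul_neg])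
    refine ⟨G, hG, ?_⟩
    apply Matrix.ext_of_mulVec_single
    intro p
    obtain ⟨x, hx⟩ := hsurj (Pi.single p 1)
    rw [← hx, hGv, hg, map_add, map_smul, Matrix.add_mulVec, Matrix.one_mulVec, Matrix.smul_mulVec]
    congr 1
    unfold rk
    rw [vm_mulVec, h.form hs, smul_smul]
    congr 1
    ring
  · right
    rintro _ ⟨G, hG, rfl⟩
    -- the transported element
    set E := h.E hs hF with hE
    have hEP : ∀ v, E v = Ph s₁ s₂ v := fun v => rfl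
    have hGi : ∀ x, (G : Matrix (Fin 2 × Fin 3) (Fin 2 × Fin 3) F) *ᵥ (((G⁻¹ : GL (Fin 2 × Fin 3) F) : Matrix (Fin 2 × Fin 3) (Fin 2 × Fin 3) F) *ᵥ x) = x := by
      intro x
      rw [Matrix.mulVec_mulVec, ← Units.val_mul, mul_inv_cancel, Units.val_one, Matrix.one_mulVec]
    have hGi' : ∀ x, ((G⁻¹ : GL (Fin 2 × Fin 3) F) : Matrix (Fin 2 × Fin 3) (Fin 2 × Fin 3) F) *ᵥ ((G : Matrix (Fin 2 × Fin 3) (Fin 2 × Fin 3) F) *ᵥ x) = x := by
      intro x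
      rw [Matrix.mulVec_mulVec, ← Units.val_mul, inv_mul_cancel, Units.val_one, Matrix.one_mulVec]
    let g : ((Fin 3 → F) × (Fin 3 → F)) ≃ₗ[F] ((Fin 3 → F) × (Fin 3 → F)) :=
      { toFun := fun v => E.symm ((G : Matrix (Fin 2 × Fin 3) (Fin 2 × Fin 3) F) *ᵥ E v)
        invFun := fun v => E.symm (((G⁻¹ : GL (Fin 2 × Fin 3) F) : Matrix (Fin 2 × Fin 3) (Fin 2 × Fin 3) F) *ᵥ E v)
        map_add' := fun v v' => by rw [map_add, Matrix.mulVec_add, map_add]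
        map_smul' := fun c v => by rw [map_smul, Matrix.mulVec_smul, map_smul, RingHom.id_apply]
        left_inv := fun v => by
          change E.symm (_ *ᵥ E (E.symm _)) = _
          rw [LinearEquiv.apply_symm_apply, hGi', LinearEquiv.symm_apply_apply]
        right_inv := fun v => by
          change E.symm (_ *ᵥ E (E.symm _)) = _
          rw [LinearEquiv.apply_symm_apply, hGi, LinearEquiv.symm_apply_apply] }
    have hgv : ∀ v, (G : Matrix (Fin 2 × Fin 3) (Fin 2 × Fin 3) F) *ᵥ Ph s₁ s₂ v = Ph s₁ s₂ (g v) := by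
      intro v
      rw [← hEP, ← hEP]
      change _ = E (E.symm _)
      rw [LinearEquiv.apply_symm_apply]
    obtain ⟨p, a, b, c, d, hpv⟩ := hall g ⟨G, hG, hgv⟩
    -- the factors
    let S : Module.End F (Fin 2 → F) :=
      { toFun := fun x => (Cfsg.hermForm 2 F q x s₂ * ζ⁻¹) • (a • s₁ + c • s₂) - (Cfsg.hermForm 2 F q x s₁ * ζ⁻¹) • (b • s₁ + d • s₂)
        map_add' := fun x y => by rw [hermForm_add_left, hermForm_add_left]; module
        map_smul' := fun r x => by rw [hermForm_smul_left, hermForm_smul_left, RingHom.id_apply]; module }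
    have hS1 : S s₁ = a • s₁ + c • s₂ := by
      change (Cfsg.hermForm 2 F q s₁ s₂ * ζ⁻¹) • (a • s₁ + c • s₂) - (Cfsg.hermForm 2 F q s₁ s₁ * ζ⁻¹) • (b • s₁ + d • s₂) = _
      rw [h.f12, h.f11, mul_inv_cancel₀ h.ne, zero_mul, zero_smul, one_smul, sub_zero]
    have hS2 : S s₂ = b • s₁ + d • s₂ := by
      change (Cfsg.hermForm 2 F q s₂ s₂ * ζ⁻¹) • (a • s₁ + c • s₂) - (Cfsg.hermForm 2 F q s₂ s₁ * ζ⁻¹) • (b • s₁ + d • s₂) = _
      rw [h.f22, h.f21, neg_mul, mul_inv_cancel₀ h.ne, zero_mul, zero_smul, zero_sub, neg_smul, neg_neg, one_smul]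
    refine ⟨LinearMap.toMatrix' S, LinearMap.toMatrix' p, ?_⟩
    apply Matrix.ext_of_mulVec_single
    intro r
    obtain ⟨v, hv⟩ := hsurj (Pi.single r 1)
    have e1 : ∀ x, LinearMap.toMatrix' S *ᵥ x = S x := fun x => by rw [← Matrix.toLin'_apply, Matrix.toLin'_toMatrix']
    have e2 : ∀ x, LinearMap.toMatrix' p *ᵥ x = p x := fun x => by rw [← Matrix.toLin'_apply, Matrix.toLin'_toMatrix']
    rw [← hv, hgv, hpv, kr_Ph, e1, e1, e2, e2, hS1, hS2, Ph_apply]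
    simp only
    simp only [io_add, io_smul, Matrix.add_mulVec, Matrix.mulVec_add, Matrix.mulVec_smul, Matrix.smul_mulVec]
    abel

end Cfsg.Agent.SmallDim.UT
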