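import Cfsg.Agent.SmallDim.UT8

set_option autoImplicit false
set_option linter.unusedSectionVars false
set_option linter.unusedVariables false
set_option linter.style.haveILetI false

/-!
Tensor decompositions `2 ⊗ 3` in `SU_6(q)`, `q ≥ 3`.
-/

namespace Cfsg.Agent.SmallDim.UT

open scoped Matrix Kronecker
open Cfsg.Agent.Uni Cfsg.Geo Module
open Cfsg.Agent.UCase (SG suHom suHom_coe suHom_mem suHom_range not_le_tensorProductSubgroup)
open Matrix (GeneralLinearGroup)
open Cfsg.Agent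
open Cfsg.Agent.UTP (io io_add io_smul io_zero ioH_io io_ip kr_io InK KN XX IsPure rk starF dot_star vm_mulVec sg_le_of_transv
  exists_unitary_frame mem_tensor_iff mem_GU_iff reindex_mulVec')

variable {F : Type*} [Field F] [Fintype F] {q n : ℕ}

theorem tensor_maximal3 (hF : Fintype.card F = q ^ 2) (hq : 3 ≤ q) (e : Fin n ≃ Fin 2 × Fin 3) (P : GL (Fin n) F)
    {f₁ : (Fin 2 → F) → (Fin 2 → F) → F} {f₂ : (Fin 3 → F) → (Fin 3 → F) → F}
    (hf₁ : IsUnitaryFormPow q f₁) (hf₂ : IsUnitaryFormPow q f₂)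
    (hT : IsTensorFormStructure (fun x : F => x ^ q) (hermForm n F q) f₁ f₂ e P) :
    IsMaximalIn (SG n F q) (tensorProductSubgroup 2 3 e P ⊓ SG n F q) := by
  classical
  letI : StarRing F := starF hF
  have hs : ∀ x : F, star x = x ^ q := fun x => rfl
  have hn : n = 6 := by
    have := Fintype.card_congr e
    rwa [Fintype.card_fin, Fintype.card_prod, Fintype.card_fin, Fintype.card_fin] at this
  obtain ⟨P', hP', hTP⟩ := exists_unitary_frame hs hF (by omega) (by omega) e P hf₁ hf₂ hT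
  rw [hTP]
  -- the coordinate isomorphism
  let ψ : GL (Fin n) F ≃* GL (Fin 2 × Fin 3) F := (MulAut.conj P'⁻¹).trans (glReindex e)
  have hψ : ∀ x : GL (Fin n) F, ψ x = glReindex e (P'⁻¹ * x * P') := by
    intro x
    change glReindex e (P'⁻¹ * x * P'⁻¹⁻¹) = _
    rw [inv_inv]
  have hψT : ∀ x : GL (Fin n) F, x ∈ tensorProductSubgroup 2 3 e P' ↔ ψ x ∈ kroneckerSubgroup 2 3 F := by
    intro x; rw [mem_tensor_iff, hψ]
  have hψm : ∀ x : GL (Fin n) F, ((ψ x : GL (Fin 2 × Fin 3) F) : Matrix (Fin 2 × Fin 3) (Fin 2 × Fin 3) F) =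
      Matrix.reindex e e ((P'⁻¹ * x * P' : GL (Fin n) F) : Matrix (Fin n) (Fin n) F) := by
    intro x; rw [hψ]; rfl
  have hreU : ∀ M : Matrix (Fin n) (Fin n) F, (Matrix.reindex e e M)ᴴ * Matrix.reindex e e M =
      Matrix.reindex e e (Mᴴ * M) := by
    intro M
    rw [Matrix.conjTranspose_reindex]
    exact (map_mul (Matrix.reindexAlgEquiv F F e) _ _).symm
  have hre1 : Matrix.reindex e e (1 : Matrix (Fin n) (Fin n) F) = 1 := by
    rw [Matrix.reindex_apply, Matrix.submatrix_one_equiv]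
  have hψU : ∀ x : GL (Fin n) F, x ∈ GU n F q ↔
      ((ψ x : GL (Fin 2 × Fin 3) F) : Matrix (Fin 2 × Fin 3) (Fin 2 × Fin 3) F)ᴴ *
        ((ψ x : GL (Fin 2 × Fin 3) F) : Matrix (Fin 2 × Fin 3) (Fin 2 × Fin 3) F) = 1 := by
    intro x
    have h1 : x ∈ GU n F q ↔ P'⁻¹ * x * P' ∈ GU n F q := by
      constructor
      · intro h
        exact (GU n F q).mul_mem ((GU n F q).mul_mem ((GU n F q).inv_mem hP') h) hP'
      · intro h
        have h2 := (GU n F q).mul_mem ((GU n F q).mul_mem hP' h) ((GU n F q).inv_mem hP')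
        have h3 : P' * (P'⁻¹ * x * P') * P'⁻¹ = x := by group
        rwa [h3] at h2
    rw [h1, mem_GU_iff hs, hψm, hreU]
    constructor
    · intro h; rw [h, hre1]
    · intro h
      rw [← hre1] at h
      exact (Matrix.reindex e e).injective h
  have hψD : ∀ x : GL (Fin n) F, x ∈ specialLinear (Fin n) F ↔
      ((ψ x : GL (Fin 2 × Fin 3) F) : Matrix (Fin 2 × Fin 3) (Fin 2 × Fin 3) F).det = 1 := by
    intro x
    rw [AschCases.mem_specialLinear, hψm, Matrix.det_reindex_self, Units.val_mul, Units.val_mul,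
      Matrix.det_mul, Matrix.det_mul]
    have h1 : ((P'⁻¹ : GL (Fin n) F) : Matrix (Fin n) (Fin n) F).det *
        (P' : Matrix (Fin n) (Fin n) F).det = 1 := by
      rw [← Matrix.det_mul, ← Units.val_mul, inv_mul_cancel, Units.val_one, Matrix.det_one]
    have h2 : ((P'⁻¹ : GL (Fin n) F) : Matrix (Fin n) (Fin n) F).det *
        (x : Matrix (Fin n) (Fin n) F).det * (P' : Matrix (Fin n) (Fin n) F).det =
        (x : Matrix (Fin n) (Fin n) F).det := by
      rw [mul_right_comm, h1, one_mul]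
    rw [h2]
  refine ⟨lt_of_le_of_ne inf_le_right ?_, ?_⟩
  · intro h
    apply not_le_tensorProductSubgroup (F := F) hF (by omega) (le_refl 2) (by omega) e P'
    rw [← h]
    exact inf_le_left
  intro K₀ hK1 hK2
  set K : Subgroup (GL (Fin 2 × Fin 3) F) := K₀.map ψ.toMonoidHom with hK
  have hmemK : ∀ x : GL (Fin n) F, ψ x ∈ K ↔ x ∈ K₀ := by
    intro x
    rw [hK]
    constructor
    · rintro ⟨y, hy, hyx⟩
      have : y = x := ψ.injective hyx
      rwa [← this]
    · intro h; exact ⟨x, h, rfl⟩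
  -- pure elements of `K`
  have hpureK : ∀ (A : Matrix (Fin 2) (Fin 2) F) (B : Matrix (Fin 3) (Fin 3) F), Aᴴ * A = 1 → Bᴴ * B = 1 →
      A.det = 1 → B.det = 1 → InK K (A ⊗ₖ B) := by
    intro A B hA hB hAd hBd
    have hdet : (A ⊗ₖ B).det = 1 := by
      rw [Matrix.det_kronecker, hAd, hBd, one_pow, one_pow, one_mul]
    let g : GL (Fin 2 × Fin 3) F := Matrix.GeneralLinearGroup.mk'' (A ⊗ₖ B) (by rw [hdet]; exact isUnit_one)
    have hg : (g : Matrix (Fin 2 × Fin 3) (Fin 2 × Fin 3) F) = A ⊗ₖ B := rfl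
    obtain ⟨x, hx⟩ := ψ.surjective g
    refine ⟨g, ?_, hg⟩
    rw [← hx, hmemK]
    apply hK1
    refine Subgroup.mem_inf.2 ⟨?_, Subgroup.mem_inf.2 ⟨?_, ?_⟩⟩
    · rw [hψT, hx]
      exact ⟨Matrix.GeneralLinearGroup.mk'' A (by rw [hAd]; exact isUnit_one),
        Matrix.GeneralLinearGroup.mk'' B (by rw [hBd]; exact isUnit_one), rfl⟩
    · rw [hψU, hx, hg, Matrix.conjTranspose_kronecker, ← Matrix.mul_kronecker_mul, hA, hB,
        Matrix.one_kronecker_one]
    · rw [hψD, hx, hg, hdet]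
  have hsu : ∀ {m : ℕ} (s : SU m F q), ((s : Matrix.SpecialLinearGroup (Fin m) F) :
      Matrix (Fin m) (Fin m) F)ᴴ * ((s : Matrix.SpecialLinearGroup (Fin m) F) :
      Matrix (Fin m) (Fin m) F) = 1 := by
    intro m s
    have := (mem_GU_iff hs).1 (suHom_mem s).1
    rwa [suHom_coe] at this
  rcases main23 hs hF hq (K := K) (by
      rintro g ⟨x, hx, rfl⟩
      exact (hψU x).1 (hK2 hx).1)
    (fun s => hpureK _ _ (hsu s) (by rw [Matrix.conjTranspose_one, Matrix.one_mul]) (Matrix.SpecialLinearGroup.det_coe _)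
      Matrix.det_one)
    (fun s => hpureK _ _ (by rw [Matrix.conjTranspose_one, Matrix.one_mul]) (hsu s) Matrix.det_one
      (Matrix.SpecialLinearGroup.det_coe _)) with hall | hall
  · right
    refine le_antisymm hK2 (sg_le_of_transv hF (by omega) ?_)
    intro g v c hv0 hv hc hg
    -- the image of `g`
    set v' : Fin 2 × Fin 3 → F := (((P'⁻¹ : GL (Fin n) F) : Matrix (Fin n) (Fin n) F) *ᵥ v) ∘ e.symm with hv'
    have hP'i := (GU n F q).inv_mem hP'
    have hform : ∀ x y : Fin n → F, (x ∘ e.symm) ⬝ᵥ star (y ∘ e.symm) = hermForm n F q x y := by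
      intro x y
      rw [← dot_star hs]
      simp only [dotProduct, Pi.star_apply, Function.comp_apply]
      exact Fintype.sum_equiv e.symm _ _ fun j => rfl
    have hv'0 : v' ⬝ᵥ star v' = 0 := by
      rw [hv', hform]
      exact (hP'i v v).trans hv
    have h1 := hall v' hv'0 c hc
    have h2 : ((ψ (suHom n F q g) : GL (Fin 2 × Fin 3) F) : Matrix (Fin 2 × Fin 3) (Fin 2 × Fin 3) F) =
        1 + c • rk v' := by
      apply Matrix.ext_of_mulVec_single
      intro p
      set y : Fin 2 × Fin 3 → F := Pi.single p 1 with hy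
      obtain ⟨z, hz⟩ : ∃ z : Fin n → F, y = z ∘ e.symm := ⟨y ∘ e, by ext i; simp⟩
      rw [hψm, reindex_mulVec', Units.val_mul, Units.val_mul, ← Matrix.mulVec_mulVec,
        ← Matrix.mulVec_mulVec]
      have h3 : y ∘ e = z := by rw [hz]; ext i; simp
      have h4 : ((suHom n F q g : GL (Fin n) F) : Matrix (Fin n) (Fin n) F) *ᵥ
          ((P' : Matrix (Fin n) (Fin n) F) *ᵥ z) = (P' : Matrix (Fin n) (Fin n) F) *ᵥ z +
            (c * hermForm n F q ((P' : Matrix (Fin n) (Fin n) F) *ᵥ z) v) • v := hg _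
      have h5 : hermForm n F q ((P' : Matrix (Fin n) (Fin n) F) *ᵥ z) v =
          hermForm n F q z (((P'⁻¹ : GL (Fin n) F) : Matrix (Fin n) (Fin n) F) *ᵥ v) := by
        have h6 : hermForm n F q ((P' : Matrix (Fin n) (Fin n) F) *ᵥ z)
            ((P' : Matrix (Fin n) (Fin n) F) *ᵥ (((P'⁻¹ : GL (Fin n) F) : Matrix (Fin n) (Fin n) F) *ᵥ v)) =
            hermForm n F q z (((P'⁻¹ : GL (Fin n) F) : Matrix (Fin n) (Fin n) F) *ᵥ v) :=
          hP' z (((P'⁻¹ : GL (Fin n) F) : Matrix (Fin n) (Fin n) F) *ᵥ v)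
        rw [Matrix.mulVec_mulVec, ← Units.val_mul, mul_inv_cancel, Units.val_one, Matrix.one_mulVec] at h6
        exact h6
      have h7 : (1 + c • rk v') *ᵥ y = y + (c * (y ⬝ᵥ star v')) • v' := by
        rw [Matrix.add_mulVec, Matrix.one_mulVec, Matrix.smul_mulVec]
        congr 1
        unfold rk
        rw [Matrix.vecMulVec_mulVec, mul_smul]
        congr 1
        ext i
        simp [dotProduct_comm, mul_comm]
      rw [h3, h4, h7, Matrix.mulVec_add, Matrix.mulVec_smul, Matrix.mulVec_mulVec, ← Units.val_mul,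
        inv_mul_cancel, Units.val_one, Matrix.one_mulVec, h5, hz, hv', hform]
      rfl
    obtain ⟨k, hk, hke⟩ := h1
    have h3 : ψ (suHom n F q g) = k := Units.ext (by rw [h2, hke])
    rw [← hmemK, h3]
    exact hk
  · left
    refine le_antisymm (fun x hx => Subgroup.mem_inf.2 ⟨?_, hK2 hx⟩) hK1
    rw [hψT]
    obtain ⟨S, B, hSB⟩ := hall _ ⟨ψ x, (hmemK x).2 hx, rfl⟩
    have hdet : S.det ^ 3 * B.det ^ 2 ≠ 0 := by
      have h1 : (S ⊗ₖ B).det ≠ 0 := by
        rw [← hSB]; exact (Matrix.isUnits_det_units (ψ x)).ne_zero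
      rw [Matrix.det_kronecker, Fintype.card_fin, Fintype.card_fin] at h1
      exact h1
    have hS : S.det ≠ 0 := by
      intro h; apply hdet; rw [h, zero_pow (by omega), zero_mul]
    have hB : B.det ≠ 0 := by
      intro h; apply hdet; rw [h, zero_pow (by omega), mul_zero]
    exact ⟨Matrix.GeneralLinearGroup.mk'' S (isUnit_iff_ne_zero.2 hS),
      Matrix.GeneralLinearGroup.mk'' B (isUnit_iff_ne_zero.2 hB), hSB⟩


end Cfsg.Agent.SmallDim.UT
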