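import Cfsg.Agent.GeoMax.UniStd
import Cfsg.Agent.Uni.Sub
import Cfsg.Agent.Uni.SU

/-!
Unitary geometry for maximality arguments: centres of transvections in overgroups of `SU`.
-/

set_option autoImplicit false
set_option linter.unusedSectionVars false

namespace Cfsg.Agent.SmallDim.UniMax

open Matrix Cfsg.Geo Cfsg.Agent.GeoMax Cfsg.Agent.GeoMax.Un Module
open scoped MatrixGroups

variable {F : Type*} [Field F] [Fintype F] {n q : ℕ}

local notation "⟪" x ", " y "⟫" => Cfsg.hermForm _ _ q x y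

/-- many vectors orthogonal to few given ones -/
lemma exists_z (hF : Fintype.card F = q ^ 2) (S : Finset (Fin n → F)) (hS : 2 * S.card < n) {s : F}
    (hs : s ^ q = s) : ∃ z : Fin n → F, (∀ x ∈ S, ⟪z, x⟫ = 0) ∧ ⟪z, z⟫ = s := by
  by_cases hs0 : s = 0
  · subst hs0
    exact ⟨0, fun x _ => Uni.hermForm_zero_left x, Uni.hermForm_zero_left 0⟩
  set W := Submodule.span F (S : Set (Fin n → F)) with hW
  have hWc : finrank F W ≤ S.card := finrank_span_finset_le_card S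
  have hP := Uni.finrank_perp hF W
  by_contra hcon
  push Not at hcon
  have h1 : ∀ u ∈ Uni.perp q W, ⟪u, u⟫ = 0 := by
    intro u hu
    by_contra hne
    have hfix : (s / ⟪u, u⟫) ^ q = s / ⟪u, u⟫ := by
      rw [div_pow, hs, Uni.hermForm_self_pow_q hF]
    obtain ⟨c, hc⟩ := Uni.exists_norm_eq hF hfix
    apply hcon (c • u)
    · intro x hx
      rw [Uni.hermForm_smul_left, hu x (Submodule.subset_span hx), mul_zero]
    · rw [Uni.hermForm_smul_left, Uni.hermForm_smul_right, ← mul_assoc, ← pow_succ', hc, div_mul_cancel₀ _ hne]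
  have h2 : Uni.perp q W ≤ Uni.perp q (Uni.perp q W) := by
    intro u hu w hw
    exact Uni.hermForm_eq_zero_of_self hF _ h1 hu hw
  rw [Uni.perp_perp hF] at h2
  have h3 := Submodule.finrank_mono h2
  omega

lemma card_three [DecidableEq (Fin n → F)] (a b c : Fin n → F) : ({a, b, c} : Finset (Fin n → F)).card ≤ 3 :=
  Finset.card_le_three

/-- isotropic vectors of `c^⊥` not orthogonal to two given vectors outside `⟨c⟩` -/
lemma exists_iso (hF : Fintype.card F = q ^ 2) (hn : 9 ≤ n) (c w w' : Fin n → F)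
    (hw : w ∉ Submodule.span F {c}) (hw' : w' ∉ Submodule.span F {c}) :
    ∃ u : Fin n → F, ⟪u, u⟫ = 0 ∧ ⟪u, c⟫ = 0 ∧ ⟪w, u⟫ ≠ 0 ∧ ⟪w', u⟫ ≠ 0 := by
  classical
  have key : ∀ w : Fin n → F, w ∉ Submodule.span F {c} → ∃ y, ⟪y, c⟫ = 0 ∧ ⟪w, y⟫ ≠ 0 := by
    intro w hw
    by_contra hcon
    push Not at hcon
    apply hw
    rw [← Uni.perp_perp hF (Submodule.span F {c})]
    intro y hy
    apply hcon y
    exact (Uni.mem_perp_span hF).1 hy c rfl
  obtain ⟨y1, hy1c, hy1⟩ := key w hw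
  obtain ⟨y2, hy2c, hy2⟩ := key w' hw'
  obtain ⟨y, hyc, hyw, hyw'⟩ : ∃ y : Fin n → F, ⟪y, c⟫ = 0 ∧ ⟪w, y⟫ ≠ 0 ∧ ⟪w', y⟫ ≠ 0 := by
    by_cases h1 : ⟪w', y1⟫ = 0
    · by_cases h2 : ⟪w, y2⟫ = 0
      · refine ⟨y1 + y2, ?_, ?_, ?_⟩
        · rw [Uni.hermForm_add_left, hy1c, hy2c, add_zero]
        · rw [Uni.hermForm_add_right hF, h2, add_zero]; exact hy1
        · rw [Uni.hermForm_add_right hF, h1, zero_add]; exact hy2
      · exact ⟨y2, hy2c, h2, hy2⟩
    · exact ⟨y1, hy1c, hy1, h1⟩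
  obtain ⟨z, hz, hzz⟩ := exists_z hF ({c, w, w', y} : Finset (Fin n → F)) (by
    have : ({c, w, w', y} : Finset (Fin n → F)).card ≤ 4 := Finset.card_le_four
    omega) (s := -⟪y, y⟫) (by rw [Uni.neg_pow_q hF, Uni.hermForm_self_pow_q hF])
  have hzc := hz c (by simp)
  have hzw := hz w (by simp)
  have hzw' := hz w' (by simp)
  have hzy := hz y (by simp)
  have e1 := (Uni.hermForm_eq_zero_comm hF).1 hzw
  have e2 := (Uni.hermForm_eq_zero_comm hF).1 hzw'
  have e3 := (Uni.hermForm_eq_zero_comm hF).1 hzy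
  refine ⟨y + z, ?_, ?_, ?_, ?_⟩
  · rw [Uni.hermForm_add_left, Uni.hermForm_add_right hF, Uni.hermForm_add_right hF, hzy, e3, hzz]
    ring
  · rw [Uni.hermForm_add_left, hyc, hzc, add_zero]
  · rw [Uni.hermForm_add_right hF, e1, add_zero]; exact hyw
  · rw [Uni.hermForm_add_right hF, e2, add_zero]; exact hyw'

/-- decomposition of a vector as a combination of isotropic ones -/
lemma exists_decomp (hF : Fintype.card F = q ^ 2) (hn : 9 ≤ n) (c x : Fin n → F) :
    ∃ (y y' : Fin n → F) (a b : F), a ≠ 0 ∧ b ≠ 0 ∧ ⟪y, y⟫ = 0 ∧ ⟪y', y'⟫ = 0 ∧ x = a • y + b • y' ∧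
      (⟪x, c⟫ = 0 → ⟪y, c⟫ = 0 ∧ ⟪y', c⟫ = 0) ∧ ⟪y, x⟫ = ⟪x, x⟫ ∧ ⟪y', x⟫ = ⟪x, x⟫ := by
  classical
  obtain ⟨z, hz, hzz⟩ := exists_z hF ({c, x} : Finset (Fin n → F)) (by
    have : ({c, x} : Finset (Fin n → F)).card ≤ 2 := Finset.card_le_two
    omega) (s := -⟪x, x⟫) (by rw [Uni.neg_pow_q hF, Uni.hermForm_self_pow_q hF])
  obtain ⟨l, hl, hl2⟩ := Uni.exists_norm_one_sq_ne hF
  have hl1 : l - 1 ≠ 0 := by
    intro h
    apply hl2
    rw [sub_eq_zero.1 h, one_pow]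
  have hl0 : l ≠ 0 := by
    rintro rfl
    rw [zero_pow (by have := Uni.q_pos hF; omega)] at hl
    exact zero_ne_one hl
  have hzc := hz c (by simp)
  have hzx := hz x (by simp)
  have hxz := (Uni.hermForm_eq_zero_comm hF).1 hzx
  refine ⟨x + z, x + l • z, l / (l - 1), -(1 / (l - 1)), div_ne_zero hl0 hl1,
    neg_ne_zero.2 (div_ne_zero one_ne_zero hl1), ?_, ?_, ?_, ?_, ?_, ?_⟩
  · rw [Uni.hermForm_add_left, Uni.hermForm_add_right hF, Uni.hermForm_add_right hF, hzx, hxz, hzz]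
    ring
  · rw [Uni.hermForm_add_left, Uni.hermForm_add_right hF, Uni.hermForm_add_right hF, Uni.hermForm_smul_left,
      Uni.hermForm_smul_left, Uni.hermForm_smul_right, Uni.hermForm_smul_right, hzx, hxz, hzz]
    have : l * (l ^ q * -⟪x, x⟫) = (l ^ (q + 1)) * -⟪x, x⟫ := by ring
    rw [this, hl]
    ring
  · ext i
    simp only [Pi.add_apply, Pi.smul_apply, smul_eq_mul]
    field_simp
    ring
  · intro hxc
    rw [Uni.hermForm_add_left, Uni.hermForm_add_left, Uni.hermForm_smul_left, hxc, hzc]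
    simp
  · rw [Uni.hermForm_add_left, hzx, add_zero]
  · rw [Uni.hermForm_add_left, Uni.hermForm_smul_left, hzx, mul_zero, add_zero]

/-- the main closure lemma: additive subgroups of `V` invariant under the unitary transvections
centred in `c^⊥` -/
theorem closure_lemma (hF : Fintype.card F = q ^ 2) (hn : 9 ≤ n) (c : Fin n → F) (B : AddSubgroup (Fin n → F))
    (hB : ∀ w ∈ B, ∀ u : Fin n → F, ⟪u, u⟫ = 0 → ⟪u, c⟫ = 0 → ∀ a : F, a ^ q = -a → (a * ⟪w, u⟫) • u ∈ B)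
    {w : Fin n → F} (hw : w ∈ B) (hwc : ⟪w, c⟫ = 0) (hws : w ∉ Submodule.span F {c}) :
    ∀ x : Fin n → F, ⟪x, c⟫ = 0 → x ∈ B := by
  classical
  obtain ⟨a, ha0, ha⟩ := Uni.exists_skew hF
  have hnot : ∀ u x : Fin n → F, ⟪x, c⟫ = 0 → ⟪x, u⟫ ≠ 0 → u ∉ Submodule.span F {c} := by
    intro u x hxc hxu hu
    obtain ⟨k, rfl⟩ := Submodule.mem_span_singleton.1 hu
    rw [Uni.hermForm_smul_right, hxc, mul_zero] at hxu
    exact hxu rfl
  -- step 1
  obtain ⟨u0, hu0, hu0c, hwu0, -⟩ := exists_iso hF hn c w w hws hws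
  set k0 := a * ⟪w, u0⟫ with hk0
  have hk00 : k0 ≠ 0 := mul_ne_zero ha0 hwu0
  have hB0 : k0 • u0 ∈ B := hB w hw u0 hu0 hu0c a ha
  have hu0s := hnot u0 w hwc hwu0
  obtain ⟨u, huB, hu, huc, hus⟩ : ∃ u ∈ B, ⟪u, u⟫ = 0 ∧ ⟪u, c⟫ = 0 ∧ u ∉ Submodule.span F {c} := by
    refine ⟨k0 • u0, hB0, ?_, ?_, ?_⟩
    · rw [Uni.hermForm_smul_left, Uni.hermForm_smul_right, hu0, mul_zero, mul_zero]
    · rw [Uni.hermForm_smul_left, hu0c, mul_zero]
    · intro h
      apply hu0s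
      have := Submodule.smul_mem _ k0⁻¹ h
      rwa [smul_smul, inv_mul_cancel₀ hk00, one_smul] at this
  -- step 2
  have step2 : ∀ l : F, l • u ∈ B := by
    intro l
    obtain ⟨u', hu', hu'c, huu', -⟩ := exists_iso hF hn c u u hus hus
    set v := (a * ⟪u, u'⟫) • u' with hv
    have hvB : v ∈ B := hB u huB u' hu' hu'c a ha
    have hvv : ⟪v, v⟫ = 0 := by rw [hv, Uni.hermForm_smul_left, Uni.hermForm_smul_right, hu', mul_zero, mul_zero]
    have hvc : ⟪v, c⟫ = 0 := by rw [hv, Uni.hermForm_smul_left, hu'c, mul_zero]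
    have huv : ⟪v, u⟫ ≠ 0 := by
      rw [hv, Uni.hermForm_smul_left]
      exact mul_ne_zero (mul_ne_zero ha0 huu') (fun h => huu' ((Uni.hermForm_eq_zero_comm hF).1 h))
    set k := ⟪v, u⟫ with hk
    have huvk : ⟪u, v⟫ = k ^ q := by rw [hk, Uni.hermForm_symm hF]
    set β := l / (a * (a * k) * k) with hβ
    have hden : a * (a * k) * k ≠ 0 := mul_ne_zero (mul_ne_zero ha0 (mul_ne_zero ha0 huv)) huv
    obtain ⟨z, hz, hzz⟩ := exists_z hF ({c, u, v} : Finset (Fin n → F)) (by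
      have : ({c, u, v} : Finset (Fin n → F)).card ≤ 3 := Finset.card_le_three
      omega) (s := -(β ^ q * k ^ q + β * k)) (by
        rw [Uni.neg_pow_q hF, Uni.add_pow_q hF, mul_pow, Uni.pow_q_pow_q hF, Uni.pow_q_pow_q hF, mul_pow]
        ring)
    have hzc := hz c (by simp)
    have hzu := hz u (by simp)
    have hzv := hz v (by simp)
    have huz := (Uni.hermForm_eq_zero_comm hF).1 hzu
    have hvz := (Uni.hermForm_eq_zero_comm hF).1 hzv
    set y := u + β • v + z with hy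
    have hyy : ⟪y, y⟫ = 0 := by
      rw [hy]
      simp only [Uni.hermForm_add_left, Uni.hermForm_add_right hF, Uni.hermForm_smul_left, Uni.hermForm_smul_right,
        hu, hvv, hzu, hzv, huz, hvz, hzz, huvk, ← hk]
      ring
    have hyc : ⟪y, c⟫ = 0 := by
      rw [hy]
      simp only [Uni.hermForm_add_left, Uni.hermForm_smul_left, huc, hvc, hzc]
      ring
    have hvy : ⟪v, y⟫ = k := by
      rw [hy]
      simp only [Uni.hermForm_add_right hF, Uni.hermForm_smul_right, hvv, hvz, ← hk]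
      ring
    have hyu : ⟪y, u⟫ = β * k := by
      rw [hy]
      simp only [Uni.hermForm_add_left, Uni.hermForm_smul_left, hu, hzu, ← hk]
      ring
    have h1 := hB v hvB y hyy hyc a ha
    rw [hvy] at h1
    have h2 := hB _ h1 u hu huc a ha
    rw [Uni.hermForm_smul_left, hyu] at h2
    have h3 : a * (a * k * (β * k)) = l := by
      rw [hβ]
      have : a * (a * k * (l / (a * (a * k) * k) * k)) = (l / (a * (a * k) * k)) * (a * (a * k) * k) := by ring
      rw [this, div_mul_cancel₀ _ hden]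
    rwa [h3] at h2
  -- step 3
  have step3 : ∀ x : Fin n → F, ⟪x, x⟫ = 0 → ⟪x, c⟫ = 0 → x ∉ Submodule.span F {c} → x ∈ B := by
    intro x hx hxc hxs
    obtain ⟨u3, hu3, hu3c, huu3, hxu3⟩ := exists_iso hF hn c u x hus hxs
    have h1 : ∀ l : F, l • u3 ∈ B := by
      intro l
      have h2 := hB _ (step2 (l / (a * ⟪u, u3⟫))) u3 hu3 hu3c a ha
      rw [Uni.hermForm_smul_left] at h2
      have h3 : a * (l / (a * ⟪u, u3⟫) * ⟪u, u3⟫) = l := by
        have h4 : a * (l / (a * ⟪u, u3⟫) * ⟪u, u3⟫) = l / (a * ⟪u, u3⟫) * (a * ⟪u, u3⟫) := by ring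
        rw [h4, div_mul_cancel₀ _ (mul_ne_zero ha0 huu3)]
      rwa [h3] at h2
    have hu3x : ⟪u3, x⟫ ≠ 0 := fun h => hxu3 ((Uni.hermForm_eq_zero_comm hF).1 h)
    have h2 := hB _ (h1 (1 / (a * ⟪u3, x⟫))) x hx hxc a ha
    rw [Uni.hermForm_smul_left] at h2
    have h3 : a * (1 / (a * ⟪u3, x⟫) * ⟪u3, x⟫) = 1 := by
      have h4 : a * (1 / (a * ⟪u3, x⟫) * ⟪u3, x⟫) = 1 / (a * ⟪u3, x⟫) * (a * ⟪u3, x⟫) := by ring
      rw [h4, div_mul_cancel₀ _ (mul_ne_zero ha0 hu3x)]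
    rwa [h3, one_smul] at h2
  -- step 4
  intro x hxc
  by_cases hxx : ⟪x, x⟫ = 0
  · by_cases hxs : x ∈ Submodule.span F {c}
    · have h1 : ⟪u, x⟫ = 0 := by
        obtain ⟨k, rfl⟩ := Submodule.mem_span_singleton.1 hxs
        rw [Uni.hermForm_smul_right, huc, mul_zero]
      have h1' := (Uni.hermForm_eq_zero_comm hF).1 h1
      have h2 : x + u ∈ B := by
        apply step3
        · rw [Uni.hermForm_add_left, Uni.hermForm_add_right hF, Uni.hermForm_add_right hF, h1, h1', hxx, hu]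
          ring
        · rw [Uni.hermForm_add_left, hxc, huc, add_zero]
        · intro h
          apply hus
          have := Submodule.sub_mem _ h hxs
          rwa [add_sub_cancel_left] at this
      have h3 := B.sub_mem h2 huB
      rwa [add_sub_cancel_right] at h3
    · exact step3 x hxx hxc hxs
  · obtain ⟨y, y', α, β, hα, hβ, hy, hy', hxy, hc', hyx, hy'x⟩ := exists_decomp hF hn c x
    obtain ⟨hyc, hy'c⟩ := hc' hxc
    rw [hxy]
    have hcx := (Uni.hermForm_eq_zero_comm hF).1 hxc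
    have hns : ∀ (v : Fin n → F) (k : F), k ≠ 0 → ⟪v, x⟫ = ⟪x, x⟫ → k • v ∉ Submodule.span F {c} := by
      intro v k hk hv hmem
      have h1 : v ∈ Submodule.span F {c} := by
        have := Submodule.smul_mem _ k⁻¹ hmem
        rwa [smul_smul, inv_mul_cancel₀ hk, one_smul] at this
      obtain ⟨m, hm⟩ := Submodule.mem_span_singleton.1 h1
      apply hxx
      rw [← hv, ← hm, Uni.hermForm_smul_left, hcx, mul_zero]
    refine B.add_mem (step3 _ ?_ ?_ (hns y α hα hyx)) (step3 _ ?_ ?_ (hns y' β hβ hy'x))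
    · rw [Uni.hermForm_smul_left, Uni.hermForm_smul_right, hy, mul_zero, mul_zero]
    · rw [Uni.hermForm_smul_left, hyc, mul_zero]
    · rw [Uni.hermForm_smul_left, Uni.hermForm_smul_right, hy', mul_zero, mul_zero]
    · rw [Uni.hermForm_smul_left, hy'c, mul_zero]

end Cfsg.Agent.SmallDim.UniMax
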