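import Cfsg.Agent.SmallDim.UniBase

/-!
Overgroups of `SU` in `GL`: either they contain `SL` or they consist of similarities.
-/

set_option autoImplicit false
set_option linter.unusedSectionVars false

namespace Cfsg.Agent.SmallDim.UniMax

open Matrix Cfsg.Geo Cfsg.Agent.GeoMax Cfsg.Agent.GeoMax.Un Module
open scoped MatrixGroups

variable {F : Type*} [Field F] [Fintype F] {n q : ℕ}

local notation "⟪" x ", " y "⟫" => Cfsg.hermForm _ _ q x y

lemma cv_add (hF : Fintype.card F = q ^ 2) (v w : Fin n → F) : cv q (v + w) = cv q v + cv q w := by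
  ext i; exact Uni.add_pow_q hF _ _

lemma cv_zero (hF : Fintype.card F = q ^ 2) : cv q (0 : Fin n → F) = 0 := by
  ext i; exact Uni.zero_pow_q hF

lemma cv_neg (hF : Fintype.card F = q ^ 2) (v : Fin n → F) : cv q (-v) = -cv q v := by
  ext i; exact Uni.neg_pow_q hF _

lemma cv_cv (hF : Fintype.card F = q ^ 2) (v : Fin n → F) : cv q (cv q v) = v := by
  ext i; exact Uni.pow_q_pow_q hF _

/-- every transvection with centre `c` is in `M` -/
def Full (M : Subgroup (GL (Fin n) F)) (c : Fin n → F) : Prop := ∀ w, w ⬝ᵥ c = 0 → HasT M c w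

/-- all unitary transvections lie in `M` -/
def AllUT (q : ℕ) (M : Subgroup (GL (Fin n) F)) : Prop :=
  ∀ v : Fin n → F, Cfsg.hermForm n F q v v = 0 → UT q M v

lemma AllUT.tvec_mem {M : Subgroup (GL (Fin n) F)} (h : AllUT q M) {u : Fin n → F} (hu : ⟪u, u⟫ = 0)
    {a : F} (ha : a ^ q = -a) (h0 : (a • cv q u) ⬝ᵥ u = 0) : tvec u (a • cv q u) h0 ∈ M := by
  obtain ⟨h1, h2⟩ := (hasT_iff _ _ _).1 (h u hu a ha)
  exact h2

lemma skew_dot {u : Fin n → F} (hu : ⟪u, u⟫ = 0) (a : F) : (a • cv q u) ⬝ᵥ u = 0 := by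
  rw [smul_dotProduct, cv_dotProduct, hu, smul_zero]

lemma full_of_extra (hF : Fintype.card F = q ^ 2) (hn : 9 ≤ n) {M : Subgroup (GL (Fin n) F)} (hM : AllUT q M)
    {c w : Fin n → F} (hw : HasT M c (cv q w)) (hws : w ∉ Submodule.span F {c}) : Full M c := by
  have hwc : ⟪w, c⟫ = 0 := by
    have h1 := hw.1
    rw [cv_dotProduct] at h1
    exact (Uni.hermForm_eq_zero_comm hF).1 h1
  let B : AddSubgroup (Fin n → F) :=
    { carrier := {w | HasT M c (cv q w)}
      add_mem' := fun {x y} hx hy => by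
        change HasT M c (cv q (x + y))
        rw [cv_add hF]; exact HasT.add_right hx hy
      zero_mem' := by
        change HasT M c (cv q 0)
        rw [cv_zero hF]; exact HasT.zero_right _ _
      neg_mem' := fun {x} hx => by
        change HasT M c (cv q (-x))
        rw [cv_neg hF]; exact HasT.neg_right hx }
  have key := closure_lemma hF hn c B (w := w) (by
    intro x hx u hu huc a ha
    change HasT M c (cv q _)
    have hcu : ⟪c, u⟫ = 0 := (Uni.hermForm_eq_zero_comm hF).1 huc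
    have h0 := skew_dot hu a
    have hg := hM.tvec_mem hu ha h0
    have hgU : tvec u (a • cv q u) h0 ∈ Cfsg.GU n F q := (tvec_mem hF h0 ha).1
    have h1 := HasT.conj (show HasT M c (cv q x) from hx) hg
    rw [tvec_mulVec, smul_dotProduct, cv_dotProduct, hcu, smul_zero, zero_smul, add_zero, cv_vecMul_inv hgU,
      tvec_mulVec, cv_add hF] at h1
    have h2 := HasT.sub_right h1 (show HasT M c (cv q x) from hx)
    rw [add_sub_cancel_left, smul_dotProduct, cv_dotProduct, smul_eq_mul] at h2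
    exact h2) hw hwc hws
  intro w' hw'
  have h1 := key (cv q w') (by
    rw [Uni.hermForm_eq_zero_comm hF, ← cv_dotProduct, cv_cv hF]; exact hw')
  change HasT M c (cv q (cv q w')) at h1
  rwa [cv_cv hF] at h1

lemma Full.conj {M : Subgroup (GL (Fin n) F)} {c : Fin n → F} (h : Full M c) {g : GL (Fin n) F} (hg : g ∈ M) :
    Full M ((g : Matrix (Fin n) (Fin n) F) *ᵥ c) := by
  intro w hw
  have h1 := HasT.conj (h (w ᵥ* (g : Matrix (Fin n) (Fin n) F)) (by rw [← Matrix.dotProduct_mulVec]; exact hw)) hg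
  rwa [Matrix.vecMul_vecMul, ← Units.val_mul, mul_inv_cancel, Units.val_one, Matrix.vecMul_one] at h1

lemma Full.smul {M : Subgroup (GL (Fin n) F)} {c : Fin n → F} (h : Full M c) (k : F) : Full M (k • c) := by
  intro w hw
  by_cases hk : k = 0
  · subst hk; rw [zero_smul]; exact HasT.zero_left _ _
  · rw [hasT_smul_left_iff hk]
    apply h
    rw [smul_dotProduct]
    rwa [dotProduct_smul] at hw

lemma exists_sep (c c' : Fin n → F) (h : c ∉ Submodule.span F {c'}) : ∃ w : Fin n → F, w ⬝ᵥ c = 1 ∧ w ⬝ᵥ c' = 0 := by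
  obtain ⟨w, hw1, hw2⟩ := exists_dot_of_notMem h
  exact ⟨(w ⬝ᵥ c)⁻¹ • w, by rw [smul_dotProduct, smul_eq_mul, inv_mul_cancel₀ hw2],
    by rw [smul_dotProduct, hw1 c' (Submodule.mem_span_singleton_self c'), smul_zero]⟩

lemma Full.add {M : Subgroup (GL (Fin n) F)} {c c' : Fin n → F} (h : Full M c) (h' : Full M c') :
    Full M (c + c') := by
  by_cases hs : c ∈ Submodule.span F {c'}
  · obtain ⟨k, rfl⟩ := Submodule.mem_span_singleton.1 hs
    have : k • c' + c' = (k + 1) • c' := by rw [add_smul, one_smul]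
    rw [this]
    exact h'.smul _
  · obtain ⟨w, hw1, hw2⟩ := exists_sep c c' hs
    obtain ⟨h0, hm⟩ := (hasT_iff _ _ _).1 (h' w hw2)
    have h1 := h.conj hm
    rwa [tvec_mulVec, hw1, one_smul] at h1

theorem sl_le_of_full (hF : Fintype.card F = q ^ 2) (hn : 9 ≤ n) {M : Subgroup (GL (Fin n) F)} (hM : AllUT q M)
    {c : Fin n → F} (hc0 : c ≠ 0) (hc : Full M c) : specialLinear (Fin n) F ≤ M := by
  obtain ⟨a, ha0, ha⟩ := Uni.exists_skew hF
  -- the invariant subspace
  let D : Submodule F (Fin n → F) :=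
    { carrier := {x | Full M x}
      add_mem' := fun {x y} hx hy => Full.add hx hy
      zero_mem' := fun w _ => HasT.zero_left _ _
      smul_mem' := fun k x hx => Full.smul hx k }
  have hD : ∀ x ∈ D, ∀ u : Fin n → F, ⟪u, u⟫ = 0 → ⟪x, u⟫ ≠ 0 → u ∈ D := by
    intro x hx u hu hxu
    have h0 := skew_dot hu a
    have hg := hM.tvec_mem hu ha h0
    have h1 : Full M _ := Full.conj (show Full M x from hx) hg
    rw [tvec_mulVec, smul_dotProduct, cv_dotProduct] at h1
    have h2 := D.sub_mem (show _ ∈ D from h1) hx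
    rw [add_sub_cancel_left, smul_eq_mul] at h2
    have h3 := D.smul_mem (a * ⟪x, u⟫)⁻¹ h2
    rwa [smul_smul, inv_mul_cancel₀ (mul_ne_zero ha0 hxu), one_smul] at h3
  have hiso : ∀ u : Fin n → F, ⟪u, u⟫ = 0 → u ∈ D := by
    intro u hu
    by_cases hu0 : u = 0
    · rw [hu0]; exact D.zero_mem
    obtain ⟨v, hv, hcv, huv⟩ := Uni.exists_isotropic_form_ne_two hF (by omega) hc0 hu0
    have h1 := hD c hc v hv hcv
    exact hD v h1 u hu (fun h => huv ((Uni.hermForm_eq_zero_comm hF).1 h))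
  have hall : ∀ x, x ∈ D := by
    intro x
    obtain ⟨y, y', α, β, -, -, hy, hy', hxy, -⟩ := exists_decomp hF hn (0 : Fin n → F) x
    rw [hxy]
    exact D.add_mem (D.smul_mem _ (hiso y hy)) (D.smul_mem _ (hiso y' hy'))
  have : Nontrivial (Fin n) := Fin.nontrivial_iff_two_le.2 (by omega)
  exact specialLinear_le_of_hasT M (fun v w hw => hall v w hw)

/-- the similarity alternative -/
theorem sim_or_sl (hF : Fintype.card F = q ^ 2) (hn : 9 ≤ n) {M : Subgroup (GL (Fin n) F)} (hM : AllUT q M) :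
    M ≤ similarityGroup (Cfsg.hermForm n F q) ∨ specialLinear (Fin n) F ≤ M := by
  classical
  by_cases hext : ∃ c w : Fin n → F, HasT M c (cv q w) ∧ w ∉ Submodule.span F {c} ∧ c ≠ 0
  · right
    obtain ⟨c, w, hw, hws, hc0⟩ := hext
    exact sl_le_of_full hF hn hM hc0 (full_of_extra hF hn hM hw hws)
  left
  push Not at hext
  obtain ⟨a, ha0, ha⟩ := Uni.exists_skew hF
  intro g hg
  -- images of isotropic vectors
  have h1 : ∀ v : Fin n → F, ⟪v, v⟫ = 0 → v ≠ 0 → ∃ μ : F,
      ∀ x, ⟪(g : Matrix (Fin n) (Fin n) F) *ᵥ x, (g : Matrix (Fin n) (Fin n) F) *ᵥ v⟫ = μ * ⟪x, v⟫ := by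
    intro v hv hv0
    have hgv0 : (g : Matrix (Fin n) (Fin n) F) *ᵥ v ≠ 0 := by
      intro h
      apply hv0
      apply gl_mulVec_injective g
      simpa using h
    have h2 := (hM v hv a ha).conj hg
    set w' := (a • cv q v) ᵥ* ((g⁻¹ : GL (Fin n) F) : Matrix (Fin n) (Fin n) F) with hw'
    have h3 : cv q v ᵥ* ((g⁻¹ : GL (Fin n) F) : Matrix (Fin n) (Fin n) F) = a⁻¹ • w' := by
      rw [hw', Matrix.smul_vecMul, smul_smul, inv_mul_cancel₀ ha0, one_smul]
    have h4 : ∀ x, ⟪x, v⟫ = a⁻¹ * (w' ⬝ᵥ ((g : Matrix (Fin n) (Fin n) F) *ᵥ x)) := by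
      intro x
      rw [← smul_eq_mul, ← smul_dotProduct, ← h3, ← Matrix.dotProduct_mulVec, gl_inv_mulVec, cv_dotProduct]
    rw [← cv_cv hF w'] at h2
    by_contra hcon
    push Not at hcon
    by_cases hs : cv q w' ∈ Submodule.span F {(g : Matrix (Fin n) (Fin n) F) *ᵥ v}
    · obtain ⟨k, hk⟩ := Submodule.mem_span_singleton.1 hs
      have hw'' : w' = k ^ q • cv q ((g : Matrix (Fin n) (Fin n) F) *ᵥ v) := by
        rw [← cv_smul, hk, cv_cv hF]
      by_cases hk0 : k = 0
      · -- then `⟪x, v⟫ = 0` for all `x`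
        obtain ⟨x, hx⟩ := Uni.exists_form_ne (q := q) hF hv0
        have h5 := h4 x
        rw [hw'', hk0, Uni.zero_pow_q hF, zero_smul, zero_dotProduct, mul_zero] at h5
        exact hx ((Uni.hermForm_eq_zero_comm hF).1 h5)
      · obtain ⟨x, hx⟩ := hcon (a / k ^ q)
        apply hx
        rw [h4 x, hw'', smul_dotProduct, cv_dotProduct, smul_eq_mul]
        have : k ^ q ≠ 0 := pow_ne_zero _ hk0
        field_simp
    · exact hgv0 (hext _ _ h2 hs)
  choose! μ hμ using h1
  -- constancy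
  have h2 : ∀ v w : Fin n → F, ⟪v, v⟫ = 0 → v ≠ 0 → ⟪w, w⟫ = 0 → w ≠ 0 → ⟪v, w⟫ ≠ 0 → μ w = (μ v) ^ q := by
    intro v w hv hv0 hw hw0 hvw
    have h3 := hμ w hw hw0 v
    have h4 := hμ v hv hv0 w
    have h5 := congrArg (fun t => t ^ q) h4
    simp only [mul_pow] at h5
    rw [Uni.hermForm_symm hF, Uni.hermForm_symm hF, h3] at h5
    exact mul_right_cancel₀ hvw h5
  have h3 : ∀ v w : Fin n → F, ⟪v, v⟫ = 0 → v ≠ 0 → ⟪w, w⟫ = 0 → w ≠ 0 → μ v = μ w := by
    intro v w hv hv0 hw hw0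
    obtain ⟨u, hu, hvu, hwu⟩ := Uni.exists_isotropic_form_ne_two (q := q) hF (by omega) hv0 hw0
    have hu0 : u ≠ 0 := by
      rintro rfl
      exact hvu (Uni.hermForm_zero_right hF v)
    have h4 := h2 v u hv hv0 hu hu0 hvu
    have h5 := h2 w u hw hw0 hu hu0 hwu
    rw [h4] at h5
    exact (Uni.pow_q_inj hF).1 h5
  obtain ⟨v0, hv00, hv0⟩ := Uni.exists_isotropic (F := F) (n := n) hF (by omega)
  set m := μ v0 with hm
  have h4 : ∀ v : Fin n → F, ⟪v, v⟫ = 0 → ∀ x,
      ⟪(g : Matrix (Fin n) (Fin n) F) *ᵥ x, (g : Matrix (Fin n) (Fin n) F) *ᵥ v⟫ = m * ⟪x, v⟫ := by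
    intro v hv x
    by_cases hv' : v = 0
    · rw [hv', Matrix.mulVec_zero, Uni.hermForm_zero_right hF, Uni.hermForm_zero_right hF, mul_zero]
    · rw [hμ v hv hv' x, h3 v v0 hv hv' hv0 hv00]
  have h5 : ∀ x y : Fin n → F,
      ⟪(g : Matrix (Fin n) (Fin n) F) *ᵥ x, (g : Matrix (Fin n) (Fin n) F) *ᵥ y⟫ = m * ⟪x, y⟫ := by
    intro x y
    obtain ⟨z, z', α, β, -, -, hz, hz', hxy, -⟩ := exists_decomp hF hn (0 : Fin n → F) y
    rw [hxy, Matrix.mulVec_add, Matrix.mulVec_smul, Matrix.mulVec_smul, Uni.hermForm_add_right hF,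
      Uni.hermForm_smul_right, Uni.hermForm_smul_right, h4 z hz, h4 z' hz', Uni.hermForm_add_right hF,
      Uni.hermForm_smul_right, Uni.hermForm_smul_right]
    ring
  have hm0 : m ≠ 0 := by
    intro h0
    obtain ⟨x, hx⟩ := Uni.exists_form_ne (q := q) hF (u := (g : Matrix (Fin n) (Fin n) F) *ᵥ v0) (by
      intro h
      apply hv00
      apply gl_mulVec_injective g
      simpa using h)
    apply hx
    have h6 := h5 v0 (((g⁻¹ : GL (Fin n) F) : Matrix (Fin n) (Fin n) F) *ᵥ x)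
    rwa [gl_mulVec_inv, h0, zero_mul] at h6
  exact ⟨Units.mk0 m hm0, h5⟩

theorem allUT_of_su_le (hF : Fintype.card F = q ^ 2) {M : Subgroup (GL (Fin n) F)}
    (h : Cfsg.GU n F q ⊓ specialLinear (Fin n) F ≤ M) : AllUT q M := by
  intro v hv c hc
  exact (hasT_iff _ _ _).2 ⟨skew_dot hv c, h (tvec_mem hF (skew_dot hv c) hc)⟩

/-- the similarity group of the standard hermitian form is maximal in `SL` -/
theorem std_sim_maximal (hF : Fintype.card F = q ^ 2) (hn : 9 ≤ n) :
    IsMaximalIn (specialLinear (Fin n) F) (similarityGroup (Cfsg.hermForm n F q) ⊓ specialLinear (Fin n) F) := by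
  classical
  refine ⟨lt_of_le_of_ne inf_le_right ?_, ?_⟩
  · intro heq
    -- the transvection `e₁ ↦ e₁ + e₀`
    let i0 : Fin n := ⟨0, by omega⟩
    let i1 : Fin n := ⟨1, by omega⟩
    have hne : i1 ≠ i0 := by simp [i0, i1]
    have hne' : i0 ≠ i1 := hne.symm
    have h0 : (Pi.single i1 (1 : F) : Fin n → F) ⬝ᵥ Pi.single i0 1 = 0 := by
      simp [hne']
    have h1 : tvec (Pi.single i0 (1 : F)) (Pi.single i1 1) h0 ∈ specialLinear (Fin n) F := tvec_det _ _ _
    rw [← heq] at h1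
    obtain ⟨⟨c, hc⟩, -⟩ := h1
    have h2 := hc (Pi.single i0 1) (Pi.single i0 1)
    have h3 := hc (Pi.single i1 1) (Pi.single i1 1)
    rw [tvec_mulVec] at h2 h3
    have hq := Uni.q_ne_zero hF
    have e00 : Cfsg.hermForm n F q (Pi.single i0 1) (Pi.single i0 1) = 1 := by
      rw [Uni.hermForm_single_left]; simp
    have e11 : Cfsg.hermForm n F q (Pi.single i1 1) (Pi.single i1 1) = 1 := by
      rw [Uni.hermForm_single_left]; simp
    have e01 : Cfsg.hermForm n F q (Pi.single i0 1) (Pi.single i1 1) = 0 := by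
      rw [Uni.hermForm_single_left, Pi.single_eq_of_ne hne', zero_pow hq]
    have e10 : Cfsg.hermForm n F q (Pi.single i1 1) (Pi.single i0 1) = 0 := by
      rw [Uni.hermForm_single_left, Pi.single_eq_of_ne hne, zero_pow hq]
    rw [h0, zero_smul, add_zero, e00, mul_one] at h2
    have h4 : (Pi.single i1 (1 : F) : Fin n → F) ⬝ᵥ Pi.single i1 1 = 1 := by simp
    rw [h4, one_smul, Uni.hermForm_add_left, Uni.hermForm_add_right hF, Uni.hermForm_add_right hF, e00, e11, e01,
      e10, ← h2] at h3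
    exact one_ne_zero (α := F) (by linear_combination h3)
  · intro M hGM hMS
    have hsu : Cfsg.GU n F q ⊓ specialLinear (Fin n) F ≤ M := by
      intro g hg
      apply hGM
      refine ⟨⟨1, fun u v => ?_⟩, hg.2⟩
      rw [Units.val_one, one_mul]
      exact mem_GU.1 hg.1 u v
    rcases sim_or_sl hF hn (allUT_of_su_le hF hsu) with h | h
    · left
      exact le_antisymm (le_inf h hMS) hGM
    · right
      exact le_antisymm hMS h

end Cfsg.Agent.SmallDim.UniMax
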