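import Cfsg.Agent.GeoMax.UniGLMain

/-!
The stabiliser of a pair of complementary totally singular subspaces of dimension at least three in `SU_2k(q)`.
-/

set_option autoImplicit false
set_option linter.unusedSectionVars false
set_option linter.unusedVariables false

namespace Cfsg.Agent.SmallDim.UniPair

open Matrix Module
open scoped MatrixGroups
open Cfsg.Geo Cfsg.Agent.Uni Cfsg.Agent.GeoMax Cfsg.Agent.GeoMax.UGL

variable {F : Type*} [Field F] [Fintype F] {n q : ℕ}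

local notation "⟪" u ", " v "⟫" => hermForm n F q u v

section

variable {M : Subgroup (SU n F q)} {X X' A B : Submodule F (Fin n → F)}

/-- no transvection of `M` has its centre in `X` -/
def NoTr (M : Subgroup (SU n F q)) (X : Submodule F (Fin n → F)) : Prop :=
  ∀ v ∈ X, v ≠ 0 → ∀ d, d ≠ 0 → d ^ q = -d → ¬ HasTr M v d

lemma sym0 (hF : Fintype.card F = q ^ 2) {u v : Fin n → F} (h : ⟪u, v⟫ = 0) : ⟪v, u⟫ = 0 := (hermForm_eq_zero_comm hF).1 h

lemma mem_of_hyp (hF : Fintype.card F = q ^ 2) (hX : GoodPair M X X') {v : Fin n → F} (hvX : v ∈ X) (hv0 : v ≠ 0) {a : Fin n → F}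
    (ha : ∀ u ∈ X', ⟪u, v⟫ = 0 → ⟪u, a⟫ = 0) : ∃ c : F, a - c • v ∈ X' := by
  obtain ⟨z, hz⟩ := Uni.exists_form_ne (q := q) hF hv0
  obtain ⟨x, hx, y, hy, rfl⟩ := hX.exists_add z
  rw [hermForm_add_right hF, hX.ts v hvX x hx, zero_add] at hz
  refine ⟨hermForm n F q a y / hermForm n F q v y, ?_⟩
  apply (hX.symm hF).mem_of_perp hF
  intro u hu
  -- the combination of `u` and `y` orthogonal to `v`
  have hz' : hermForm n F q y v ≠ 0 := fun h0 => hz ((hermForm_eq_zero_comm hF).1 h0)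
  have h1 := ha (u - (hermForm n F q u v / hermForm n F q y v) • y) (X'.sub_mem hu (X'.smul_mem _ hy)) (by
    rw [hermForm_sub_left, hermForm_smul_left, div_mul_cancel₀ _ hz', sub_self])
  have h2 := (hermForm_eq_zero_comm hF).1 h1
  rw [hermForm_sub_right hF, hermForm_smul_right, div_pow, hermForm_symm hF, hermForm_symm hF] at h2
  rw [hermForm_sub_left, hermForm_smul_left]
  field_simp at h2 ⊢
  linear_combination h2

lemma mem_of_rho (hF : Fintype.card F = q ^ 2) (hX : GoodPair M X X') (hno : NoTr M X)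
    {v w : Fin n → F} (hv : v ∈ X) (hv0 : v ≠ 0) (hww : ⟪w, w⟫ = 0) (hwv : ⟪w, v⟫ = 0) (hr : HasR M v w) :
    ∃ k : F, w - k • v ∈ X' := by
  refine mem_of_hyp hF hX hv hv0 fun u hu huv => ?_
  by_contra hne
  obtain ⟨d, hd, hdq, hdM⟩ := exists_tr hF (hX.ts v hv v hv) hww (hX.ts' u hu u hu) (sym0 hF hwv) (sym0 hF huv) hr
    (hX.smul_mem hv hu (sym0 hF huv)) (fun h => hne (sym0 hF h))
  exact hno v hv hv0 d hd hdq hdM

lemma dich' (hF : Fintype.card F = q ^ 2) (hA : GoodPair M A B) (hX : GoodPair M X X')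
    (hno : NoTr M X) {v : Fin n → F} (hvX : v ∈ X) (hv0 : v ≠ 0)
    {a b : Fin n → F} (ha : a ∈ A) (hb : b ∈ B) (hab : ⟪a, b⟫ = 0) (hav : ⟪a, v⟫ = 0) (hbv : ⟪b, v⟫ = 0) :
    (∃ c : F, a - c • v ∈ X') ∨ (∃ c : F, b - c • v ∈ X') := by
  rcases hA.dich hF hX hno hvX hv0 ha hb hab hav hbv with h | h
  · exact Or.inl (mem_of_hyp hF hX hvX hv0 h)
  · exact Or.inr (mem_of_hyp hF hX hvX hv0 h)

lemma eq_zero_of_both (hF : Fintype.card F = q ^ 2) (hA : GoodPair M A B) {x : Fin n → F} (h1 : x ∈ A) (h2 : x ∈ B) : x = 0 := by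
  apply hermForm_nondeg (q := q) hF
  intro z
  obtain ⟨a, ha, b, hb, rfl⟩ := hA.exists_add z
  rw [hermForm_add_right hF, hA.ts x h1 a ha, hA.ts' x h2 b hb, add_zero]

/-- a vector of `A ∩ X'` orthogonal to `v` -/
lemma claim_a (hF : Fintype.card F = q ^ 2) (hA : GoodPair M A B) (hX : GoodPair M X X') (hnoA : NoTr M A)
    {α β : Fin n → F} (hα : α ∈ A) (hβ : β ∈ B) (hv : α + β ∈ X) {w : Fin n → F} (hw : w ∈ A) (hwv : ⟪w, α + β⟫ = 0)
    (hw' : w ∈ X') (hw0 : w ≠ 0) : ∃ k : F, α = k • w := by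
  have h1 := (hX.symm hF).mem w hw' (α + β) hv hwv
  obtain ⟨k, hk⟩ := mem_of_rho hF hA hnoA hw hw0 (hX.ts _ hv _ hv) (sym0 hF hwv) h1
  refine ⟨k, ?_⟩
  have h3 : α - k • w ∈ B := by
    have := B.sub_mem hk hβ
    have e : α + β - k • w - β = α - k • w := by abel
    rwa [e] at this
  have h4 : α - k • w = 0 := eq_zero_of_both hF hA (A.sub_mem hα (A.smul_mem _ hw)) h3
  exact sub_eq_zero.1 h4

lemma two_a (hF : Fintype.card F = q ^ 2) (hA : GoodPair M A B) (hX : GoodPair M X X') (hnoA : NoTr M A)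
    {α β : Fin n → F} (hα : α ∈ A) (hβ : β ∈ B) (hv : α + β ∈ X) (hq : ⟪α, β⟫ ≠ 0) {a a' : Fin n → F} (ha : a ∈ A) (ha' : a' ∈ A)
    (hav : ⟪a, α + β⟫ = 0) (hav' : ⟪a', α + β⟫ = 0) (hind : ∀ c c' : F, c' • a = c • a' → c = 0 ∧ c' = 0)
    (h : ∃ c : F, a - c • (α + β) ∈ X') (h' : ∃ c : F, a' - c • (α + β) ∈ X') : False := by
  obtain ⟨c, hc⟩ := h
  obtain ⟨c', hc'⟩ := h'
  have key : ∀ w ∈ A, ⟪w, α + β⟫ = 0 → w ∈ X' → w = 0 := by
    intro w hw hwv hw'
    by_contra hw0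
    obtain ⟨k, hk⟩ := claim_a hF hA hX hnoA hα hβ hv hw hwv hw' hw0
    apply hq
    rw [hk, hermForm_smul_left]
    rw [hermForm_add_right hF, hA.ts w hw α hα, zero_add] at hwv
    rw [hwv, mul_zero]
  have h3 : c' • a - c • a' = 0 := by
    apply key
    · exact A.sub_mem (A.smul_mem _ ha) (A.smul_mem _ ha')
    · rw [hermForm_sub_left, hermForm_smul_left, hermForm_smul_left, hav, hav']; ring
    · have h4 := X'.sub_mem (X'.smul_mem c' hc) (X'.smul_mem c hc')
      have e : c' • (a - c • (α + β)) - c • (a' - c' • (α + β)) = c' • a - c • a' := by module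
      rwa [e] at h4
  obtain ⟨hc0, hc0'⟩ := hind c c' (sub_eq_zero.1 h3)
  rw [hc0, zero_smul, sub_zero] at hc
  have h5 := key a ha hav hc
  have := hind 0 1 (by rw [h5, smul_zero, zero_smul])
  exact one_ne_zero this.2

lemma zl (u : Fin n → F) : ⟪(0 : Fin n → F), u⟫ = 0 := by
  have := hermForm_smul_left (F := F) (n := n) (q := q) 0 0 u
  rwa [zero_smul, zero_mul] at this

/-- the quadratic form attached to `A, B` vanishes on `X` -/
lemma q_zero (hF : Fintype.card F = q ^ 2) (hA : GoodPair M A B) (hX : GoodPair M X X')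
    (hno : NoTr M X) (hnoA : NoTr M A) (hnoB : NoTr M B) (hdA : 3 ≤ Module.finrank F A)
    {α β : Fin n → F} (hα : α ∈ A) (hβ : β ∈ B) (hv : α + β ∈ X) : ⟪α, β⟫ = 0 := by
  by_contra hq
  have hα0 : α ≠ 0 := by rintro rfl; exact hq (zl _)
  have hv0 : α + β ≠ 0 := by
    intro h
    have h1 : ⟪α + β, β⟫ = 0 := by rw [h, zl]
    rw [hermForm_add_left, hA.ts' β hβ β hβ, add_zero] at h1
    exact hq h1
  -- the vectors
  obtain ⟨a₁, ha₁, ha₁0, ha₁v⟩ := exists_perp_list hF (Y := A) [β] (by simp; omega)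
  obtain ⟨z, hz⟩ := Uni.exists_form_ne (q := q) hF ha₁0
  obtain ⟨a₂, ha₂, ha₂0, ha₂v⟩ := exists_perp_list hF (Y := A) [β, z] (by simp; omega)
  have h1β : ⟪a₁, β⟫ = 0 := ha₁v β (by simp)
  have h2β : ⟪a₂, β⟫ = 0 := ha₂v β (by simp)
  have h2z : ⟪a₂, z⟫ = 0 := ha₂v z (by simp)
  -- independence
  have hn1 : a₁ ∉ Submodule.span F ({a₂, α} : Set (Fin n → F)) := by
    intro hm
    obtain ⟨s, t, hst⟩ := Submodule.mem_span_pair.1 hm
    have e1 : ⟪a₁, β⟫ = s * ⟪a₂, β⟫ + t * ⟪α, β⟫ := by rw [← hst, hermForm_add_left, hermForm_smul_left, hermForm_smul_left]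
    rw [h1β, h2β, mul_zero, zero_add] at e1
    have ht : t = 0 := by
      rcases mul_eq_zero.1 e1.symm with h | h
      · exact h
      · exact absurd h hq
    have e2 : ⟪a₁, z⟫ = s * ⟪a₂, z⟫ + t * ⟪α, z⟫ := by rw [← hst, hermForm_add_left, hermForm_smul_left, hermForm_smul_left]
    rw [h2z, ht, mul_zero, zero_mul, add_zero] at e2
    exact hz e2
  have hn2 : a₂ ∉ Submodule.span F ({a₁, α} : Set (Fin n → F)) := by
    intro hm
    obtain ⟨s, t, hst⟩ := Submodule.mem_span_pair.1 hm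
    have e1 : ⟪a₂, β⟫ = s * ⟪a₁, β⟫ + t * ⟪α, β⟫ := by rw [← hst, hermForm_add_left, hermForm_smul_left, hermForm_smul_left]
    rw [h1β, h2β, mul_zero, zero_add] at e1
    have ht : t = 0 := by
      rcases mul_eq_zero.1 e1.symm with h | h
      · exact h
      · exact absurd h hq
    have e2 : ⟪a₂, z⟫ = s * ⟪a₁, z⟫ + t * ⟪α, z⟫ := by rw [← hst, hermForm_add_left, hermForm_smul_left, hermForm_smul_left]
    rw [h2z, ht, zero_mul, add_zero] at e2
    rcases mul_eq_zero.1 e2.symm with h | h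
    · rw [h, ht, zero_smul, zero_smul, add_zero] at hst
      exact ha₂0 hst.symm
    · exact hz h
  -- dual vectors
  have hdual : ∀ (x y : Fin n → F), x ∈ A → y ∈ A → x ∉ Submodule.span F ({y, α} : Set (Fin n → F)) →
      ∃ b ∈ B, ⟪x, b⟫ = 1 ∧ ⟪y, b⟫ = 0 ∧ ⟪α, b⟫ = 0 := by
    intro x y hx hy hxy
    obtain ⟨z, hz, hxz⟩ : ∃ z, (∀ w ∈ Submodule.span F ({y, α} : Set (Fin n → F)), ⟪w, z⟫ = 0) ∧ ⟪x, z⟫ ≠ 0 := by
      by_contra hcon
      push Not at hcon
      apply hxy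
      rw [← Uni.perp_perp (q := q) hF (Submodule.span F ({y, α} : Set (Fin n → F))), Uni.mem_perp]
      intro w hw
      exact hcon w fun w' hw' => sym0 hF ((Uni.mem_perp).1 hw w' hw')
    have hzy := hz y (Submodule.subset_span (by simp))
    have hzα := hz α (Submodule.subset_span (by simp))
    obtain ⟨a, ha, b, hb, rfl⟩ := hA.exists_add z
    rw [hermForm_add_right hF, hA.ts x hx a ha, zero_add] at hxz
    rw [hermForm_add_right hF, hA.ts y hy a ha, zero_add] at hzy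
    rw [hermForm_add_right hF, hA.ts α hα a ha, zero_add] at hzα
    refine ⟨((⟪x, b⟫)⁻¹ ^ q) • b, B.smul_mem _ hb, ?_, ?_, ?_⟩
    · rw [hermForm_smul_right, pow_q_pow_q hF, inv_mul_cancel₀ hxz]
    · rw [hermForm_smul_right, hzy, mul_zero]
    · rw [hermForm_smul_right, hzα, mul_zero]
  obtain ⟨b₁, hb₁, e11, e21, eα1⟩ := hdual a₁ a₂ ha₁ ha₂ hn1
  obtain ⟨b₂, hb₂, e22, e12, eα2⟩ := hdual a₂ a₁ ha₂ ha₁ hn2
  have hav : ∀ a ∈ A, ⟪a, β⟫ = 0 → ⟪a, α + β⟫ = 0 := by
    intro a ha h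
    rw [hermForm_add_right hF, hA.ts a ha α hα, h, add_zero]
  have hbv : ∀ b ∈ B, ⟪α, b⟫ = 0 → ⟪b, α + β⟫ = 0 := by
    intro b hb h
    rw [hermForm_add_right hF, hA.ts' b hb β hβ, sym0 hF h, add_zero]
  have hv' : β + α ∈ X := by rw [add_comm]; exact hv
  have hq' : ⟪β, α⟫ ≠ 0 := fun h => hq (sym0 hF h)
  have A1 := hav a₁ ha₁ h1β
  have A2 := hav a₂ ha₂ h2β
  have A3 := hav (a₁ + a₂) (A.add_mem ha₁ ha₂) (by rw [hermForm_add_left, h1β, h2β, add_zero])
  have B1 := hbv b₁ hb₁ eα1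
  have B2 := hbv b₂ hb₂ eα2
  have B3 := hbv (b₁ - b₂) (B.sub_mem hb₁ hb₂) (by rw [hermForm_sub_right hF, eα1, eα2, sub_zero])
  have D1 := dich' hF hA hX hno hv hv0 ha₁ hb₂ e12 A1 B2
  have D2 := dich' hF hA hX hno hv hv0 ha₂ hb₁ e21 A2 B1
  have D3 := dich' hF hA hX hno hv hv0 (A.add_mem ha₁ ha₂) (B.sub_mem hb₁ hb₂)
    (by rw [hermForm_add_left, hermForm_sub_right hF, hermForm_sub_right hF, e11, e12, e21, e22]; ring) A3 B3
  have TA : ∀ a a' : Fin n → F, a ∈ A → a' ∈ A → ⟪a, α + β⟫ = 0 → ⟪a', α + β⟫ = 0 →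
      (∀ c c' : F, c' • a = c • a' → c = 0 ∧ c' = 0) → (∃ c : F, a - c • (α + β) ∈ X') →
      (∃ c : F, a' - c • (α + β) ∈ X') → False := fun a a' h1 h3 h4 h5 h6 h7 h8 =>
    two_a hF hA hX hnoA hα hβ hv hq h1 h3 h4 h5 h6 h7 h8
  have TB : ∀ b b' : Fin n → F, b ∈ B → b' ∈ B → ⟪b, α + β⟫ = 0 → ⟪b', α + β⟫ = 0 →
      (∀ c c' : F, c' • b = c • b' → c = 0 ∧ c' = 0) → (∃ c : F, b - c • (α + β) ∈ X') →
      (∃ c : F, b' - c • (α + β) ∈ X') → False := by
    intro b b' h1 h3 h4 h5 h6 h7 h8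
    rw [add_comm α β] at h4 h5 h7 h8
    exact two_a hF (hA.symm hF) hX hnoB hβ hα hv' hq' h1 h3 h4 h5 h6 h7 h8
  -- independence from the pairing
  have ind : ∀ (x y z z' : Fin n → F) (p r s t : F), ⟪x, z⟫ = p → ⟪y, z⟫ = r → ⟪x, z'⟫ = s → ⟪y, z'⟫ = t → p * t - r * s ≠ 0 →
      ∀ c c' : F, c' • x = c • y → c = 0 ∧ c' = 0 := by
    intro x y z z' p r s t h1 h3 h4 h5 h6 c c' h
    have e1 := congrArg (fun w => ⟪w, z⟫) h
    have e3 := congrArg (fun w => ⟪w, z'⟫) h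
    simp only [hermForm_smul_left, h1, h3, h4, h5] at e1 e3
    constructor
    · have : c * (p * t - r * s) = 0 := by linear_combination p * e3.symm - s * e1.symm
      exact (mul_eq_zero.1 this).resolve_right h6
    · have : c' * (p * t - r * s) = 0 := by linear_combination t * e1 - r * e3
      exact (mul_eq_zero.1 this).resolve_right h6
  have h10 : ⟪b₁, a₁⟫ = 1 := by rw [← hermForm_symm hF, e11, one_pow]
  have h11 : ⟪b₁, a₂⟫ = 0 := sym0 hF e21
  have h12 : ⟪b₂, a₁⟫ = 0 := sym0 hF e12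
  have h13 : ⟪b₂, a₂⟫ = 1 := by rw [← hermForm_symm hF, e22, one_pow]
  rcases D1 with d1 | d1 <;> rcases D2 with d2 | d2 <;> rcases D3 with d3 | d3
  · exact TA a₁ a₂ ha₁ ha₂ A1 A2 (ind a₁ a₂ b₁ b₂ 1 0 0 1 e11 e21 e12 e22 (by simp)) d1 d2
  · exact TA a₁ a₂ ha₁ ha₂ A1 A2 (ind a₁ a₂ b₁ b₂ 1 0 0 1 e11 e21 e12 e22 (by simp)) d1 d2
  · exact TA a₁ (a₁ + a₂) ha₁ (A.add_mem ha₁ ha₂) A1 A3
      (ind a₁ (a₁ + a₂) b₁ b₂ 1 1 0 1 e11 (by rw [hermForm_add_left, e11, e21, add_zero]) e12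
        (by rw [hermForm_add_left, e12, e22, zero_add]) (by simp)) d1 d3
  · exact TB b₁ (b₁ - b₂) hb₁ (B.sub_mem hb₁ hb₂) B1 B3
      (ind b₁ (b₁ - b₂) a₁ a₂ 1 1 0 (-1) h10 (by rw [hermForm_sub_left, h10, h12, sub_zero]) h11
        (by rw [hermForm_sub_left, h11, h13]; ring) (by simp)) d2 d3
  · exact TA a₂ (a₁ + a₂) ha₂ (A.add_mem ha₁ ha₂) A2 A3
      (ind a₂ (a₁ + a₂) b₁ b₂ 0 1 1 1 e21 (by rw [hermForm_add_left, e11, e21, add_zero]) e22
        (by rw [hermForm_add_left, e12, e22, zero_add]) (by simp)) d2 d3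
  · exact TB b₂ (b₁ - b₂) hb₂ (B.sub_mem hb₁ hb₂) B2 B3
      (ind b₂ (b₁ - b₂) a₁ a₂ 0 1 1 (-1) h12 (by rw [hermForm_sub_left, h10, h12, sub_zero]) h13
        (by rw [hermForm_sub_left, h11, h13]; ring) (by simp)) d1 d3
  · exact TB b₂ b₁ hb₂ hb₁ B2 B1
      (ind b₂ b₁ a₁ a₂ 0 1 1 0 h12 h10 h13 h11 (by simp)) d1 d2
  · exact TB b₂ b₁ hb₂ hb₁ B2 B1
      (ind b₂ b₁ a₁ a₂ 0 1 1 0 h12 h10 h13 h11 (by simp)) d1 d2

/-- `X` is the sum of its intersections with `A` and `B` -/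
lemma split_mem (hF : Fintype.card F = q ^ 2) (hA : GoodPair M A B) (hX : GoodPair M X X')
    (hno : NoTr M X) (hnoA : NoTr M A) (hnoB : NoTr M B) (hdA : 3 ≤ Module.finrank F A)
    {α β : Fin n → F} (hα : α ∈ A) (hβ : β ∈ B) (hv : α + β ∈ X) : α ∈ X ∧ β ∈ X := by
  have h1 : α ∈ X := by
    apply hX.mem_of_perp hF
    intro y hy
    obtain ⟨α', hα', β', hβ', rfl⟩ := hA.exists_add y
    have e1 := q_zero hF hA hX hno hnoA hnoB hdA hα hβ hv
    have e2 := q_zero hF hA hX hno hnoA hnoB hdA hα' hβ' hy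
    have key : ∀ c : F, (c * ⟪α', β⟫) ^ q = c * ⟪α', β⟫ := by
      intro c
      have e3 := q_zero hF hA hX hno hnoA hnoB hdA (A.add_mem hα (A.smul_mem c hα')) (B.add_mem hβ (B.smul_mem c hβ')) (by
        have := X.add_mem hv (X.smul_mem c hy)
        have e : α + β + c • (α' + β') = (α + c • α') + (β + c • β') := by module
        rwa [e] at this)
      have e4 := hX.ts _ hv _ (X.smul_mem c hy)
      rw [hermForm_add_left, hermForm_add_right hF, hermForm_add_right hF, e1, hermForm_smul_left, hermForm_smul_left, hermForm_smul_right,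
        hermForm_smul_right, e2] at e3
      rw [hermForm_smul_right, hermForm_add_left, hermForm_add_right hF, hermForm_add_right hF, hA.ts α hα α' hα', hA.ts' β hβ β' hβ',
        ← hermForm_symm hF α' β] at e4
      rw [mul_pow]
      linear_combination e4 - e3
    have k1 := key 1
    rw [one_mul] at k1
    obtain ⟨c, hc⟩ := exists_pow_q_ne hF
    have k2 := key c
    rw [mul_pow, k1, ← sub_eq_zero, ← sub_mul] at k2
    have k3 := (mul_eq_zero.1 k2).resolve_left (sub_ne_zero.2 hc)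
    have e4 := hX.ts _ hv _ hy
    rw [hermForm_add_left, hermForm_add_right hF, hermForm_add_right hF, hA.ts α hα α' hα', hA.ts' β hβ β' hβ', zero_add, add_zero,
      sym0 hF k3, add_zero] at e4
    rw [hermForm_add_right hF, hA.ts α hα α' hα', zero_add, e4]
  refine ⟨h1, ?_⟩
  have := X.sub_mem hv h1
  rwa [add_sub_cancel_left] at this

/-- In the absence of transvections, every good pair is the standard one. -/
lemma eq_of_no_tr3 (hF : Fintype.card F = q ^ 2) (hA : GoodPair M A B)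
    (hdA : 3 ≤ Module.finrank F A) (hdB : 3 ≤ Module.finrank F B)
    (hX : GoodPair M X X')
    (hno : NoTr M X) (hno' : NoTr M X') (hnoA : NoTr M A) (hnoB : NoTr M B) : X ≤ A ∨ X ≤ B := by
  by_contra hcon
  push Not at hcon
  obtain ⟨v, hvX, hvA, hvB⟩ := Symp.exists_notMem_notMem hcon.1 hcon.2
  obtain ⟨α, hα, β, hβ, rfl⟩ := hA.exists_add v
  have hα0 : α ≠ 0 := by rintro rfl; exact hvB (by rwa [zero_add])
  have hβ0 : β ≠ 0 := by rintro rfl; exact hvA (by rwa [add_zero])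
  have hv0 : α + β ≠ 0 := by intro h; rw [h] at hvA; exact hvA A.zero_mem
  obtain ⟨hαX, hβX⟩ := split_mem hF hA hX hno hnoA hnoB hdA hα hβ hvX
  obtain ⟨a, ha, ha0, hav⟩ := exists_perp_list hF (Y := A) [α + β] (by simp; omega)
  obtain ⟨b, hb, hb0, hbv⟩ := exists_perp_list hF (Y := B) [α + β, a] (by simp; omega)
  have hav' := hav _ (List.mem_singleton_self _)
  have hbv' := hbv (α + β) (by simp)
  have hba := hbv a (by simp)
  -- the final contradiction
  have fin : ∀ (A B : Submodule F (Fin n → F)) (α β : Fin n → F), GoodPair M A B → NoTr M A → NoTr M B →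
      3 ≤ Module.finrank F A → α ∈ A → β ∈ B → α ∈ X → β ∈ X → α ≠ 0 → β ≠ 0 →
      ∀ a ∈ A, a ≠ 0 → ⟪a, α + β⟫ = 0 → ∀ c : F, a - c • (α + β) ∈ X' → False := by
    intro A B α β hA hnoA hnoB hdA hα hβ hαX hβX hα0 hβ0 a ha ha0 hav c hc
    by_cases hc0 : c = 0
    · rw [hc0, zero_smul, sub_zero] at hc
      obtain ⟨k, hk⟩ := claim_a hF hA hX hnoA hα hβ (X.add_mem hαX hβX) ha hav hc ha0
      apply hα0
      apply eq_zero_of_both hF hX hαX
      rw [hk]; exact X'.smul_mem _ hc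
    · have e : a - c • (α + β) = (a - c • α) + (-c) • β := by module
      rw [e] at hc
      have h3 := (split_mem hF hA (hX.symm hF) hno' hnoA hnoB hdA (A.sub_mem ha (A.smul_mem _ hα)) (B.smul_mem _ hβ) hc).2
      have h4 := X'.smul_mem (-c)⁻¹ h3
      rw [smul_smul, inv_mul_cancel₀ (neg_ne_zero.2 hc0), one_smul] at h4
      exact hβ0 (eq_zero_of_both hF hX hβX h4)
  rcases dich' hF hA hX hno hvX hv0 ha hb (sym0 hF hba) hav' hbv' with ⟨c, hc⟩ | ⟨c, hc⟩
  · exact fin A B α β hA hnoA hnoB hdA hα hβ hαX hβX hα0 hβ0 a ha ha0 hav' c hc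
  · rw [add_comm α β] at hbv' hc
    exact fin B A β α (hA.symm hF) hnoB hnoA hdB hβ hα hβX hαX hβ0 hα0 b hb hb0 hbv' c hc

end

/-- **Maximality of `GL_k(q²).2` in `SU_2k(q)`**, `k ≥ 3`. -/
theorem glPair_maximal3 (hF : Fintype.card F = q ^ 2) {k : ℕ} (hk : 3 ≤ k) (hn : 4 ≤ n)
    (D : Fin 2 → Submodule F (Fin n → F)) (hD : IsMDecomposition k D)
    (hts : ∀ i, IsTotallySingularFor (hermForm n F q) (D i)) :
    IsMaximalIn (Cfsg.GU n F q ⊓ specialLinear (Fin n) F)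
      (decompositionStabilizer D ⊓ (Cfsg.GU n F q ⊓ specialLinear (Fin n) F)) := by
  have hd0 := hD.finrank_eq 0
  have hd1 := hD.finrank_eq 1
  have hcompl : IsCompl (D 0) (D 1) := by
    constructor
    · exact hD.indep.pairwiseDisjoint (by decide)
    · rw [codisjoint_iff, ← hD.iSup_eq_top]
      apply le_antisymm
      · exact sup_le (le_iSup D 0) (le_iSup D 1)
      · refine iSup_le fun i => ?_
        fin_cases i
        · exact le_sup_left
        · exact le_sup_right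
  have hact : ∀ (g : SU n F q) (x : Fin n → F),
      Matrix.toLin' ((Un.suGL n F q g : GL (Fin n) F) : Matrix (Fin n) (Fin n) F) x = act g x := by
    intro g x
    rw [Matrix.toLin'_apply, Un.suGL_coe]; rfl
  have hmemH : ∀ g : SU n F q, ((∀ x ∈ D 0, act g x ∈ D 0) ∧ (∀ x ∈ D 1, act g x ∈ D 1)) ∨
      ((∀ x ∈ D 0, act g x ∈ D 1) ∧ (∀ x ∈ D 1, act g x ∈ D 0)) →
      g ∈ (decompositionStabilizer D).comap (Un.suGL n F q) := by
    intro g hg
    have hfm : ∀ W : Submodule F (Fin n → F), finrank F (W.map (Matrix.toLin' ((Un.suGL n F q g : GL (Fin n) F) :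
        Matrix (Fin n) (Fin n) F))) = finrank F W := by
      intro W
      refine (Submodule.equivMapOfInjective _ ?_ W).finrank_eq.symm
      intro x y hxy
      rw [hact, hact] at hxy
      exact act_inj.1 hxy
    have hmap : ∀ i j, (∀ x ∈ D i, act g x ∈ D j) → (D i).map (Matrix.toLin' ((Un.suGL n F q g : GL (Fin n) F) :
        Matrix (Fin n) (Fin n) F)) = D j := by
      intro i j h
      refine Submodule.eq_of_le_of_finrank_eq ?_ ?_
      · rintro _ ⟨x, hx, rfl⟩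
        rw [hact]; exact h x hx
      · rw [hfm, hD.finrank_eq, hD.finrank_eq]
    rcases hg with ⟨h1, h3⟩ | ⟨h1, h3⟩
    · refine ⟨1, fun i => ?_⟩
      rw [Equiv.Perm.one_apply]
      fin_cases i
      · exact hmap 0 0 h1
      · exact hmap 1 1 h3
    · refine ⟨Equiv.swap 0 1, fun i => ?_⟩
      fin_cases i
      · exact (hmap 0 1 h1).trans (by simp)
      · exact (hmap 1 0 h3).trans (by simp)
  refine isMaximalIn_SU _ (fun M hHM => ?_) ?_
  · by_cases hMH : M = (decompositionStabilizer D).comap (Un.suGL n F q)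
    · exact Or.inl hMH
    right
    have hgood : GoodPair M (D 0) (D 1) := by
      refine ⟨hts 0, hts 1, hcompl.sup_eq_top, fun x hx x' hx' h0 => ?_⟩
      obtain ⟨g, hg⟩ := exists_eich hF x x' 0 (hts 0 x hx x hx) h0 (by
        rw [hts 1 x' hx' x' hx', zero_pow_q hF]; ring)
      refine ⟨g, hHM (hmemH g (Or.inl ⟨?_, ?_⟩)), hg⟩
      · intro y hy
        rw [hg y, hts 0 y hy x hx, zero_smul, add_zero, mul_zero, zero_smul, add_zero]
        exact (D 0).sub_mem hy ((D 0).smul_mem _ hx)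
      · intro y hy
        rw [hg y, hts 1 y hy x' hx', zero_smul, sub_zero, zero_mul, zero_smul, add_zero]
        exact (D 1).add_mem hy ((D 1).smul_mem _ hx')
    obtain ⟨s, hs0, hs1⟩ := exists_swap hF (hts 0) (hts 1) hcompl hd0 hd1
    have hsM : s ∈ M := hHM (hmemH s (Or.inr ⟨hs0, hs1⟩))
    have hfin : (∃ a ∈ D 0, a ≠ 0 ∧ ∃ d, d ≠ 0 ∧ d ^ q = -d ∧ HasTr M a d) → M = ⊤ := by
      rintro ⟨a, ha, ha0, d, hd, hdq, hm⟩
      have h0 := hgood.all_of_tr hF (by omega) ha ha0 hd hdq hm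
      refine eq_top_of_tr hF hn (hgood.all_iso hF h0 fun x hx hx0 c hc => ?_)
      have h3 : act s (act s⁻¹ x) = x := act_act_inv s x
      rw [← h3]
      have hfm : (D 0).map (actL s) = D 1 := by
        refine Submodule.eq_of_le_of_finrank_eq ?_ ?_
        · rintro _ ⟨y, hy, rfl⟩; exact hs0 y hy
        · rw [(Submodule.equivMapOfInjective _ (actL_injective s) (D 0)).finrank_eq.symm, hd0, hd1]
      rw [← hfm] at hx
      obtain ⟨y, hy, rfl⟩ := hx
      rw [actL_apply, act_inv_act]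
      refine (h0 y hy ?_ c hc).conj hsM
      rintro rfl
      exact hx0 (act_zero s)
    by_contra hcon
    have hno0 : ∀ v ∈ D 0, v ≠ 0 → ∀ d, d ≠ 0 → d ^ q = -d → ¬ HasTr M v d := fun v hv hv0 d hd hdq hm =>
      hcon (hfin ⟨v, hv, hv0, d, hd, hdq, hm⟩)
    have hno1 : ∀ v ∈ D 1, v ≠ 0 → ∀ d, d ≠ 0 → d ^ q = -d → ¬ HasTr M v d := by
      intro v hv hv0 d hd hdq hm
      exact hno0 _ (hs1 v hv) (act_ne_zero hv0) d hd hdq (hm.conj hsM)
    have hnomap : ∀ g ∈ M, ∀ W : Submodule F (Fin n → F),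
        (∀ v ∈ W, v ≠ 0 → ∀ d, d ≠ 0 → d ^ q = -d → ¬ HasTr M v d) →
        ∀ v ∈ W.map (actL g), v ≠ 0 → ∀ d, d ≠ 0 → d ^ q = -d → ¬ HasTr M v d := by
      rintro g hg W hW _ ⟨x, hx, rfl⟩ hv0 d hd hdq hm
      refine hW x hx (by rintro rfl; exact hv0 (act_zero g)) d hd hdq ?_
      have h3 := hm.conj (M.inv_mem hg)
      rwa [actL_apply, act_inv_act] at h3
    apply hMH
    refine le_antisymm (fun g hg => hmemH g ?_) hHM
    have hX := hgood.map hg
    have e0 := eq_of_no_tr3 hF hgood (by omega) (by omega) hX (hnomap g hg _ hno0) (hnomap g hg _ hno1) hno0 hno1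
    have e1 := eq_of_no_tr3 hF hgood (by omega) (by omega) (hX.symm hF) (hnomap g hg _ hno1) (hnomap g hg _ hno0) hno0 hno1
    have hinj := actL_injective g
    have hdm : ∀ i, finrank F ((D i).map (actL g)) = k := fun i => by
      rw [(Submodule.equivMapOfInjective _ hinj (D i)).finrank_eq.symm, hD.finrank_eq]
    have hdisj : ∀ j, ¬ ((D 0).map (actL g) ≤ D j ∧ (D 1).map (actL g) ≤ D j) := by
      rintro j ⟨h3, h4⟩
      have h5 := Submodule.eq_of_le_of_finrank_eq h3 (by rw [hdm, hD.finrank_eq])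
      have h6 := Submodule.eq_of_le_of_finrank_eq h4 (by rw [hdm, hD.finrank_eq])
      have h7 : (D 0).map (actL g) = (D 1).map (actL g) := by rw [h5, h6]
      have h8 := Submodule.map_injective_of_injective hinj h7
      have h9 := hcompl.inf_eq_bot
      rw [h8, inf_idem] at h9
      rw [h9, finrank_bot] at hd1
      omega
    have hto : ∀ i j, (D i).map (actL g) ≤ D j → ∀ x ∈ D i, act g x ∈ D j :=
      fun i j h x hx => h ⟨x, hx, rfl⟩
    rcases e0 with e0 | e0 <;> rcases e1 with e1 | e1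
    · exact absurd ⟨e0, e1⟩ (hdisj 0)
    · exact Or.inl ⟨hto 0 0 e0, hto 1 1 e1⟩
    · exact Or.inr ⟨hto 0 1 e0, hto 1 0 e1⟩
    · exact absurd ⟨e0, e1⟩ (hdisj 1)
  · intro heq
    -- a transvection outside
    obtain ⟨b, hb, hb0⟩ := Submodule.exists_mem_ne_zero_of_ne_bot (p := D 1) (by
      intro h; rw [h, finrank_bot] at hd1; omega)
    obtain ⟨z, hz⟩ := Uni.exists_form_ne (q := q) hF hb0
    have hzt : z ∈ D 0 ⊔ D 1 := by rw [hcompl.sup_eq_top]; trivial
    obtain ⟨a₀, ha₀, b', hb', rfl⟩ := Submodule.mem_sup.1 hzt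
    rw [hermForm_add_right hF, hts 1 b hb b' hb', add_zero] at hz
    obtain ⟨κ, hκ, hκq⟩ := exists_skew hF
    -- rescale
    set a := ((κ / hermForm n F q b a₀) ^ q) • a₀ with ha_def
    have ha : a ∈ D 0 := (D 0).smul_mem _ ha₀
    have hba : hermForm n F q b a = κ := by
      rw [ha_def, hermForm_smul_right, pow_q_pow_q hF, div_mul_cancel₀ _ hz]
    have hab : hermForm n F q a b = -κ := by rw [← hermForm_symm hF, hba, hκq]
    have hiso : hermForm n F q (a + b) (a + b) = 0 := by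
      rw [hermForm_add_left, hermForm_add_right hF, hermForm_add_right hF, hts 0 a ha a ha, hts 1 b hb b hb, hab, hba]
      ring
    obtain ⟨g, hg⟩ := exists_eich hF (a + b) 0 κ hiso (hermForm_zero_right hF _) (by
      rw [hermForm_zero_right hF, hκq]; ring)
    rw [isEich_zero_iff hF] at hg
    have hmem : g ∈ (decompositionStabilizer D).comap (Un.suGL n F q) := by rw [heq]; trivial
    obtain ⟨σ, hσ⟩ := hmem
    have h1 := hσ 0
    obtain ⟨x, hx, hx0, hxb⟩ := exists_perp_list hF (Y := D 0) [b] (by simp; omega)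
    have hxb' := hxb b (by simp)
    have hxm : act g x ∈ D (σ 0) := by
      rw [← h1]; exact ⟨x, hx, hact g x⟩
    rw [hg x, hermForm_add_right hF, hts 0 x hx a ha, hxb', add_zero, mul_zero, zero_smul, add_zero] at hxm
    have ham : act g a ∈ D (σ 0) := by
      rw [← h1]; exact ⟨a, ha, hact g a⟩
    rw [hg a, hermForm_add_right hF, hts 0 a ha a ha, zero_add, hab] at ham
    rcases (show σ 0 = 0 ∨ σ 0 = 1 by omega) with h | h
    · rw [h] at ham
      have h3 := (D 0).sub_mem ((D 0).sub_mem ham ha) ((D 0).smul_mem (κ * -κ) ha)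
      have e : a + (κ * -κ) • (a + b) - a - (κ * -κ) • a = (κ * -κ) • b := by module
      rw [e] at h3
      have hkk : κ * -κ ≠ 0 := mul_ne_zero hκ (neg_ne_zero.2 hκ)
      have h4 := (D 0).smul_mem (κ * -κ)⁻¹ h3
      rw [smul_smul, inv_mul_cancel₀ hkk, one_smul] at h4
      exact hb0 ((Submodule.disjoint_def.1 hcompl.disjoint) b h4 hb)
    · rw [h] at hxm
      exact hx0 ((Submodule.disjoint_def.1 hcompl.disjoint) x hx hxm)

end Cfsg.Agent.SmallDim.UniPair
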